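import Mathlib

/-!
# Operators of finite order prime to the characteristic
-/

set_option autoImplicit false
set_option maxHeartbeats 800000
set_option linter.unusedSectionVars false

namespace Cfsg.Agent.H42.PrimeDegree

open Module

variable {k : Type*} [Field k] {W : Type*} [AddCommGroup W] [Module k W]

/-- The projection to an eigenspace agrees with the identity modulo an invariant subspace. -/
theorem exists_eigen_congr (A : Module.End k W) {n : ℕ} (hn : (n : k) ≠ 0) (hA : A ^ n = 1) {ν : k}
    (hν : ν ^ n = 1) (U S : Submodule k W) (hU : ∀ w ∈ U, A w ∈ U) (hS : ∀ w ∈ S, A w ∈ S) {z : W}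
    (hzU : z ∈ U) (hz : A z - ν • z ∈ S) : ∃ u ∈ U, A u = ν • u ∧ u - z ∈ S := by
  have hn0 : n ≠ 0 := fun h => hn (by rw [h, Nat.cast_zero])
  have hν0 : ν ≠ 0 := fun h => zero_ne_one ((zero_pow hn0).symm.trans (h ▸ hν))
  refine ⟨(n : k)⁻¹ • ∑ j ∈ Finset.range n, (ν⁻¹) ^ j • (A ^ j) z, ?_, ?_, ?_⟩
  · have hpow : ∀ j : ℕ, (A ^ j) z ∈ U := by
      intro j
      induction j with
      | zero => simpa using hzU
      | succ j ih => rw [pow_succ', Module.End.mul_apply]; exact hU _ ih
    exact U.smul_mem _ (U.sum_mem fun j _ => U.smul_mem _ (hpow j))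
  · rw [map_smul, map_sum, smul_comm ν ((n : k)⁻¹)]
    congr 1
    rw [Finset.smul_sum]
    have h : ∀ j, A ((ν⁻¹) ^ j • (A ^ j) z) = ν • ((ν⁻¹) ^ (j + 1) • (A ^ (j + 1)) z) := by
      intro j
      rw [map_smul, smul_smul, pow_succ' ν⁻¹, ← mul_assoc, mul_inv_cancel₀ hν0, one_mul, pow_succ',
        Module.End.mul_apply]
    rw [Finset.sum_congr rfl fun j _ => h j]
    set F : ℕ → W := fun j => ν • ((ν⁻¹) ^ j • (A ^ j) z) with hF
    show ∑ j ∈ Finset.range n, F (j + 1) = ∑ j ∈ Finset.range n, F j
    have h0 : F n = F 0 := by simp [hF, inv_pow, hν, hA]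
    have h1 := Finset.sum_range_succ' F n
    rw [Finset.sum_range_succ, h0] at h1
    exact (add_right_cancel h1).symm
  · have hpow : ∀ j : ℕ, (A ^ j) z - ν ^ j • z ∈ S := by
      intro j
      induction j with
      | zero => simp
      | succ j ih =>
        rw [pow_succ' A, Module.End.mul_apply,
          show A ((A ^ j) z) - ν ^ (j + 1) • z =
            A ((A ^ j) z - ν ^ j • z) + ν ^ j • (A z - ν • z) by
            rw [map_sub, map_smul, smul_sub, smul_smul, ← pow_succ, sub_add_sub_cancel]]
        exact S.add_mem (hS _ ih) (S.smul_mem _ hz)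
    have h : (n : k)⁻¹ • ∑ j ∈ Finset.range n, (ν⁻¹) ^ j • (A ^ j) z - z =
        (n : k)⁻¹ • ∑ j ∈ Finset.range n, (ν⁻¹) ^ j • ((A ^ j) z - ν ^ j • z) := by
      simp only [smul_sub, Finset.sum_sub_distrib, smul_smul, ← mul_pow, inv_mul_cancel₀ hν0,
        one_pow, one_smul, Finset.sum_const, Finset.card_range]
      rw [← Nat.cast_smul_eq_nsmul k, smul_smul, inv_mul_cancel₀ hn, one_smul]
    rw [h]
    exact S.smul_mem _ (S.sum_mem fun j _ => S.smul_mem _ (hpow j))

variable [IsAlgClosed k] [FiniteDimensional k W]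

/-- A basis of eigenvectors. -/
theorem exists_eigenbasis (A : Module.End k W) {n : ℕ} (hn : (n : k) ≠ 0) (hA : A ^ n = 1) :
    ∃ (c : Fin (finrank k W) → k) (b : Basis (Fin (finrank k W)) k W),
      (∀ i, A (b i) = c i • b i) ∧ ∀ i, c i ^ n = 1 := by
  classical
  have hss : A.IsSemisimple := by
    refine Module.End.isSemisimple_of_squarefree_aeval_eq_zero
      (p := Polynomial.X ^ n - Polynomial.C (1 : k)) ?_ ?_
    · exact (Polynomial.separable_X_pow_sub_C (1 : k) hn one_ne_zero).squarefree
    · simp [hA]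
  set s : Set W := {v | ∃ c : k, A v = c • v} with hs
  have htop : ⊤ ≤ Submodule.span k s := by
    rw [← Module.End.iSup_maxGenEigenspace_eq_top A]
    refine iSup_le fun c v hv => Submodule.subset_span ⟨c, ?_⟩
    rw [hss.isFinitelySemisimple.maxGenEigenspace_eq_eigenspace c] at hv
    exact Module.End.mem_eigenspace_iff.1 hv
  obtain ⟨t, ht, htsp, hli⟩ := exists_linearIndependent k s
  let b₀ : Basis t k W := Basis.mk hli (by rw [Subtype.range_coe, htsp]; exact htop)
  have : Fintype t := FiniteDimensional.fintypeBasisIndex b₀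
  have hcard : Fintype.card t = finrank k W := (finrank_eq_card_basis b₀).symm
  let e : t ≃ Fin (finrank k W) := (Fintype.equivFin t).trans (finCongr hcard)
  choose cf hcf using fun v : t => ht v.2
  have hb : ∀ i, A (b₀.reindex e i) = cf (e.symm i) • b₀.reindex e i := by
    intro i
    rw [Basis.reindex_apply, Basis.mk_apply]
    exact hcf _
  refine ⟨fun i => cf (e.symm i), b₀.reindex e, hb, fun i => ?_⟩
  have hpow : ∀ j : ℕ, (A ^ j) (b₀.reindex e i) = cf (e.symm i) ^ j • b₀.reindex e i := by
    intro j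
    induction j with
    | zero => simp
    | succ j ih => rw [pow_succ', Module.End.mul_apply, ih, map_smul, hb, smul_smul, ← pow_succ]
  have h := hpow n
  rw [hA, Module.End.one_apply] at h
  exact smul_left_injective k ((b₀.reindex e).ne_zero i) (h.symm.trans (one_smul k _).symm)

/-- The multiplicity of an eigenvalue in terms of an eigenbasis. -/
theorem finrank_eigenspace_eq {A : Module.End k W} {ι : Type*} [Fintype ι] [DecidableEq k]
    {c : ι → k} (b : Basis ι k W) (hb : ∀ i, A (b i) = c i • b i) (ν : k) :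
    finrank k (A.eigenspace ν) = (Finset.univ.filter fun i => c i = ν).card := by
  classical
  have heq : A.eigenspace ν = Submodule.span k (Set.range fun i : {i // c i = ν} => b i) := by
    refine le_antisymm (fun v hv => ?_) (Submodule.span_le.2 ?_)
    · rw [← b.sum_repr v]
      refine Submodule.sum_mem _ fun i _ => ?_
      by_cases hi : c i = ν
      · exact Submodule.smul_mem _ _ (Submodule.subset_span ⟨⟨i, hi⟩, rfl⟩)
      · have h0 : (A v) = ν • v := Module.End.mem_eigenspace_iff.1 hv
        have h1 : b.repr (A v) i = c i * b.repr v i := by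
          conv_lhs => rw [← b.sum_repr v, map_sum]
          simp [hb, Finsupp.single_apply, mul_comm]
        rw [h0, map_smul, Finsupp.smul_apply, smul_eq_mul] at h1
        have h2 : b.repr v i = 0 := by
          by_contra hne
          exact hi (mul_right_cancel₀ hne h1).symm
        rw [h2, zero_smul]
        exact Submodule.zero_mem _
    · rintro _ ⟨i, rfl⟩
      exact Module.End.mem_eigenspace_iff.2 (by rw [hb, i.2])
  rw [heq, show (fun i : {i // c i = ν} => b i) = b ∘ Subtype.val from rfl,
    finrank_span_eq_card (b.linearIndependent.comp _ Subtype.val_injective),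
    Fintype.card_subtype]

/-- The multiplicity of an eigenvalue in terms of traces. -/
theorem natCast_finrank_eigenspace (A : Module.End k W) {n : ℕ} (hn : (n : k) ≠ 0) (hA : A ^ n = 1)
    {ν : k} (hν : ν ^ n = 1) :
    (n : k) * (finrank k (A.eigenspace ν) : k) =
      ∑ j ∈ Finset.range n, (ν⁻¹) ^ j * LinearMap.trace k W (A ^ j) := by
  classical
  have hn0 : n ≠ 0 := fun h => hn (by rw [h, Nat.cast_zero])
  have hν0 : ν ≠ 0 := fun h => zero_ne_one ((zero_pow hn0).symm.trans (h ▸ hν))
  obtain ⟨c, b, hb, hc⟩ := exists_eigenbasis A hn hA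
  have htr : ∀ j : ℕ, LinearMap.trace k W (A ^ j) = ∑ i, c i ^ j := by
    intro j
    rw [LinearMap.trace_eq_matrix_trace k b, Matrix.trace]
    refine Finset.sum_congr rfl fun i _ => ?_
    have hpow : ∀ j : ℕ, (A ^ j) (b i) = c i ^ j • b i := by
      intro j
      induction j with
      | zero => simp
      | succ j ih => rw [pow_succ', Module.End.mul_apply, ih, map_smul, hb, smul_smul, ← pow_succ]
    rw [Matrix.diag_apply, LinearMap.toMatrix_apply, hpow, map_smul, Basis.repr_self]
    simp
  simp only [htr, Finset.mul_sum]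
  rw [Finset.sum_comm, finrank_eigenspace_eq b hb ν, Finset.natCast_card_filter, Finset.mul_sum]
  refine Finset.sum_congr rfl fun i _ => ?_
  simp only [← mul_pow]
  split_ifs with h
  · rw [h, inv_mul_cancel₀ hν0, Finset.sum_congr rfl fun j _ => one_pow j, Finset.sum_const,
      Finset.card_range, nsmul_eq_mul]
  · have h1 : ν⁻¹ * c i ≠ 1 := fun h1 => h ((inv_mul_eq_one₀ hν0).1 h1).symm
    rw [geom_sum_eq h1, mul_pow, inv_pow, hν, inv_one, one_mul, hc, sub_self, zero_div, mul_zero]

/-- The determinant is the product over an eigenbasis. -/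
theorem det_eq_prod {A : Module.End k W} {ι : Type*} [Fintype ι]
    {c : ι → k} (b : Basis ι k W) (hb : ∀ i, A (b i) = c i • b i) :
    LinearMap.det A = ∏ i, c i := by
  classical
  have h : LinearMap.toMatrix b b A = Matrix.diagonal c := by
    ext i j
    rw [LinearMap.toMatrix_apply, hb, map_smul, Basis.repr_self, Matrix.diagonal_apply]
    by_cases hij : i = j
    · subst hij; simp
    · simp [hij]
  rw [← LinearMap.det_toMatrix b, h, Matrix.det_diagonal]

/-- An eigenvector inside one invariant subspace outside another subspace. -/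
theorem exists_eigen_mem_not_mem (A : Module.End k W) {n : ℕ} (hn : (n : k) ≠ 0) (hA : A ^ n = 1)
    (U D : Submodule k W) (hU : ∀ w ∈ U, A w ∈ U) (hUD : ¬ U ≤ D) :
    ∃ (ν : k) (v : W), ν ^ n = 1 ∧ A v = ν • v ∧ v ∈ U ∧ v ∉ D := by
  set B : Module.End k U := A.restrict hU
  have hB : B ^ n = 1 := by
    refine LinearMap.ext fun w => Subtype.ext ?_
    have h : ∀ j : ℕ, (((B ^ j) w : U) : W) = (A ^ j) (w : W) := by
      intro j
      induction j with
      | zero => simp
      | succ j ih => rw [pow_succ', pow_succ', Module.End.mul_apply, Module.End.mul_apply, ← ih]; rfl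
    rw [h, hA]
    rfl
  obtain ⟨c, b, hb, hc⟩ := exists_eigenbasis B hn hB
  by_contra hcon
  push Not at hcon
  refine hUD fun w hw => ?_
  have hall : ∀ i, ((b i : U) : W) ∈ D := fun i =>
    hcon (c i) _ (hc i) (congrArg Subtype.val (hb i)) (b i).2
  have h := congrArg Subtype.val (b.sum_repr ⟨w, hw⟩)
  simp only [AddSubmonoidClass.coe_finsetSum, SetLike.val_smul] at h
  rw [← h]
  exact D.sum_mem fun i _ => D.smul_mem _ (hall i)

/-- Multiplicities in a submodule and in the quotient add up. -/
theorem finrank_eigenspace_add_le (A : Module.End k W) {n : ℕ} (hn : (n : k) ≠ 0) (hA : A ^ n = 1)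
    (U : Submodule k W) (hU : ∀ w ∈ U, A w ∈ U) (ν : k) (hν : ν ^ n = 1) :
    finrank k (Module.End.eigenspace (A.restrict hU) ν) +
        finrank k (Module.End.eigenspace (U.mapQ U A hU) ν) ≤
      finrank k (A.eigenspace ν) := by
  set L : A.eigenspace ν →ₗ[k] W ⧸ U := U.mkQ ∘ₗ (A.eigenspace ν).subtype with hL
  have hrange : Module.End.eigenspace (U.mapQ U A hU) ν ≤ LinearMap.range L := by
    intro q hq
    obtain ⟨z, rfl⟩ := U.mkQ_surjective q
    have hz : A z - ν • z ∈ U := (Submodule.Quotient.eq U).1 (Module.End.mem_eigenspace_iff.1 hq)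
    obtain ⟨u, -, hu, huz⟩ := exists_eigen_congr A hn hA hν ⊤ U (fun _ _ => Submodule.mem_top)
      hU Submodule.mem_top hz
    exact ⟨⟨u, Module.End.mem_eigenspace_iff.2 hu⟩, (Submodule.Quotient.eq U).2 huz⟩
  let J : Module.End.eigenspace (A.restrict hU) ν →ₗ[k] LinearMap.ker L :=
    { toFun := fun u => ⟨⟨((u : U) : W), Module.End.mem_eigenspace_iff.2
          (congrArg Subtype.val (Module.End.mem_eigenspace_iff.1 u.2))⟩,
        LinearMap.mem_ker.2 ((Submodule.Quotient.mk_eq_zero U).2 (u : U).2)⟩
      map_add' := fun u v => rfl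
      map_smul' := fun r u => rfl }
  have hJ : Function.Injective J := fun u v h => by
    have h1 : ((u : U) : W) = ((v : U) : W) :=
      congrArg (fun z : LinearMap.ker L => ((z : A.eigenspace ν) : W)) h
    exact Subtype.ext (Subtype.ext h1)
  have h1 := LinearMap.finrank_le_finrank_of_injective hJ
  have h2 := Submodule.finrank_mono hrange
  have h3 := L.finrank_range_add_finrank_ker
  omega

end Cfsg.Agent.H42.PrimeDegree
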