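import Mathlib
import Cfsg.Prelude.Def_Characters
import Cfsg.Agent.H43.D1.Setup
import Cfsg.Agent.H42.SmallFaithful.Reduce
import Cfsg.Agent.H26.CharLinear
import Cfsg.Agent.H26.CharEquiv
import Cfsg.Agent.H26.CharInvolutions

/-!
# Transitive groups of prime degree with one irreducible character of degree `p`
-/

set_option autoImplicit false
set_option maxHeartbeats 1000000
set_option linter.unusedSectionVars false

namespace Cfsg.Agent.H42.PrimeDegree

open Cfsg.Agent.H43.D1
open scoped Pointwise

attribute [local instance] Fintype.ofFinite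

variable {p : ℕ} [hp : Fact p.Prime]

/-- The local data of a simple group of prime degree. -/
structure Datum (p : ℕ) (G : Type*) [Group G] extends Setup p G where
  simple : ∀ H : Subgroup G, H.Normal → H = ⊥ ∨ H = ⊤
  perfect : commutator G = ⊤
  a : G
  a_gen : Subgroup.zpowers a = L
  f : ℕ
  card_eq : p = Nat.card L * f + 1
  even_f : Even f
  two_le : 2 ≤ Nat.card L
  act_inj : ∀ l ∈ L, l * x * l⁻¹ = x → l = 1
  cent : Subgroup.centralizer ({x} : Set G) = Subgroup.zpowers x

/-- A linear character fixing the only irreducible character of degree `p` has `p`th power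
one. -/
theorem pow_eq_one_of_unique {G : Type*} [Group G] [Finite G] {χ : Cfsg.IrrCharacter G}
    (hχ : Cfsg.charDegree (χ : G → ℂ) = p)
    (huniq : ∀ φ : Cfsg.IrrCharacter G, Cfsg.charDegree (φ : G → ℂ) = p → φ = χ)
    (l : G →* ℂˣ) (g : G) : (l g : ℂ) ^ p = 1 := by
  classical
  obtain ⟨n, ρ, hρ, hc⟩ := χ.2
  have hn : n = p := by
    rw [← hχ, H26.charDegree_eq (d := n) (by rw [← hc, ρ.char_one, Module.finrank_fin_fun])]
  subst hn
  let ρ' : Representation ℂ G (Fin n → ℂ) :=
    { toFun := fun g => (l g : ℂ) • ρ g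
      map_one' := by rw [map_one, map_one, Units.val_one, one_smul]
      map_mul' := fun a b => by
        rw [map_mul, map_mul, Units.val_mul, smul_mul_assoc, mul_smul_comm, smul_smul] }
  have hc' : ρ'.character = (H26.linearTwist l χ : Cfsg.IrrCharacter G).1 := by
    funext g
    show LinearMap.trace ℂ _ ((l g : ℂ) • ρ g) = (l g : ℂ) * χ.1 g
    rw [map_smul, smul_eq_mul, ← hc]
    rfl
  have htw : H26.linearTwist l χ = χ := by
    refine huniq _ ?_
    rw [← hχ, H26.charDegree_eq (d := n) (show ((l 1 : ℂˣ) : ℂ) * χ.1 1 = (n : ℂ) by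
      rw [map_one, Units.val_one, one_mul, ← hc, ρ.char_one, Module.finrank_fin_fun]), hχ]
  rw [htw, ← hc] at hc'
  obtain ⟨e⟩ := H26.nonempty_equiv_of_char_eq ρ' ρ hc'
  have hdet : LinearMap.det (ρ' g) = LinearMap.det (ρ g) := by
    rw [← LinearMap.det_conj (ρ' g) e.toLinearEquiv]
    congr 1
    refine LinearMap.ext fun v => ?_
    have h := LinearMap.congr_fun (e.isIntertwining' g) (e.toLinearEquiv.symm v)
    simp only [LinearMap.comp_apply] at h ⊢
    refine h.trans ?_
    exact congrArg (ρ g) (e.toLinearEquiv.apply_symm_apply v)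
  change LinearMap.det ((l g : ℂ) • ρ g) = _ at hdet
  rw [LinearMap.det_smul, Module.finrank_fin_fun] at hdet
  refine mul_right_cancel₀ (b := LinearMap.det (ρ g)) ?_ (hdet.trans (one_mul _).symm)
  intro h0
  have h1 : LinearMap.det (ρ g) * LinearMap.det (ρ g⁻¹) = 1 := by
    rw [← map_mul, ← map_mul, mul_inv_cancel, map_one, map_one]
  rw [h0, zero_mul] at h1
  exact zero_ne_one h1

/-- Transitive groups of prime degree with a unique character of degree `p`. -/
theorem exists_datum {α : Type*} [Fintype α] [DecidableEq α] (hα : Fintype.card α = p)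
    (G : Subgroup (Equiv.Perm α)) [MulAction.IsPretransitive G α]
    (huniq : ∃! χ : Cfsg.IrrCharacter G, Cfsg.charDegree (χ : G → ℂ) = p) (P : Sylow p G)
    (E : Subgroup G)
    (hPE : (P : Subgroup G) ⊔ E = Subgroup.normalizer ((P : Subgroup G) : Set G))
    (hPE' : (P : Subgroup G) ⊓ E = ⊥)
    (hNE : Nat.card (Subgroup.normalizer (E : Set G)) = 2 * Nat.card E) :
    5 ≤ p ∧ ∃ D : Datum p G, D.P = (P : Subgroup G) ∧ D.L = E := by
  classical
  have hpp : p.Prime := hp.out
  obtain ⟨χ, hχ, hχu⟩ := huniq
  have hcard' : Nat.card α = p := by rw [Nat.card_eq_fintype_card, hα]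
  obtain ⟨i₀⟩ : Nonempty α := Fintype.card_pos_iff.1 (hα ▸ hpp.pos)
  have hpG : p ∣ Nat.card G := by
    have h := MulAction.index_stabilizer_of_transitive G i₀
    rw [hcard'] at h
    exact (dvd_of_eq h.symm).trans (Subgroup.index_dvd_card _)
  have hsq : ¬ p ^ 2 ∣ Nat.card G := by
    intro h
    have h1 := h.trans (Subgroup.card_subgroup_dvd_card G)
    rw [Nat.card_perm, hcard', ← Nat.mul_factorial_pred hpp.ne_zero, sq] at h1
    have h2 := (Nat.Prime.dvd_factorial hpp).1 ((Nat.mul_dvd_mul_iff_left hpp.pos).1 h1)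
    have := hpp.two_le
    omega
  have hPcard : Nat.card (P : Subgroup G) = p := by
    rw [P.card_eq_multiplicity]
    have h1 := hpp.factorization_pos_of_dvd Nat.card_pos.ne' hpG
    have h2 : ¬ 2 ≤ (Nat.card G).factorization p := fun h =>
      hsq ((hpp.pow_dvd_iff_le_factorization Nat.card_pos.ne').2 h)
    rw [show (Nat.card G).factorization p = 1 by omega, pow_one]
  have : Fact (Nat.card (P : Subgroup G)).Prime := ⟨hPcard.symm ▸ hpp⟩
  obtain ⟨x, hx⟩ := exists_prime_orderOf_dvd_card' (G := (P : Subgroup G)) p (dvd_of_eq hPcard.symm)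
  set y : G := (x : G) with hy
  have hyo : orderOf y = p := by rw [hy, Subgroup.orderOf_coe, hx]
  have hgen : Subgroup.zpowers y = (P : Subgroup G) :=
    Subgroup.eq_of_le_of_card_ge (Subgroup.zpowers_le.2 x.2)
      (by rw [Nat.card_zpowers, hyo, hPcard])
  have hyo' : orderOf (y : Equiv.Perm α) = p := by rw [Subgroup.orderOf_coe, hyo]
  have hycyc : (y : Equiv.Perm α).IsCycle :=
    Equiv.Perm.isCycle_of_prime_order'' (by rw [hα]; exact hpp) (by rw [hyo', hα])
  have hyne : ∀ u : α, (y : Equiv.Perm α) u ≠ u := fun u => Equiv.Perm.mem_support.1 (by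
    rw [show (y : Equiv.Perm α).support = Finset.univ by
      rw [← Finset.card_eq_iff_eq_univ, ← hycyc.orderOf, hyo', hα]]
    exact Finset.mem_univ u)
  have hytr : ∀ u w : α, ∃ i : ℤ, (y ^ i) • u = w := fun u w => by
    obtain ⟨i, hi⟩ := hycyc.exists_zpow_eq (hyne u) (hyne w)
    exact ⟨i, by simpa [Subgroup.smul_def, Equiv.Perm.smul_def] using hi⟩
  -- the centralizer of `y`
  have hcent : Subgroup.centralizer ({y} : Set G) = Subgroup.zpowers y := by
    refine le_antisymm (fun g hg => ?_) (Subgroup.zpowers_le.2 ?_)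
    · have hgy : Commute g y := (Subgroup.mem_centralizer_iff.1 hg y rfl).symm
      obtain ⟨i, hi⟩ := hytr i₀ (g • i₀)
      refine Subgroup.mem_zpowers_iff.2 ⟨i, eq_of_smul_eq_smul (α := α) fun u => ?_⟩
      obtain ⟨j, rfl⟩ := hytr i₀ u
      rw [← mul_smul, ← mul_smul, (hgy.zpow_right j).eq, mul_smul, mul_smul _ g, ← hi, ← mul_smul,
        ← mul_smul, ← zpow_add, ← zpow_add, add_comm]
    · exact Subgroup.mem_centralizer_iff.2 fun z hz => by rw [hz]
  -- `E`
  have hEnorm : ∀ l ∈ E, l * y * l⁻¹ ∈ Subgroup.zpowers y := by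
    intro l hl
    have h1 : l ∈ Subgroup.normalizer ((P : Subgroup G) : Set G) := hPE ▸ Subgroup.mem_sup_right hl
    rw [hgen]
    exact (Subgroup.mem_normalizer_iff.1 h1 y).1 x.2
  have hEle : E ≤ Subgroup.normalizer ((P : Subgroup G) : Set G) := hPE ▸ le_sup_right
  have hinj : ∀ l ∈ E, l * y * l⁻¹ = y → l = 1 := by
    intro l hl he
    have h1 : l ∈ Subgroup.centralizer ({y} : Set G) := by
      refine Subgroup.mem_centralizer_iff.2 fun z hz => ?_
      rw [Set.mem_singleton_iff] at hz
      subst hz
      conv_lhs => rw [← he]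
      rw [inv_mul_cancel_right]
    rw [hcent, hgen] at h1
    have h2 : l ∈ (P : Subgroup G) ⊓ E := ⟨h1, hl⟩
    rw [hPE'] at h2
    exact Subgroup.mem_bot.1 h2
  have hEp : ¬ p ∣ Nat.card E := by
    intro hd
    obtain ⟨l, hl⟩ := exists_prime_orderOf_dvd_card' (G := E) p hd
    rw [← Subgroup.orderOf_coe] at hl
    have hlP : (l : G) ∈ (P : Subgroup G) := by
      have hpg : IsPGroup p ((P : Subgroup G) ⊔ Subgroup.zpowers (l : G) : Subgroup G) :=
        IsPGroup.to_sup_of_normal_left' P.2
          (IsPGroup.of_card (n := 1) (by rw [Nat.card_zpowers, hl, pow_one]))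
          (Subgroup.zpowers_le.2 (hEle l.2))
      rw [← P.3 hpg le_sup_left]
      exact Subgroup.mem_sup_right (Subgroup.mem_zpowers _)
    have h2 : (l : G) ∈ (P : Subgroup G) ⊓ E := ⟨hlP, l.2⟩
    rw [hPE', Subgroup.mem_bot] at h2
    rw [h2, orderOf_one] at hl
    exact hpp.one_lt.ne hl
  let S : Setup p G :=
    { x := y
      L := E
      orderOf_x := hyo
      not_sq := hsq
      le_norm := hEnorm
      not_dvd := hEp
      exists_mul := fun g hg => by
        have hgN : g ∈ Subgroup.normalizer ((P : Subgroup G) : Set G) := by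
          rw [Subgroup.mem_normalizer_iff_map_conj_eq]
          refine Subgroup.eq_of_le_of_card_ge ?_
            (Subgroup.card_map_of_injective (MulAut.conj g).injective).ge
          rintro _ ⟨v, hv, rfl⟩
          rw [SetLike.mem_coe, ← hgen] at hv
          obtain ⟨i, rfl⟩ := Subgroup.mem_zpowers_iff.1 hv
          rw [map_zpow, ← hgen]
          exact Subgroup.zpow_mem _ hg i
        rw [← hPE, sup_comm] at hgN
        have h2 : g ∈ (E : Set G) * ((P : Subgroup G) : Set G) := by
          rw [← Subgroup.coe_mul_of_left_le_normalizer_right E (P : Subgroup G) hEle]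
          exact hgN
        obtain ⟨l, hl, u, hu, rfl⟩ := h2
        exact ⟨l, hl, u, hgen.symm ▸ hu, rfl⟩ }
  have hSP : S.P = (P : Subgroup G) := hgen
  -- the automizer is cyclic
  have hactinj : Function.Injective S.act := by
    refine (injective_iff_map_eq_one _).2 fun l hl => Subtype.ext (hinj l l.2 ?_)
    have h := S.act_spec l
    rw [hl, Units.val_one, ZMod.val_one, pow_one] at h
    exact h
  have hEcyc : IsCyclic E := isCyclic_of_injective_ringHom (R := ZMod p)
    ((Units.coeHom (ZMod p)).comp S.act) (Units.val_injective.comp hactinj)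
  have hdvd : Nat.card E ∣ p - 1 := by
    have := Subgroup.card_dvd_of_injective S.act hactinj
    rwa [Nat.card_eq_fintype_card (α := (ZMod p)ˣ), ZMod.card_units] at this
  obtain ⟨f, hf⟩ := hdvd
  have hp1 : p = Nat.card E * f + 1 := by have := hpp.one_lt; omega
  -- the degree `p` excludes small cases
  have hnab : ∀ A : Subgroup G, (∀ a ∈ A, ∀ b ∈ A, a * b = b * a) → p ≤ A.index := by
    intro A hA
    obtain ⟨n, ρ, hρ, hc⟩ := χ.2
    have h1 := H26.finrank_le_index_of_abelian ρ A hA
    rw [Module.finrank_fin_fun] at h1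
    rwa [← H26.charDegree_eq (d := n) (show (χ : G → ℂ) 1 = (n : ℂ) by
      rw [← hc, ρ.char_one, Module.finrank_fin_fun]), hχ] at h1
  have hfix : ∀ b ∈ E, b ≠ 1 → ∀ u w : α, b • u = u → b • w = w → u = w := by
    intro b hb hb1 u w hu hw
    by_contra huw
    obtain ⟨i, hi⟩ := hytr u w
    obtain ⟨j, hj⟩ := Subgroup.mem_zpowers_iff.1 (hEnorm b hb)
    have hz : y ^ (j * i) * y ^ (-i) = 1 := by
      have hfu : (y ^ (-i) * y ^ (j * i)) • u = u := by
        have h1 : y ^ (j * i) * b = b * y ^ i := by
          rw [zpow_mul, hj, conj_zpow, inv_mul_cancel_right]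
        have h2 : y ^ (j * i) • u = w := by
          conv_lhs => rw [← hu]
          rw [← mul_smul, h1, mul_smul, hi, hw]
        rw [mul_smul, h2, ← hi, ← mul_smul, ← zpow_add, neg_add_cancel, zpow_zero, one_smul]
      have hreg : y ^ (-i) * y ^ (j * i) = 1 := by
        refine eq_of_smul_eq_smul (α := α) fun v => ?_
        obtain ⟨m, rfl⟩ := hytr u v
        rw [← mul_smul, ← zpow_add, ← zpow_add, add_comm, zpow_add, zpow_add, mul_smul, hfu,
          one_smul]
      rw [← hreg, ← zpow_add, ← zpow_add, add_comm]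
    have hyi : y ^ i ≠ 1 := fun h => huw (by rw [← hi, h, one_smul])
    refine hb1 (hinj b hb ?_)
    rw [← hj]
    rw [← zpow_add, ← zpow_zero y, zpow_eq_zpow_iff_modEq, hyo] at hz
    rw [ne_eq, ← zpow_zero y, zpow_eq_zpow_iff_modEq, hyo] at hyi
    conv_rhs => rw [← zpow_one y]
    rw [zpow_eq_zpow_iff_modEq, hyo]
    rw [Int.modEq_zero_iff_dvd] at hz hyi
    have h3 : (p : ℤ) ∣ (j - 1) * i := by
      convert hz using 1; ring
    rw [Int.modEq_iff_dvd]
    rcases (Nat.prime_iff_prime_int.1 hpp).dvd_mul.1 h3 with h | h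
    · rw [show (1 : ℤ) - j = -(j - 1) by ring]; exact dvd_neg.2 h
    · exact absurd h hyi
  have he2 : 2 ≤ Nat.card E := by
    by_contra h
    have hE : E = ⊥ := Subgroup.card_eq_one.1 (by have := Nat.card_pos (α := E); omega)
    subst hE
    have h1 : Subgroup.normalizer ((⊥ : Subgroup G) : Set G) = ⊤ := Subgroup.normalizer_eq_top ..
    rw [h1, Subgroup.card_top, Subgroup.card_bot] at hNE
    have h2 : p = 2 := by
      rcases (Nat.dvd_prime Nat.prime_two).1 (hNE ▸ hpG : p ∣ 2 * 1) with h | h
      · exact absurd h hpp.one_lt.ne'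
      · exact h
    have h3 := hnab (P : Subgroup G) (fun a ha b hb => by
      rw [← hgen] at ha hb
      obtain ⟨i, rfl⟩ := Subgroup.mem_zpowers_iff.1 ha
      obtain ⟨j, rfl⟩ := Subgroup.mem_zpowers_iff.1 hb
      exact (Commute.zpow_zpow_self y i j).eq)
    have h4 := (P : Subgroup G).card_mul_index
    rw [hPcard, hNE] at h4
    nlinarith
  have h5 : 5 ≤ p := by
    by_contra h
    have hp4 : p ≠ 4 := fun e => by rw [e] at hpp; norm_num at hpp
    have hG : Nat.card G ∣ p.factorial := by
      have := Subgroup.card_subgroup_dvd_card G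
      rwa [Nat.card_perm, hcard'] at this
    have h3 := hnab (P : Subgroup G) (fun a ha b hb => by
      rw [← hgen] at ha hb
      obtain ⟨i, rfl⟩ := Subgroup.mem_zpowers_iff.1 ha
      obtain ⟨j, rfl⟩ := Subgroup.mem_zpowers_iff.1 hb
      exact (Commute.zpow_zpow_self y i j).eq)
    have h4 := (P : Subgroup G).card_mul_index
    rw [hPcard] at h4
    have h6 : p * p ≤ p.factorial :=
      le_trans (Nat.mul_le_mul le_rfl h3) (h4 ▸ Nat.le_of_dvd (Nat.factorial_pos p) hG)
    have := hpp.two_le
    rcases (show p = 2 ∨ p = 3 by omega) with h7 | h7 <;> rw [h7] at h6 <;>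
      norm_num [Nat.factorial] at h6
  refine ⟨h5, ?_⟩
  -- normal subgroups are transitive
  have : MulAction.IsPreprimitive G α :=
    MulAction.IsPreprimitive.of_prime_card (by rw [hcard']; exact hpp)
  have hnorm : ∀ M : Subgroup G, M.Normal → M ≠ ⊥ → y ∈ M ∧ M ⊔ E = ⊤ := by
    intro M hM hM1
    have hne : MulAction.fixedPoints M α ≠ Set.univ := by
      intro h
      refine hM1 ((Subgroup.eq_bot_iff_forall _).2 fun m hm => ?_)
      refine eq_of_smul_eq_smul (α := α) fun b => ?_
      have hb : b ∈ MulAction.fixedPoints M α := h ▸ Set.mem_univ b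
      rw [one_smul]
      exact hb ⟨m, hm⟩
    have := MulAction.IsQuasiPreprimitive.isPretransitive_of_normal hne
    have hpM : p ∣ Nat.card M := by
      have h := MulAction.index_stabilizer_of_transitive M i₀
      rw [hcard'] at h
      exact (dvd_of_eq h.symm).trans (Subgroup.index_dvd_card _)
    have hy' : y ∈ M := SmallFaithful.x_mem_of_dvd S M hpM
    have hPM : (P : Subgroup G) ≤ M := hgen ▸ Subgroup.zpowers_le.2 hy'
    refine ⟨hy', eq_top_iff.2 ?_⟩
    rw [← Sylow.normalizer_sup_eq_top' P hPM]
    exact sup_le (hPE ▸ sup_le (hPM.trans le_sup_left) le_sup_right) le_sup_left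
  have hperf : commutator G = ⊤ := by
    have hne : commutator G ≠ ⊥ := by
      intro h
      have h1 := hnab ⊤ fun a _ b _ => by
        have := Subgroup.commutator_eq_bot_iff_le_centralizer.1 h (Subgroup.mem_top a)
        exact (Subgroup.mem_centralizer_iff.1 this b (Subgroup.mem_top b)).symm
      rw [Subgroup.index_top] at h1
      omega
    obtain ⟨-, hsup⟩ := hnorm _ inferInstance hne
    by_contra hnt
    obtain ⟨g, hg⟩ : ∃ g : G, g ∉ commutator G := by
      by_contra hc
      push Not at hc
      exact hnt (eq_top_iff.2 fun g _ => hc g)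
    have hg1 : Abelianization.of g ≠ 1 := fun h => hg ((QuotientGroup.eq_one_iff g).1 h)
    have : NeZero (Monoid.exponent (Abelianization G) : ℂ) :=
      ⟨Nat.cast_ne_zero.2 Monoid.exponent_ne_zero_of_finite⟩
    obtain ⟨φ, hφ⟩ := CommGroup.exists_apply_ne_one_of_hasEnoughRootsOfUnity (Abelianization G)
      ℂ hg1
    refine hφ (Units.ext ?_)
    set l : G →* ℂˣ := φ.comp Abelianization.of with hl
    have h1 : (l g : ℂ) ^ p = 1 :=
      pow_eq_one_of_unique hχ (fun ψ hψ => hχu ψ hψ) l g
    have h2 : (l g) ^ Nat.card E = 1 := by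
      have hmem : g ∈ commutator G ⊔ E := hsup ▸ Subgroup.mem_top g
      have h : ((commutator G ⊔ E : Subgroup G) : Set G) = (commutator G : Set G) * (E : Set G) :=
        Subgroup.normal_mul _ _
      rw [← SetLike.mem_coe, h] at hmem
      obtain ⟨m, hm, b, hb, rfl⟩ := hmem
      have hm1 : l m = 1 := by
        rw [hl, MonoidHom.comp_apply, show Abelianization.of m = 1 from
          (QuotientGroup.eq_one_iff m).2 hm, map_one]
      rw [map_mul, hm1, one_mul, ← map_pow]
      have : b ^ Nat.card E = 1 := congrArg Subtype.val (pow_card_eq_one' (x := (⟨b, hb⟩ : E)))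
      rw [this, map_one]
    have h3 : (l g) ^ Nat.gcd p (Nat.card E) = 1 :=
      pow_gcd_eq_one.2 ⟨Units.ext (by rw [Units.val_pow_eq_pow_val]; exact h1), h2⟩
    rw [(hpp.coprime_iff_not_dvd.2 hEp), pow_one] at h3
    exact congrArg Units.val h3
  have hsimple : ∀ H : Subgroup G, H.Normal → H = ⊥ ∨ H = ⊤ := by
    intro M hM
    rcases eq_or_ne M ⊥ with h | h
    · exact Or.inl h
    refine Or.inr (eq_top_iff.2 (hperf ▸ ?_))
    have hsup := (hnorm M hM h).2
    have hc := IsCyclic.isMulCommutative (α := E)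
    rw [commutator_def, Subgroup.commutator_le]
    intro a _ b _
    rw [← QuotientGroup.eq_one_iff]
    have hq : ∀ g : G, ∃ l : E, (QuotientGroup.mk g : G ⧸ M) = QuotientGroup.mk (l : G) := by
      intro g
      have hmem : g ∈ M ⊔ E := hsup ▸ Subgroup.mem_top g
      rw [← SetLike.mem_coe, Subgroup.normal_mul] at hmem
      obtain ⟨m, hm, l, hl, rfl⟩ := hmem
      exact ⟨⟨l, hl⟩, by rw [QuotientGroup.mk_mul, (QuotientGroup.eq_one_iff m).2 hm, one_mul]⟩
    obtain ⟨l, hl⟩ := hq a
    obtain ⟨l', hl'⟩ := hq b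
    rw [← QuotientGroup.mk'_apply, map_commutatorElement, QuotientGroup.mk'_apply,
      QuotientGroup.mk'_apply, hl, hl', commutatorElement_eq_one_iff_mul_comm, ← QuotientGroup.mk_mul,
      ← QuotientGroup.mk_mul]
    exact congrArg (fun z : E => (QuotientGroup.mk (z : G) : G ⧸ M)) (hc.is_comm.comm l l')
  obtain ⟨a, ha⟩ := (Subgroup.isCyclic_iff_exists_zpowers_eq_top E).1 hEcyc
  have haE : a ∈ E := ha ▸ Subgroup.mem_zpowers a
  have hao : orderOf a = Nat.card E := by rw [← Nat.card_zpowers, ha]
  -- cycles of the generator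
  have hfe : Even f := by
    rcases Nat.even_or_odd (Nat.card E) with heven | hodd
    swap
    · have hpodd : Odd p := hpp.odd_of_ne_two (by omega)
      rcases Nat.even_or_odd f with h | h
      · exact h
      · exfalso
        have h1 : Odd (Nat.card E * f) := hodd.mul h
        rw [hp1] at hpodd
        obtain ⟨r, hr⟩ := h1
        obtain ⟨r', hr'⟩ := hpodd
        omega
    set σ : Equiv.Perm α := (a : Equiv.Perm α) with hσ
    have hcycle : ∀ n ∈ σ.cycleType, n = Nat.card E := by
      intro n hn
      have hn2 := Equiv.Perm.two_le_of_mem_cycleType hn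
      refine Nat.dvd_antisymm ?_ ?_
      · rw [← hao, ← Subgroup.orderOf_coe, ← Equiv.Perm.lcm_cycleType]
        exact Multiset.dvd_lcm hn
      · rw [← hao]
        refine orderOf_dvd_of_pow_eq_one ?_
        obtain ⟨c, τ, hct, hd, hc, hcn⟩ := Equiv.Perm.mem_cycleType_iff.1 hn
        obtain ⟨u, hu, w, hw, huw⟩ := Finset.one_lt_card.1 (show 1 < c.support.card by omega)
        have hpow : ∀ v ∈ c.support, (a ^ n) • v = v := by
          intro v hv
          show ((a ^ n : G) : Equiv.Perm α) v = v
          rw [SubmonoidClass.coe_pow, show (a : Equiv.Perm α) = σ from rfl, hct, hd.commute.mul_pow,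
            Equiv.Perm.mul_apply]
          have hτ : (τ ^ n) v = v := Equiv.Perm.pow_apply_eq_self_of_apply_eq_self
            ((hd v).resolve_left (Equiv.Perm.mem_support.1 hv)) n
          rw [hτ, ← hcn, ← hc.orderOf, pow_orderOf_eq_one, Equiv.Perm.one_apply]
        by_contra hne
        exact huw (hfix _ (E.pow_mem haE n) hne u w (hpow u hu) (hpow w hw))
    have hrep : σ.cycleType = Multiset.replicate σ.cycleType.card (Nat.card E) :=
      Multiset.eq_replicate.2 ⟨rfl, hcycle⟩
    have hsum : σ.cycleType.sum = σ.cycleType.card * Nat.card E := by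
      conv_lhs => rw [hrep, Multiset.sum_replicate, smul_eq_mul]
    have hsign : Equiv.Perm.sign σ = 1 := by
      have hle : commutator G ≤ (Equiv.Perm.sign.comp G.subtype).ker := by
        rw [commutator_def, Subgroup.commutator_le]
        intro u _ v _
        rw [MonoidHom.mem_ker, map_commutatorElement, commutatorElement_eq_one_iff_mul_comm, mul_comm]
      exact MonoidHom.mem_ker.1 (hle (hperf ▸ Subgroup.mem_top a))
    rw [Equiv.Perm.sign_of_cycleType, hsum] at hsign
    have hev : Even σ.cycleType.card := by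
      rcases Nat.even_or_odd σ.cycleType.card with h | h
      · exact h
      · exfalso
        rw [((heven.mul_left _).add_odd h).neg_one_pow] at hsign
        exact absurd hsign (by decide)
    -- at most one fixed point
    have hfp : σ.support.card + 1 ≥ p := by
      have h1 : (Finset.univ \ σ.support).card ≤ 1 := by
        refine Finset.card_le_one.2 fun u hu w hw => ?_
        simp only [Finset.mem_sdiff, Finset.mem_univ, true_and, Equiv.Perm.notMem_support] at hu hw
        exact hfix a haE (fun h => by rw [h, orderOf_one] at hao; omega) u w hu hw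
      rw [Finset.card_sdiff, Finset.inter_univ, Finset.card_univ, hα] at h1
      omega
    have hle := σ.sum_cycleType_le
    rw [hsum, hα] at hle
    rw [← Equiv.Perm.sum_cycleType, hsum] at hfp
    have hcf : σ.cycleType.card = f := by
      rcases lt_trichotomy σ.cycleType.card f with h | h | h
      · have := Nat.mul_le_mul_right (Nat.card E) (Nat.succ_le_of_lt h)
        rw [Nat.succ_mul, mul_comm f] at this
        omega
      · exact h
      · have := Nat.mul_le_mul_right (Nat.card E) (Nat.succ_le_of_lt h)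
        rw [Nat.succ_mul, mul_comm f] at this
        omega
    rwa [hcf] at hev
  exact ⟨{
      toSetup := S
      simple := hsimple
      perfect := hperf
      a := a
      a_gen := ha
      f := f
      card_eq := hp1
      even_f := hfe
      two_le := he2
      act_inj := hinj
      cent := hcent }, hSP, rfl⟩

end Cfsg.Agent.H42.PrimeDegree
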