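import Mathlib
import Cfsg.Agent.H42.PrimeDegree.Perm
import Cfsg.Agent.H42.PrimeDegree.Eigen
import Cfsg.Agent.H43.D1.SmallModular

/-!
# Weights of the complement on the composition factors
-/

set_option autoImplicit false
set_option maxHeartbeats 1000000
set_option linter.unusedSectionVars false

namespace Cfsg.Agent.H42.PrimeDegree

open Module Cfsg.Agent.H43.D1

attribute [local instance] Fintype.ofFinite

variable {p : ℕ} [hp : Fact p.Prime] {G : Type*} [Group G] [Finite G] (D : Datum p G)
  {k : Type*} [Field k] [IsAlgClosed k] [CharP k p]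
  {W : Type*} [AddCommGroup W] [Module k W] [FiniteDimensional k W] (σ : G →* Module.End k W)

/-- The exponent of `a` on `x`. -/
noncomputable def expo : ℕ := (D.act ⟨D.a, D.a_gen ▸ Subgroup.mem_zpowers D.a⟩ : ZMod p).val

theorem conj_x : D.a * D.x * D.a⁻¹ = D.x ^ expo D :=
  D.act_spec ⟨D.a, D.a_gen ▸ Subgroup.mem_zpowers D.a⟩

theorem a_pow_card : D.a ^ Nat.card D.L = 1 := by
  rw [← D.a_gen, Nat.card_zpowers, pow_orderOf_eq_one]

theorem card_cast_ne_zero : (Nat.card D.L : k) ≠ 0 := fun h =>
  D.not_dvd ((CharP.cast_eq_zero_iff k p _).1 h)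

theorem sigma_pow_card : σ D.a ^ Nat.card D.L = 1 := by
  rw [← map_pow, a_pow_card, map_one]

/-- The scalar by which `a` acts on `x`. -/
theorem expo_pow_eq_one_iff (i : ℕ) : ((expo D : ℕ) : k) ^ i = 1 ↔ Nat.card D.L ∣ i := by
  have hmem : D.a ∈ D.L := D.a_gen ▸ Subgroup.mem_zpowers D.a
  have hinj : Function.Injective D.act := by
    refine (injective_iff_map_eq_one _).2 fun l hl => Subtype.ext (D.act_inj l l.2 ?_)
    have h := D.act_spec l
    rw [hl, Units.val_one, ZMod.val_one, pow_one] at h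
    exact h
  rw [← Nat.cast_pow, ← Nat.cast_one (R := k), CharP.natCast_eq_natCast k p,
    ← ZMod.natCast_eq_natCast_iff, Nat.cast_pow, Nat.cast_one, expo, ZMod.natCast_rightInverse,
    ← Units.val_pow_eq_pow_val, Units.val_eq_one, ← map_pow, ← map_one D.act, hinj.eq_iff,
    ← orderOf_dvd_iff_pow_eq_one, Subgroup.orderOf_mk, ← Nat.card_zpowers, D.a_gen]

theorem isPrimitiveRoot_expo : IsPrimitiveRoot ((expo D : ℕ) : k) (Nat.card D.L) :=
  ⟨(expo_pow_eq_one_iff D _).2 dvd_rfl, fun i hi => (expo_pow_eq_one_iff D i).1 hi⟩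

/-- The multiplier of `δ` under `a`. -/
noncomputable def mult : Module.End k W := ∑ i ∈ Finset.range (expo D), σ D.x ^ i

theorem commute_of_commute_x {A : Module.End k W} (h : Commute A (σ D.x)) :
    Commute A (delta σ D.x) := h.sub_right (Commute.one_right _)

theorem mult_comm : Commute (mult D σ) (delta σ D.x) :=
  commute_of_commute_x D σ (Commute.sum_left _ _ _ fun i _ => (Commute.refl _).pow_left i)

theorem a_delta : σ D.a * delta σ D.x = mult D σ * delta σ D.x * σ D.a := by
  have h : mult D σ * delta σ D.x = σ (D.a * D.x * D.a⁻¹) - 1 := by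
    rw [mult, delta, geom_sum_mul, ← map_pow, conj_x]
  rw [h, sub_mul, one_mul, ← map_mul, inv_mul_cancel_right, delta, mul_sub, mul_one, map_mul]

theorem a_delta_pow (i : ℕ) :
    σ D.a * delta σ D.x ^ i = mult D σ ^ i * delta σ D.x ^ i * σ D.a := by
  induction i with
  | zero => simp
  | succ i ih =>
    rw [pow_succ (delta σ D.x), ← mul_assoc, ih, mul_assoc _ (σ D.a), a_delta]
    simp only [← mul_assoc]
    rw [mul_assoc (mult D σ ^ i) (delta σ D.x ^ i) (mult D σ),
      ← ((mult_comm D σ).pow_right i).eq, ← mul_assoc, ← pow_succ]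

/-- The multiplier is the exponent modulo `δ`. -/
theorem mult_pow_sub (i : ℕ) : ∃ q : Module.End k W, Commute q (delta σ D.x) ∧
    mult D σ ^ i - ((expo D : ℕ) : k) ^ i • 1 = delta σ D.x * q := by
  set δ := delta σ D.x
  set τ : k := ((expo D : ℕ) : k)
  have h1 : ∃ q : Module.End k W, Commute q δ ∧ mult D σ - τ • 1 = δ * q := by
    refine ⟨∑ i ∈ Finset.range (expo D), ∑ l ∈ Finset.range i, σ D.x ^ l, ?_, ?_⟩
    · exact commute_of_commute_x D σ (Commute.sum_left _ _ _ fun i _ =>
        Commute.sum_left _ _ _ fun l _ => (Commute.refl _).pow_left l)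
    · rw [Finset.mul_sum]
      simp only [δ, delta, mul_geom_sum]
      rw [Finset.sum_sub_distrib, mult, Finset.sum_const, Finset.card_range,
        ← Nat.cast_smul_eq_nsmul k]
  obtain ⟨q₁, hq₁, hq₁'⟩ := h1
  induction i with
  | zero => exact ⟨0, Commute.zero_left _, by simp⟩
  | succ i ih =>
    obtain ⟨q, hq, hq'⟩ := ih
    refine ⟨mult D σ * q + τ ^ i • q₁,
      ((mult_comm D σ).mul_left hq).add_left (hq₁.smul_left _), ?_⟩
    rw [mul_add, ← mul_assoc, ← (mult_comm D σ).eq, mul_assoc, ← hq', mul_smul_comm, ← hq₁',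
      mul_sub, ← pow_succ', mul_smul_comm, mul_one, smul_sub, smul_smul, ← pow_succ]
    abel

theorem ker_pow_invariant (j : ℕ) : ∀ z ∈ LinearMap.ker (delta σ D.x ^ j),
    σ D.a z ∈ LinearMap.ker (delta σ D.x ^ j) := by
  intro z hz
  rw [LinearMap.mem_ker] at hz ⊢
  -- `δ` moves past `a` up to an invertible multiplier
  have hkey : delta σ D.x * σ D.a = σ D.a * (∑ i ∈ Finset.range
      ((D.act ⟨D.a, D.a_gen ▸ Subgroup.mem_zpowers D.a⟩⁻¹ : (ZMod p)ˣ) : ZMod p).val, σ D.x ^ i) *
      delta σ D.x := by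
    set b : D.L := ⟨D.a, D.a_gen ▸ Subgroup.mem_zpowers D.a⟩
    rw [mul_assoc, delta, geom_sum_mul, ← map_pow, ← D.act_spec b⁻¹, mul_sub, mul_one,
      ← map_mul, sub_mul, one_mul, ← map_mul]
    congr 2
    simp [b, mul_assoc]
  set c := ∑ i ∈ Finset.range
      ((D.act ⟨D.a, D.a_gen ▸ Subgroup.mem_zpowers D.a⟩⁻¹ : (ZMod p)ˣ) : ZMod p).val, σ D.x ^ i
  have hc : Commute c (delta σ D.x) :=
    commute_of_commute_x D σ (Commute.sum_left _ _ _ fun i _ => (Commute.refl _).pow_left i)
  have hpow : ∀ m : ℕ, delta σ D.x ^ m * σ D.a = σ D.a * c ^ m * delta σ D.x ^ m := by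
    intro m
    induction m with
    | zero => simp
    | succ m ih =>
      rw [pow_succ', mul_assoc, ih, ← mul_assoc, ← mul_assoc, hkey]
      simp only [mul_assoc]
      rw [← mul_assoc (delta σ D.x), ← (hc.pow_left m).eq, mul_assoc, ← mul_assoc c, ← pow_succ']
  rw [← Module.End.mul_apply, hpow, Module.End.mul_apply, hz, map_zero]

theorem range_pow_invariant (j : ℕ) : ∀ z ∈ LinearMap.range (delta σ D.x ^ j),
    σ D.a z ∈ LinearMap.range (delta σ D.x ^ j) := by
  rintro _ ⟨z, rfl⟩
  refine ⟨(mult D σ ^ j) (σ D.a z), ?_⟩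
  rw [← Module.End.mul_apply, ← Module.End.mul_apply, ← Module.End.mul_apply, a_delta_pow,
    ← (((mult_comm D σ).pow_pow j j)).eq]

theorem mem_L_invariant {U : Submodule k W} (hU : ∀ z ∈ U, σ D.a z ∈ U) :
    ∀ l ∈ D.L, ∀ z ∈ U, σ l z ∈ U := by
  intro l hl z hz
  rw [← D.a_gen] at hl
  obtain ⟨i, rfl⟩ := (mem_powers_iff_mem_zpowers (x := D.a)).2 hl
  show σ (D.a ^ i) z ∈ U
  rw [map_pow]
  clear hl
  induction i with
  | zero => simpa using hz
  | succ i ih => rw [pow_succ', Module.End.mul_apply]; exact hU _ ih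

variable [Fintype G]

/-- The image of `δ` has codimension at most one. -/
theorem le_finrank_range (hρ : IsIrred σ) (hN : delta σ D.x ^ (p - 1) = 0) :
    finrank k W ≤ finrank k (LinearMap.range (delta σ D.x)) + 1 := by
  set R := LinearMap.range (delta σ D.x) with hR
  by_cases htop : R = ⊤
  · rw [htop, finrank_top]; omega
  have hinv : ∀ z ∈ R, σ D.a z ∈ R := by
    have := range_pow_invariant D σ 1
    rwa [pow_one] at this
  obtain ⟨ν, v, -, hv, -, hvR⟩ := exists_eigen_mem_not_mem (σ D.a) (card_cast_ne_zero D)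
    (sigma_pow_card D σ) ⊤ R (fun _ _ => Submodule.mem_top) (fun h => htop (top_le_iff.1 h))
  set U := R ⊔ Submodule.span k {v}
  have hUinv : ∀ z ∈ U, σ D.a z ∈ U := by
    intro z hz
    obtain ⟨r, hr, b, hb, rfl⟩ := Submodule.mem_sup.1 hz
    obtain ⟨c, rfl⟩ := Submodule.mem_span_singleton.1 hb
    rw [map_add, map_smul, hv, smul_smul]
    exact add_mem (Submodule.mem_sup_left (hinv r hr))
      (Submodule.mem_sup_right (Submodule.mem_span_singleton.2 ⟨_, rfl⟩))
  have hK : LinearMap.ker (normP σ D.x) = ⊤ := by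
    rw [LinearMap.ker_eq_top, normP_eq_pow σ D.orderOf_x, hN]
  have hUtop : U = ⊤ := by
    rcases quot_simple D.toSetup σ hρ U le_sup_left (hK ▸ le_top) (mem_L_invariant D σ hUinv) with
      h | h
    · exact absurd (h.le (Submodule.mem_sup_right (Submodule.mem_span_singleton_self v))) hvR
    · exact h.trans hK
  have h1 := Submodule.finrank_add_le_finrank_add_finrank R (Submodule.span k {v})
  rw [show R ⊔ Submodule.span k {v} = U from rfl, hUtop, finrank_top] at h1
  have h2 : finrank k (Submodule.span k {v}) ≤ 1 := by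
    have := finrank_span_le_card (R := k) ({v} : Set W)
    simpa using this
  omega

theorem le_finrank_range_pow (hρ : IsIrred σ) (hN : delta σ D.x ^ (p - 1) = 0) (j : ℕ) :
    finrank k W ≤ finrank k (LinearMap.range (delta σ D.x ^ j)) + j := by
  induction j with
  | zero => rw [pow_zero, Module.End.one_eq_id, LinearMap.range_id, finrank_top, add_zero]
  | succ j ih =>
    set δ := delta σ D.x
    have h1 : finrank k W ≤ finrank k (LinearMap.range δ) + 1 := le_finrank_range D σ hρ hN
    have h2 := (δ.domRestrict (LinearMap.range (δ ^ j))).finrank_range_add_finrank_ker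
    have h3 : LinearMap.range (δ.domRestrict (LinearMap.range (δ ^ j))) =
        LinearMap.range (δ ^ (j + 1)) := by
      rw [LinearMap.range_domRestrict, pow_succ', Module.End.mul_eq_comp, LinearMap.range_comp]
    have h4 : finrank k (LinearMap.ker (δ.domRestrict (LinearMap.range (δ ^ j)))) ≤
        finrank k (LinearMap.ker δ) := by
      rw [LinearMap.ker_domRestrict, ← Submodule.finrank_map_subtype_eq]
      exact Submodule.finrank_mono (Submodule.map_comap_le _ _)
    have h5 := δ.finrank_range_add_finrank_ker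
    rw [h3] at h2
    omega

/-- Some vector generates a long block. -/
theorem exists_top (hρ : IsIrred σ) {m : ℕ} (hm : m + 1 ≤ p) (hW : m + 1 ≤ finrank k W) :
    ∃ (μ : k) (w : W), μ ^ Nat.card D.L = 1 ∧ σ D.a w = μ • w ∧
      (delta σ D.x ^ m) w ≠ 0 := by
  have hne : delta σ D.x ^ m ≠ 0 := by
    intro h0
    have hN : delta σ D.x ^ (p - 1) = 0 := pow_eq_zero_of_le (by omega) h0
    have := le_finrank_range_pow D σ hρ hN m
    rw [h0, LinearMap.range_zero, finrank_bot] at this
    omega
  obtain ⟨μ, w, hμ, hw, -, hwn⟩ := exists_eigen_mem_not_mem (σ D.a) (card_cast_ne_zero D)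
    (sigma_pow_card D σ) ⊤ (LinearMap.ker (delta σ D.x ^ m)) (fun _ _ => Submodule.mem_top)
    (fun h => hne (LinearMap.ker_eq_top.1 (top_le_iff.1 h)))
  exact ⟨μ, w, hμ, hw, hwn⟩

/-- The eigenvectors along a block. -/
theorem exists_chain {μ : k} {w : W} {m : ℕ} (hμ : μ ^ Nat.card D.L = 1) (hw : σ D.a w = μ • w)
    (h0 : (delta σ D.x ^ (m + 1)) w = 0) :
    ∀ i ≤ m, ∃ u : W, σ D.a u = (μ * ((expo D : ℕ) : k) ^ i) • u ∧
      (delta σ D.x ^ (m - i)) u = (delta σ D.x ^ m) w ∧ (delta σ D.x ^ (m + 1 - i)) u = 0 := by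
  intro i hi
  set δ := delta σ D.x
  set τ : k := ((expo D : ℕ) : k)
  have hν : (μ * τ ^ i) ^ Nat.card D.L = 1 := by
    rw [mul_pow, hμ, one_mul, ← pow_mul, mul_comm, pow_mul,
      (isPrimitiveRoot_expo D).pow_eq_one, one_pow]
  obtain ⟨q, hq, hq'⟩ := mult_pow_sub D σ i
  obtain ⟨u, hu, hua, huz⟩ := exists_eigen_congr (σ D.a) (card_cast_ne_zero D) (sigma_pow_card D σ)
    hν (LinearMap.ker (δ ^ (m + 1 - i))) (LinearMap.ker (δ ^ (m - i)))
    (ker_pow_invariant D σ _) (ker_pow_invariant D σ _) (z := (δ ^ i) w)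
    (by rw [LinearMap.mem_ker, ← Module.End.mul_apply, ← pow_add,
      show m + 1 - i + i = m + 1 by omega, h0])
    (by
      have e : σ D.a ((δ ^ i) w) - (μ * τ ^ i) • (δ ^ i) w = μ • (δ * q * δ ^ i) w := by
        rw [← hq', ← Module.End.mul_apply, a_delta_pow, Module.End.mul_apply, hw, map_smul, sub_mul,
          smul_mul_assoc, one_mul, LinearMap.sub_apply, LinearMap.smul_apply, smul_sub, smul_smul]
      rw [e, LinearMap.mem_ker, map_smul, ← Module.End.mul_apply, ← mul_assoc, ← mul_assoc,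
        ← pow_succ, mul_assoc _ q, (hq.pow_right i).eq, ← mul_assoc, ← pow_add,
        show m - i + 1 + i = m + 1 by omega, ← (hq.pow_right (m + 1)).eq, Module.End.mul_apply, h0,
        map_zero, smul_zero])
  refine ⟨u, hua, ?_, LinearMap.mem_ker.1 hu⟩
  rw [LinearMap.mem_ker, map_sub, sub_eq_zero, ← Module.End.mul_apply (δ ^ (m - i)) (δ ^ i),
    ← pow_add, Nat.sub_add_cancel hi] at huz
  exact huz

theorem chain_coeff_zero {w : W} {m : ℕ} (htop : (delta σ D.x ^ m) w ≠ 0) {u : Fin (m + 1) → W}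
    (hu1 : ∀ i : Fin (m + 1), (delta σ D.x ^ (m - i)) (u i) = (delta σ D.x ^ m) w)
    (hu2 : ∀ i : Fin (m + 1), (delta σ D.x ^ (m + 1 - i)) (u i) = 0)
    {g : Fin (m + 1) → k} (j : ℕ) (hg : (delta σ D.x ^ j) (∑ i, g i • u i) = 0) :
    ∀ i : Fin (m + 1), (i : ℕ) + j ≤ m → g i = 0 := by
  set δ := delta σ D.x
  intro i
  induction hn : (i : ℕ) using Nat.strong_induction_on generalizing i with
  | _ n ih =>
    subst hn
    intro hij
    have h : (δ ^ (m - i)) (∑ l, g l • u l) = 0 := by
      rw [show m - (i : ℕ) = (m - i - j) + j by omega, pow_add, Module.End.mul_apply, hg, map_zero]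
    rw [map_sum, Finset.sum_eq_single i ?_ (fun h => absurd (Finset.mem_univ i) h), map_smul, hu1,
      smul_eq_zero] at h
    · exact h.resolve_right htop
    · intro l _ hli
      rcases lt_or_gt_of_ne (Fin.val_ne_of_ne hli) with hl | hl
      · rw [ih l hl l rfl (by omega), zero_smul, map_zero]
      · rw [map_smul, show m - (i : ℕ) = ((l : ℕ) - i - 1) + (m + 1 - l) by omega, pow_add,
          Module.End.mul_apply, hu2, map_zero, smul_zero]

/-- Eigenspaces contain the vectors along the block. -/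
theorem le_finrank_eigenspace {μ : k} {w : W} {m : ℕ} (hμ : μ ^ Nat.card D.L = 1)
    (hw : σ D.a w = μ • w) (h0 : (delta σ D.x ^ (m + 1)) w = 0)
    (htop : (delta σ D.x ^ m) w ≠ 0) (ν : k) [DecidableEq k] :
    (Finset.univ.filter fun i : Fin (m + 1) => μ * ((expo D : ℕ) : k) ^ (i : ℕ) = ν).card ≤
      finrank k (Module.End.eigenspace (σ D.a) ν) := by
  classical
  choose u hua hu1 hu2 using fun i : Fin (m + 1) => exists_chain D σ hμ hw h0 i (by omega)
  set s := Finset.univ.filter fun i : Fin (m + 1) => μ * ((expo D : ℕ) : k) ^ (i : ℕ) = ν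
  let f : s → Module.End.eigenspace (σ D.a) ν := fun i => ⟨u i, Module.End.mem_eigenspace_iff.2 (by
    rw [hua, (Finset.mem_filter.1 i.2).2])⟩
  have hli : LinearIndependent k u := by
    rw [Fintype.linearIndependent_iff]
    intro g hg i
    exact chain_coeff_zero D σ htop hu1 hu2 0 (by simpa using hg) i (by omega)
  have hf : LinearIndependent k f := by
    refine LinearIndependent.of_comp (Submodule.subtype _) ?_
    exact hli.comp _ Subtype.val_injective
  have := hf.fintype_card_le_finrank
  rwa [Fintype.card_coe] at this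

/-- Eigenspaces contain the vectors along the block and a further fixed vector. -/
theorem le_finrank_eigenspace_succ {μ : k} {w : W} {m : ℕ} (hμ : μ ^ Nat.card D.L = 1)
    (hw : σ D.a w = μ • w) (h0 : (delta σ D.x ^ (m + 1)) w = 0)
    (htop : (delta σ D.x ^ m) w ≠ 0) (hm : 1 ≤ m) {v : W} {ν : k} (hv : σ D.a v = ν • v)
    (hv0 : delta σ D.x v = 0) (hvD : v ∉ LinearMap.range (delta σ D.x)) [DecidableEq k] :
    (Finset.univ.filter fun i : Fin (m + 1) => μ * ((expo D : ℕ) : k) ^ (i : ℕ) = ν).card + 1 ≤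
      finrank k (Module.End.eigenspace (σ D.a) ν) := by
  classical
  choose u hua hu1 hu2 using fun i : Fin (m + 1) => exists_chain D σ hμ hw h0 i (by omega)
  set s := Finset.univ.filter fun i : Fin (m + 1) => μ * ((expo D : ℕ) : k) ^ (i : ℕ) = ν
  set δ := delta σ D.x
  have hli : LinearIndependent k (fun o : Option (Fin (m + 1)) => o.elim v u) := by
    rw [Fintype.linearIndependent_iff]
    intro g hg
    rw [Fintype.sum_option] at hg
    simp only [Option.elim_none, Option.elim_some] at hg
    have h1 : δ (∑ i, g (some i) • u i) = 0 := by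
      have := congrArg δ hg
      rwa [map_add, map_smul, hv0, smul_zero, zero_add, map_zero] at this
    have hz := chain_coeff_zero D σ htop hu1 hu2 (g := fun i => g (some i)) 1
      (by rw [pow_one]; exact h1)
    set il : Fin (m + 1) := ⟨m, by omega⟩
    have hsum : ∑ i, g (some i) • u i = g (some il) • u il :=
      Finset.sum_eq_single il (fun i _ hi => by
        rw [hz i (by
          have := Fin.val_ne_of_ne hi
          simp only [il] at this ⊢
          omega), zero_smul]) (fun h => absurd (Finset.mem_univ _) h)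
    have hul : u il = (δ ^ m) w := by
      have := hu1 il
      simpa [il] using this
    rw [hsum, hul] at hg
    have hv1 : g none = 0 := by
      by_contra hne
      refine hvD ?_
      have h2 : g none • v ∈ LinearMap.range δ := by
        rw [eq_neg_of_add_eq_zero_left hg]
        refine Submodule.neg_mem _ (Submodule.smul_mem _ _ ⟨(δ ^ (m - 1)) w, ?_⟩)
        rw [← Module.End.mul_apply, ← pow_succ', Nat.sub_add_cancel hm]
      have h3 := Submodule.smul_mem _ (g none)⁻¹ h2
      rwa [smul_smul, inv_mul_cancel₀ hne, one_smul] at h3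
    rw [hv1, zero_smul, zero_add, smul_eq_zero] at hg
    have hl := hg.resolve_right htop
    rintro (_ | i)
    · exact hv1
    · by_cases hi : i = il
      · rw [hi]; exact hl
      · exact hz i (by
          have := Fin.val_ne_of_ne hi
          simp only [il] at this ⊢
          omega)
  let f : Option s → Module.End.eigenspace (σ D.a) ν := fun o =>
    ⟨(o.map Subtype.val).elim v u, Module.End.mem_eigenspace_iff.2 (by
      rcases o with _ | i
      · exact hv
      · simp only [Option.map_some, Option.elim_some]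
        rw [hua, (Finset.mem_filter.1 i.2).2])⟩
  have hf : LinearIndependent k f := by
    refine LinearIndependent.of_comp (Submodule.subtype _) ?_
    exact hli.comp _ (Option.map_injective Subtype.val_injective)
  have := hf.fintype_card_le_finrank
  rwa [Fintype.card_option, Fintype.card_coe] at this

/-- How often a root occurs along a block. -/
theorem le_count [DecidableEq k] {μ ν : k} (hμ : μ ^ Nat.card D.L = 1) (hν : ν ^ Nat.card D.L = 1)
    {n q : ℕ} (hn : q * Nat.card D.L ≤ n) :
    q ≤ (Finset.univ.filter fun i : Fin n => μ * ((expo D : ℕ) : k) ^ (i : ℕ) = ν).card := by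
  set e := Nat.card D.L
  have he0 : 0 < e := Nat.card_pos
  have : NeZero e := ⟨he0.ne'⟩
  have hμ0 : μ ≠ 0 := fun h => zero_ne_one ((zero_pow he0.ne').symm.trans (h ▸ hμ))
  obtain ⟨r, hr, hrν⟩ := (isPrimitiveRoot_expo (k := k) D).eq_pow_of_pow_eq_one
    (ξ := ν * μ⁻¹) (by rw [mul_pow, inv_pow, hν, hμ, inv_one, one_mul])
  have hlt : ∀ j : Fin q, (j : ℕ) * e + r < n := fun j => by
    have := Nat.mul_le_mul_right e (Nat.succ_le_of_lt j.2)
    rw [Nat.succ_mul] at this
    omega
  refine le_trans (le_of_eq (Fintype.card_fin q).symm) ?_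
  rw [← Fintype.card_coe]
  refine Fintype.card_le_of_injective (fun j => ⟨⟨_, hlt j⟩, Finset.mem_filter.2
    ⟨Finset.mem_univ _, ?_⟩⟩) fun i j h => ?_
  · rw [pow_add, mul_comm (j : ℕ), pow_mul, (isPrimitiveRoot_expo (k := k) D).pow_eq_one, one_pow,
      one_mul, hrν, mul_left_comm, mul_inv_cancel₀ hμ0, mul_one]
  · have h1 := congrArg (fun z => ((z.1 : Fin n) : ℕ)) h
    simp only [Nat.add_right_cancel_iff] at h1
    exact Fin.ext (Nat.eq_of_mul_eq_mul_right he0 h1)

end Cfsg.Agent.H42.PrimeDegree
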