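import Mathlib
import Cfsg.Agent.H42.PrimeDegree.Weights

/-!
# The Cayley transform of a unipotent operator and the alternating forms
-/

set_option autoImplicit false
set_option maxHeartbeats 1000000
set_option linter.unusedSectionVars false

namespace Cfsg.Agent.H42.PrimeDegree

open Module Cfsg.Agent.H43.D1

attribute [local instance] Fintype.ofFinite Classical.propDecidable

variable {p : ℕ} [hp : Fact p.Prime] {k : Type} [Field k] [CharP k p]
  {V : Type} [AddCommGroup V] [Module k V]

/-- The inverse of `S + 1`. -/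
noncomputable def halfInv (p : ℕ) (S : Module.End k V) : Module.End k V :=
  (2 : k)⁻¹ • ∑ i ∈ Finset.range p, (-S) ^ i

/-- The Cayley transform. -/
noncomputable def cay (p : ℕ) (S : Module.End k V) : Module.End k V := (S - 1) * halfInv p S

theorem halfInv_commute {S T : Module.End k V} (h : Commute T S) : Commute T (halfInv p S) :=
  (Commute.sum_right _ _ _ fun i _ => (h.neg_right).pow_right i).smul_right _

theorem cay_commute {S T : Module.End k V} (h : Commute T S) : Commute T (cay p S) :=
  (h.sub_right (Commute.one_right _)).mul_right (halfInv_commute h)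

theorem halfInv_mul {S : Module.End k V} (h2 : (2 : k) ≠ 0) (hp2 : p ≠ 2) (hS : S ^ p = 1) :
    halfInv p S * (S + 1) = 1 := by
  have h := geom_sum_mul (-S) p
  rw [(hp.out.odd_of_ne_two hp2).neg_pow, hS] at h
  have h' : (∑ i ∈ Finset.range p, (-S) ^ i) * (S + 1) = (2 : k) • 1 := by
    rw [show S + 1 = -(-S - 1) by abel, mul_neg, h, two_smul]
    abel
  rw [halfInv, smul_mul_assoc, h', smul_smul, inv_mul_cancel₀ h2, one_smul]

theorem add_one_mul_halfInv {S : Module.End k V} (h2 : (2 : k) ≠ 0) (hp2 : p ≠ 2) (hS : S ^ p = 1) :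
    (S + 1) * halfInv p S = 1 := by
  rw [(halfInv_commute ((Commute.refl S).add_left (Commute.one_left S))).eq, halfInv_mul h2 hp2 hS]

/-- The forms derivation of `z`. -/
noncomputable def leftMap (z : Module.End k V) : Module.End k (V →ₗ[k] V →ₗ[k] k) where
  toFun β := β.compl₁₂ z LinearMap.id
  map_add' _ _ := rfl
  map_smul' _ _ := rfl

noncomputable def rightMap (z : Module.End k V) : Module.End k (V →ₗ[k] V →ₗ[k] k) where
  toFun β := β.compl₁₂ LinearMap.id z
  map_add' _ _ := rfl
  map_smul' _ _ := rfl

noncomputable def bothMap (z : Module.End k V) : Module.End k (V →ₗ[k] V →ₗ[k] k) where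
  toFun β := β.compl₁₂ z z
  map_add' _ _ := rfl
  map_smul' _ _ := rfl

theorem leftMap_apply (z : Module.End k V) (β : V →ₗ[k] V →ₗ[k] k) (u y : V) :
    leftMap z β u y = β (z u) y := rfl

theorem rightMap_apply (z : Module.End k V) (β : V →ₗ[k] V →ₗ[k] k) (u y : V) :
    rightMap z β u y = β u (z y) := rfl

theorem bothMap_apply (z : Module.End k V) (β : V →ₗ[k] V →ₗ[k] k) (u y : V) :
    bothMap z β u y = β (z u) (z y) := rfl

theorem leftMap_pow (z : Module.End k V) (j : ℕ) : leftMap z ^ j = leftMap (z ^ j) := by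
  induction j with
  | zero => exact LinearMap.ext fun β => LinearMap.ext₂ fun u y => rfl
  | succ j ih =>
    refine LinearMap.ext fun β => LinearMap.ext₂ fun u y => ?_
    rw [pow_succ', Module.End.mul_apply, leftMap_apply, ih, leftMap_apply, leftMap_apply, pow_succ,
      Module.End.mul_apply]

theorem rightMap_pow (z : Module.End k V) (j : ℕ) : rightMap z ^ j = rightMap (z ^ j) := by
  induction j with
  | zero => exact LinearMap.ext fun β => LinearMap.ext₂ fun u y => rfl
  | succ j ih =>
    refine LinearMap.ext fun β => LinearMap.ext₂ fun u y => ?_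
    rw [pow_succ', Module.End.mul_apply, rightMap_apply, ih, rightMap_apply, rightMap_apply, pow_succ,
      Module.End.mul_apply]

/-- The derivation induced on forms. -/
noncomputable def derMap (z : Module.End k V) : Module.End k (V →ₗ[k] V →ₗ[k] k) :=
  leftMap z + rightMap z

theorem derMap_pow (z : Module.End k V) (j : ℕ) (β : V →ₗ[k] V →ₗ[k] k) (u y : V) :
    (derMap z ^ j) β u y =
      ∑ l ∈ Finset.range (j + 1), (j.choose l : k) * β ((z ^ l) u) ((z ^ (j - l)) y) := by
  have hc : Commute (leftMap z) (rightMap z) := LinearMap.ext fun β => LinearMap.ext₂ fun u y => rfl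
  rw [derMap, hc.add_pow, LinearMap.sum_apply, LinearMap.sum_apply, LinearMap.sum_apply]
  refine Finset.sum_congr rfl fun l _ => ?_
  rw [Module.End.mul_apply, Module.End.natCast_apply, ← Nat.cast_smul_eq_nsmul k, map_smul,
    LinearMap.smul_apply, LinearMap.smul_apply, Module.End.mul_apply, leftMap_pow, rightMap_pow,
    leftMap_apply, rightMap_apply, smul_eq_mul]

/-- The action on forms. -/
noncomputable def formRep {G : Type*} [Group G] (τ : G →* Module.End k V) :
    G →* Module.End k (V →ₗ[k] V →ₗ[k] k) where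
  toFun g := bothMap (τ g⁻¹)
  map_one' := LinearMap.ext fun β => LinearMap.ext₂ fun u y => by
    rw [bothMap_apply, inv_one, map_one]; rfl
  map_mul' g g' := LinearMap.ext fun β => LinearMap.ext₂ fun u y => by
    rw [Module.End.mul_apply, bothMap_apply, bothMap_apply, bothMap_apply, mul_inv_rev, map_mul]
    rfl

theorem formRep_apply {G : Type*} [Group G] (τ : G →* Module.End k V) (g : G)
    (β : V →ₗ[k] V →ₗ[k] k) (u y : V) : formRep τ g β u y = β (τ g⁻¹ u) (τ g⁻¹ y) := rfl

/-- The alternating forms. -/
def altSub (k : Type) [Field k] (V : Type) [AddCommGroup V] [Module k V] :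
    Submodule k (V →ₗ[k] V →ₗ[k] k) where
  carrier := {β | ∀ u, β u u = 0}
  add_mem' {a b} ha hb u := by rw [LinearMap.add_apply, LinearMap.add_apply, ha u, hb u, add_zero]
  zero_mem' u := rfl
  smul_mem' c a ha u := by rw [LinearMap.smul_apply, LinearMap.smul_apply, ha u, smul_zero]

variable {G : Type*} [Group G] (τ : G →* Module.End k V) (x : G)

/-- `x - 1` on forms. -/
noncomputable abbrev formDelta : Module.End k (V →ₗ[k] V →ₗ[k] k) :=
  delta (V := V →ₗ[k] V →ₗ[k] k) (formRep τ) x

/-- `δ` on forms is the derivation of the Cayley transform, up to a unit. -/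
theorem derMap_cay (h2 : (2 : k) ≠ 0) (hp2 : p ≠ 2) (hx : x ^ p = 1) :
    derMap (cay p (τ x⁻¹)) =
      (2 : k) • (bothMap (halfInv p (τ x⁻¹)) * formDelta τ x) := by
  set S := τ x⁻¹ with hS
  set J := halfInv p S with hJ
  have hSp : S ^ p = 1 := by rw [hS, ← map_pow, inv_pow, hx, inv_one, map_one]
  refine LinearMap.ext fun β => LinearMap.ext₂ fun u y => ?_
  have hu : ∀ v : V, v = S (J v) + J v := fun v => by
    have h := LinearMap.congr_fun (add_one_mul_halfInv h2 hp2 hSp) v
    rw [Module.End.mul_apply, LinearMap.add_apply, Module.End.one_apply] at h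
    exact h.symm
  have hz : ∀ v : V, cay p S v = S (J v) - J v := fun v => rfl
  show leftMap (cay p S) β u y + rightMap (cay p S) β u y =
    (2 : k) * (β (S (J u)) (S (J y)) - β (J u) (J y))
  rw [leftMap_apply, rightMap_apply, hz, hz]
  conv_lhs => arg 1; arg 2; rw [hu y]
  conv_lhs => arg 2; arg 1; arg 2; rw [hu u]
  simp only [map_add, map_sub, LinearMap.add_apply, LinearMap.sub_apply]
  ring

theorem derMap_cay_pow (h2 : (2 : k) ≠ 0) (hp2 : p ≠ 2) (hx : x ^ p = 1) (j : ℕ) :
    derMap (cay p (τ x⁻¹)) ^ j =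
      (2 : k) ^ j • (bothMap (halfInv p (τ x⁻¹)) ^ j * formDelta τ x ^ j) := by
  set S := τ x⁻¹ with hS
  have hc : Commute (bothMap (halfInv p S)) (formDelta τ x) := by
    have h : ∀ v, halfInv p S (S v) = S (halfInv p S v) := fun v =>
      (LinearMap.congr_fun (halfInv_commute (Commute.refl S)).eq v).symm
    refine LinearMap.ext fun β => LinearMap.ext₂ fun u y => ?_
    show β (S (halfInv p S u)) (S (halfInv p S y)) - β (halfInv p S u) (halfInv p S y) =
      β (halfInv p S (S u)) (halfInv p S (S y)) - β (halfInv p S u) (halfInv p S y)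
    rw [h, h]
  rw [derMap_cay τ x h2 hp2 hx, smul_pow, hc.mul_pow]

end Cfsg.Agent.H42.PrimeDegree
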