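import Mathlib
import Cfsg.Agent.H42.PrimeDegree.Weights
import Cfsg.Agent.H42.SmallFaithful.Core

/-!
# Composition factors of the module of dimension `p + 1`
-/

set_option autoImplicit false
set_option maxHeartbeats 1000000
set_option linter.unusedSectionVars false

namespace Cfsg.Agent.H42.PrimeDegree

open Module Cfsg.Agent.H43.D1

attribute [local instance] Fintype.ofFinite Classical.propDecidable

variable {p : ℕ} [hp : Fact p.Prime] {G : Type*} [Group G] [Finite G] (D : Datum p G)
  {k : Type} [Field k] [IsAlgClosed k] [CharP k p]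

/-- A group that is simple acts trivially once `x` does. -/
theorem sigma_eq_one {W : Type} [AddCommGroup W] [Module k W] (σ : G →* Module.End k W)
    (hx : σ D.x = 1) (g : G) : σ g = 1 := by
  have h : σ.ker = ⊤ := (D.simple σ.ker inferInstance).resolve_left fun h => D.x_ne_one (by
    have : D.x ∈ σ.ker := hx
    rwa [h, Subgroup.mem_bot] at this)
  exact MonoidHom.mem_ker.1 (h ▸ Subgroup.mem_top g)

/-- Eigenspaces of a representation. -/
noncomputable def eig {W : Type} [AddCommGroup W] [Module k W] (σ : G →* Module.End k W) (ν : k) :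
    ℕ := finrank k (Module.End.eigenspace (σ D.a) ν)

/-- All nontrivial irreducible modules are large. -/
def NoSmall (k : Type) [Field k] : Prop :=
  ∀ (U : Type) [AddCommGroup U] [Module k U] [FiniteDimensional k U] (τ : G →* Module.End k U),
    IsIrred τ → τ D.x ≠ 1 → p + 1 ≤ 2 * finrank k U

/-- The shape of the composition factors: no nontrivial one, one, or two. -/
def Shape {W : Type} [AddCommGroup W] [Module k W] (σ : G →* Module.End k W) : Prop :=
  finrank k W ≤ eig D σ 1 ∨
  (∃ (V : Type) (_ : AddCommGroup V) (_ : Module k V) (_ : FiniteDimensional k V)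
    (τ : G →* Module.End k V), IsIrred τ ∧ τ D.x ≠ 1 ∧ finrank k V ≤ finrank k W ∧ finrank k V ≤ p ∧
      ∀ ν : k, ν ^ Nat.card D.L = 1 →
        eig D τ ν + (if ν = 1 then finrank k W - finrank k V else 0) ≤ eig D σ ν) ∨
  (∃ (V : Type) (_ : AddCommGroup V) (_ : Module k V) (_ : FiniteDimensional k V)
    (τ : G →* Module.End k V) (V' : Type) (_ : AddCommGroup V') (_ : Module k V')
    (_ : FiniteDimensional k V') (τ' : G →* Module.End k V'),
    IsIrred τ ∧ τ D.x ≠ 1 ∧ IsIrred τ' ∧ τ' D.x ≠ 1 ∧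
      finrank k V + finrank k V' ≤ finrank k W ∧
      ∀ ν : k, ν ^ Nat.card D.L = 1 → eig D τ ν + eig D τ' ν ≤ eig D σ ν)

/-- The quotient representation. -/
def quotRep {W : Type} [AddCommGroup W] [Module k W] (σ : G →* Module.End k W) (U : Submodule k W)
    (hU : ∀ g, ∀ z ∈ U, σ g z ∈ U) : G →* Module.End k (W ⧸ U) where
  toFun g := U.mapQ U (σ g) (hU g)
  map_one' := Submodule.linearMap_qext _ (LinearMap.ext fun z => by simp)
  map_mul' a b := Submodule.linearMap_qext _ (LinearMap.ext fun z => by simp)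

theorem eig_add_le {W : Type} [AddCommGroup W] [Module k W] [FiniteDimensional k W]
    (σ : G →* Module.End k W) (U : Submodule k W) (hU : ∀ g, ∀ z ∈ U, σ g z ∈ U) {ν : k}
    (hν : ν ^ Nat.card D.L = 1) :
    eig D (restrictRep σ U hU) ν + eig D (quotRep σ U hU) ν ≤ eig D σ ν :=
  finrank_eigenspace_add_le (σ D.a) (card_cast_ne_zero D) (sigma_pow_card D σ) U (hU D.a) ν hν

/-- Combining a submodule and its quotient. -/
theorem shape_split {W : Type} [AddCommGroup W] [Module k W] [FiniteDimensional k W]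
    (hno : NoSmall D k) (σ : G →* Module.End k W) (hW : finrank k W ≤ p + 1) (U : Submodule k W)
    (hU : ∀ g, ∀ z ∈ U, σ g z ∈ U) (h1 : Shape D (restrictRep σ U hU))
    (h2 : Shape D (quotRep σ U hU)) (hU' : finrank k U ≤ p) (hQ' : finrank k (W ⧸ U) ≤ p) :
    Shape D σ := by
  have hadd := U.finrank_quotient_add_finrank
  have hle := fun {ν : k} (hν : ν ^ Nat.card D.L = 1) => eig_add_le D σ U hU hν
  have hl1 := hle (one_pow (Nat.card D.L))
  rcases h1 with h1 | ⟨V, _, _, _, τ, hτ, hτx, hV, hVp, h1⟩ | ⟨V, _, _, _, τ, V', _, _, _, τ', hτ, hτx,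
    hτ', hτx', hV, h1⟩
  rotate_left 2
  · have := hno V τ hτ hτx
    have := hno V' τ' hτ' hτx'
    omega
  · rcases h2 with h2 | ⟨V, _, _, _, τ, hτ, hτx, hV, hVp, h2⟩ | ⟨V, _, _, _, τ, V', _, _, _, τ', hτ,
      hτx, hτ', hτx', hV, h2⟩
    · exact Or.inl (by omega)
    · refine Or.inr (Or.inl ⟨V, inferInstance, inferInstance, inferInstance, τ, hτ, hτx, by omega,
        hVp, fun ν hν => ?_⟩)
      have := h2 ν hν
      have := hle hν
      split_ifs with h <;> split_ifs at * <;> try omega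
      subst h
      omega
    · have := hno V τ hτ hτx
      have := hno V' τ' hτ' hτx'
      omega
  · rcases h2 with h2 | ⟨V', _, _, _, τ', hτ', hτx', hV', hVp', h2⟩ | ⟨Z, _, _, _, τz, Z', _, _, _, τz',
      hτz, hτzx, hτz', hτzx', hZ, h2⟩
    · refine Or.inr (Or.inl ⟨V, inferInstance, inferInstance, inferInstance, τ, hτ, hτx, by omega,
        hVp, fun ν hν => ?_⟩)
      have := h1 ν hν
      have := hle hν
      split_ifs with h <;> split_ifs at * <;> try omega
      subst h
      omega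
    · refine Or.inr (Or.inr ⟨V, inferInstance, inferInstance, inferInstance, τ, V', inferInstance,
        inferInstance, inferInstance, τ', hτ, hτx, hτ', hτx', by omega, fun ν hν => ?_⟩)
      have := h1 ν hν
      have := h2 ν hν
      have := hle hν
      omega
    · have := hno Z τz hτz hτzx
      have := hno Z' τz' hτz' hτzx'
      omega

/-- Modules of dimension at most `p`. -/
theorem shape_of_le (hno : NoSmall D k) : ∀ (n : ℕ) (W : Type) [AddCommGroup W] [Module k W]
    [FiniteDimensional k W] (σ : G →* Module.End k W), finrank k W = n → n ≤ p → Shape D σ := by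
  intro n
  induction n using Nat.strong_induction_on with
  | _ n ih =>
  intro W _ _ _ σ hn hnp
  by_cases hx : σ D.x = 1
  · refine Or.inl (le_of_eq ?_)
    rw [eig, sigma_eq_one D σ hx, show Module.End.eigenspace (1 : Module.End k W) (1 : k) = ⊤ by
      ext v; simp, finrank_top]
  by_cases hirr : IsIrred σ
  · exact Or.inr (Or.inl ⟨W, inferInstance, inferInstance, inferInstance, σ, hirr, hx, le_rfl, hn ▸ hnp,
      fun ν _ => by simp⟩)
  have hWn : Nontrivial W := by
    by_contra h
    rw [not_nontrivial_iff_subsingleton] at h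
    exact hx (LinearMap.ext fun z => Subsingleton.elim _ _)
  obtain ⟨U, hU, hU0, hU1⟩ : ∃ U : Submodule k W, (∀ g, ∀ z ∈ U, σ g z ∈ U) ∧ U ≠ ⊥ ∧ U ≠ ⊤ := by
    by_contra hc
    refine hirr ⟨hWn, fun U hU => ?_⟩
    by_contra h
    rw [not_or] at h
    exact hc ⟨U, hU, h.1, h.2⟩
  have hadd := U.finrank_quotient_add_finrank
  have h1 : finrank k U < n := hn ▸ Submodule.finrank_lt hU1
  have h2 : 0 < finrank k U := Nat.pos_of_ne_zero fun h => hU0 (Submodule.finrank_eq_zero.1 h)
  exact shape_split D hno σ (by omega) U hU (ih _ h1 U _ rfl (by omega))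
    (ih _ (by omega) (W ⧸ U) _ rfl (by omega)) (by omega) (by omega)

/-- The lower bounds along a single block. -/
theorem block_bounds {V : Type} [AddCommGroup V] [Module k V] [FiniteDimensional k V]
    (τ : G →* Module.End k V) (hτ : IsIrred τ) {m : ℕ} (hm : m + 1 = finrank k V) (hmp : m + 1 ≤ p) :
    ∃ (μ : k) (w : V), μ ^ Nat.card D.L = 1 ∧ τ D.a w = μ • w ∧ (delta τ D.x ^ (m + 1)) w = 0 ∧
      (delta τ D.x ^ m) w ≠ 0 ∧
      ∀ ν : k, (Finset.univ.filter fun i : Fin (m + 1) => μ * ((expo D : ℕ) : k) ^ (i : ℕ) = ν).card ≤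
        eig D τ ν := by
  obtain ⟨μ, w, hμ, hw, hwn⟩ := exists_top D τ hτ hmp hm.le
  have h0 : (delta τ D.x ^ (m + 1)) w = 0 := by
    rw [hm, delta_pow_finrank τ D.orderOf_x, LinearMap.zero_apply]
  exact ⟨μ, w, hμ, hw, h0, hwn, fun ν => le_finrank_eigenspace D τ hμ hw h0 hwn ν⟩

/-- The reducible case leaves two modules of dimension `(p + 1) / 2`. -/
theorem exists_half {M : Type} [AddCommGroup M] [Module k M] [FiniteDimensional k M]
    (hno : NoSmall D k) (σ : G →* Module.End k M) (hM : finrank k M = p + 1) (h3 : 3 ≤ Nat.card D.L)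
    {l : k} (hl2 : l * l ≠ 1) (hl : l ^ Nat.card D.L = 1)
    (heig : ∀ ν : k, ν ^ Nat.card D.L = 1 →
      eig D σ ν = D.f + (if ν = l then 1 else 0) + (if ν = l⁻¹ then 1 else 0))
    (hirr : ¬ IsIrred σ) :
    ∃ (V : Type) (_ : AddCommGroup V) (_ : Module k V) (_ : FiniteDimensional k V)
      (τ : G →* Module.End k V) (μ : k) (w : V) (h : ℕ), IsIrred τ ∧ τ D.x ≠ 1 ∧
      finrank k V = h + 1 ∧ 2 * h + 1 = p ∧ Nat.card D.L ∣ h ∧ μ * μ ≠ 1 ∧
      μ ^ Nat.card D.L = 1 ∧ τ D.a w = μ • w ∧ (delta τ D.x ^ h) w ≠ 0 := by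
  have hp2 := hp.out.two_le
  have hMn : Nontrivial M := Module.nontrivial_of_finrank_pos (R := k) (by omega)
  obtain ⟨U, hU, hU0, hU1⟩ : ∃ U : Submodule k M, (∀ g, ∀ z ∈ U, σ g z ∈ U) ∧ U ≠ ⊥ ∧ U ≠ ⊤ := by
    by_contra hc
    refine hirr ⟨hMn, fun U hU => ?_⟩
    by_contra h
    rw [not_or] at h
    exact hc ⟨U, hU, h.1, h.2⟩
  have hadd := U.finrank_quotient_add_finrank
  have h1 : finrank k U < finrank k M := Submodule.finrank_lt hU1
  have h2 : 0 < finrank k U := Nat.pos_of_ne_zero fun h => hU0 (Submodule.finrank_eq_zero.1 h)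
  have hshape := shape_split D hno σ hM.le U hU (shape_of_le D hno _ U _ rfl (by omega))
    (shape_of_le D hno _ (M ⧸ U) _ rfl (by omega)) (by omega) (by omega)
  set e := Nat.card D.L
  have hpf : p = e * D.f + 1 := D.card_eq
  have hl1 : (1 : k) ≠ l ∧ (1 : k) ≠ l⁻¹ := by
    refine ⟨fun h => hl2 (by rw [← h, one_mul]), fun h => hl2 ?_⟩
    rw [← inv_inv l, ← h, inv_one, one_mul]
  have heig1 := heig 1 (one_pow _)
  rw [if_neg hl1.1, if_neg hl1.2] at heig1
  have h3f : 3 * D.f ≤ e * D.f := Nat.mul_le_mul_right _ h3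
  rcases hshape with h | ⟨V, _, _, _, τ, hτ, hτx, hV, hVp, h⟩ | ⟨V, _, _, _, τ, V', _, _, _, τ', hτ,
    hτx, hτ', hτx', hV, h⟩
  · exfalso
    omega
  · exfalso
    have hpos := hno V τ hτ hτx
    have hb := h 1 (one_pow _)
    rw [if_pos rfl] at hb
    obtain ⟨m, hm⟩ : ∃ m, m + 1 = finrank k V := ⟨finrank k V - 1, by omega⟩
    obtain ⟨μ, w, hμ, -, -, -, hcount⟩ := block_bounds D τ hτ hm (by omega)
    set q := (m + 1) / e with hq
    have h4 := le_count D (μ := μ) (ν := (1 : k)) hμ (one_pow _) (n := m + 1) (q := q)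
      (Nat.div_mul_le_self _ _)
    have h5 := hcount 1
    have h6 := Nat.div_add_mod (m + 1) e
    have h7 := Nat.mod_lt (m + 1) (show 0 < e by omega)
    rw [← hq] at h6
    -- `t + q ≤ f` forces `t = 0`
    have h8 : q < D.f := by omega
    have h9 := Nat.mul_le_mul_left e (Nat.succ_le_of_lt h8)
    rw [Nat.mul_succ] at h9
    have h10 : D.f - q ≤ e * (D.f - q) := Nat.le_mul_of_pos_left _ (by omega)
    rcases Nat.lt_or_ge (D.f - q) 2 with h11 | h11
    · omega
    · have h12 := Nat.mul_le_mul_left e h11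
      have h13 : e * (D.f - q) + e * q = e * D.f := by
        rw [← Nat.mul_add, Nat.sub_add_cancel h8.le]
      have h14 : (D.f - q) * 3 ≤ (D.f - q) * e := Nat.mul_le_mul_left _ h3
      rw [mul_comm _ e] at h14
      omega
  · have := hno V τ hτ hτx
    have := hno V' τ' hτ' hτx'
    obtain ⟨r, hr⟩ := D.even_f
    have hhalf : e * r + e * r + 1 = p := by rw [hpf, hr, Nat.mul_add]
    obtain ⟨μ, w, hμ, hw, -, hwn, hcount⟩ :=
      block_bounds D τ hτ (m := e * r) (by omega) (by omega)
    obtain ⟨μ', w', hμ', -, -, -, hcount'⟩ :=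
      block_bounds D τ' hτ' (m := e * r) (by omega) (by omega)
    refine ⟨V, inferInstance, inferInstance, inferInstance, τ, μ, w, e * r, hτ, hτx, by omega,
      by omega, dvd_mul_right _ _, ?_, hμ, hw, hwn⟩
    have h4 : r + 1 ≤ (Finset.univ.filter fun i : Fin (e * r + 1) =>
        μ * ((expo D : ℕ) : k) ^ (i : ℕ) = μ).card := by
      refine le_trans (le_of_eq (Fintype.card_fin (r + 1)).symm) ?_
      rw [← Fintype.card_coe]
      refine Fintype.card_le_of_injective (fun j => ⟨⟨e * (j : ℕ), ?_⟩, Finset.mem_filter.2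
        ⟨Finset.mem_univ _, ?_⟩⟩) fun i j h => ?_
      · have := Nat.mul_le_mul_left e (Nat.lt_succ_iff.1 j.2)
        omega
      · show μ * ((expo D : ℕ) : k) ^ (e * (j : ℕ)) = μ
        rw [pow_mul, (isPrimitiveRoot_expo (k := k) D).pow_eq_one, one_pow, mul_one]
      · exact Fin.ext (Nat.eq_of_mul_eq_mul_left (show 0 < e by omega)
          (congrArg (fun z => ((z.1 : Fin _) : ℕ)) h))
    have h5 := le_count D (μ := μ') (ν := μ) hμ' hμ (n := e * r + 1) (q := r) (by rw [Nat.mul_comm r e]; omega)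
    have h6 := hcount μ
    have h7 := hcount' μ
    have h8 := h μ hμ
    rw [heig μ hμ] at h8
    intro hsq
    by_cases ha : μ = l
    · exact hl2 (ha ▸ hsq)
    by_cases hb : μ = l⁻¹
    · refine hl2 ?_
      rw [hb, ← mul_inv, inv_eq_one] at hsq
      exact hsq
    rw [if_neg ha, if_neg hb] at h8
    omega

end Cfsg.Agent.H42.PrimeDegree
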