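import Mathlib
import Cfsg.Agent.H42.PrimeDegree.Weights

/-!
# Invariant bilinear forms
-/

set_option autoImplicit false
set_option maxHeartbeats 1000000
set_option linter.unusedSectionVars false

namespace Cfsg.Agent.H42.PrimeDegree

open Module Cfsg.Agent.H43.D1

attribute [local instance] Fintype.ofFinite Classical.propDecidable

variable {p : ℕ} [hp : Fact p.Prime] {G : Type*} [Group G] [Finite G] (D : Datum p G)
  {k : Type*} [Field k] [IsAlgClosed k] [CharP k p]
  {W : Type*} [AddCommGroup W] [Module k W] [FiniteDimensional k W] (σ : G →* Module.End k W)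
  (B : W →ₗ[k] W →ₗ[k] k) (hinv : ∀ g v w, B (σ g v) (σ g w) = B v w)

theorem fixed_inv {v : W} (hv : delta σ D.x v = 0) : σ D.x⁻¹ v = v := by
  have h : σ D.x v = v := sub_eq_zero.1 hv
  conv_lhs => rw [← h]
  rw [← Module.End.mul_apply, ← map_mul, inv_mul_cancel, map_one, Module.End.one_apply]

include hinv

theorem eq_zero_of_forall (hρ : IsIrred σ) (hB : B ≠ 0) {v : W} (hv : B v = 0) : v = 0 := by
  have hU : ∀ g, ∀ z ∈ LinearMap.ker B, σ g z ∈ LinearMap.ker B := by
    intro g z hz
    rw [LinearMap.mem_ker] at hz ⊢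
    refine LinearMap.ext fun w => ?_
    have h := hinv g z (σ g⁻¹ w)
    rw [← Module.End.mul_apply (σ g) (σ g⁻¹), ← map_mul, mul_inv_cancel, map_one,
      Module.End.one_apply, hz] at h
    exact h
  rcases hρ.2 _ hU with h | h
  · have : v ∈ LinearMap.ker B := hv
    rwa [h, Submodule.mem_bot] at this
  · exact absurd (LinearMap.ker_eq_top.1 h) hB

theorem form_delta_right {v : W} (hv : delta σ D.x v = 0) (u : W) : B v (delta σ D.x u) = 0 := by
  rw [delta, LinearMap.sub_apply, Module.End.one_apply, map_sub, ← hinv D.x⁻¹ v (σ D.x u),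
    fixed_inv D σ hv, ← Module.End.mul_apply, ← map_mul, inv_mul_cancel, map_one,
    Module.End.one_apply, sub_self]

theorem form_delta_left {v : W} (hv : delta σ D.x v = 0) (u : W) : B (delta σ D.x u) v = 0 := by
  rw [delta, LinearMap.sub_apply, Module.End.one_apply, map_sub, LinearMap.sub_apply,
    ← hinv D.x⁻¹ (σ D.x u) v, fixed_inv D σ hv, ← Module.End.mul_apply, ← map_mul, inv_mul_cancel,
    map_one, Module.End.one_apply, sub_self]

theorem form_eigen {v w : W} {μ ν : k} (hv : σ D.a v = μ • v) (hw : σ D.a w = ν • w)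
    (hne : μ * ν ≠ 1) : B v w = 0 := by
  have h := hinv D.a v w
  rw [hv, hw, map_smul, map_smul, LinearMap.smul_apply, smul_eq_mul, smul_eq_mul] at h
  have h2 : (μ * ν - 1) * B v w = 0 := by linear_combination h
  exact (mul_eq_zero.1 h2).resolve_left (sub_ne_zero.2 hne)

/-- An irreducible module of dimension at most `p` whose generator has weight of order above two
is not self dual. -/
theorem form_eq_zero_of_block (hρ : IsIrred σ) {μ : k} {w : W} {h : ℕ}
    (hdim : finrank k W = h + 1) (hμ : μ * μ ≠ 1) (hμe : μ ^ Nat.card D.L = 1)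
    (hw : σ D.a w = μ • w) (hdvd : Nat.card D.L ∣ h) (htop : (delta σ D.x ^ h) w ≠ 0) : B = 0 := by
  by_contra hB
  set δ := delta σ D.x with hδ
  have h0 : (δ ^ (h + 1)) w = 0 := by
    rw [← hdim, hδ, delta_pow_finrank σ D.orderOf_x, LinearMap.zero_apply]
  obtain ⟨u, hua, hu1, -⟩ := exists_chain D σ hμe hw h0 h le_rfl
  rw [Nat.sub_self, pow_zero, Module.End.one_apply] at hu1
  obtain ⟨r, hr⟩ := hdvd
  rw [hr, pow_mul, (isPrimitiveRoot_expo (k := k) D).pow_eq_one, one_pow, mul_one] at hua
  have hfix : δ u = 0 := by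
    rw [hu1, ← Module.End.mul_apply, ← pow_succ', h0]
  have hne : u ≠ 0 := by rw [hu1]; exact htop
  refine hne (eq_zero_of_forall σ B hinv hρ hB (LinearMap.ext fun z => ?_))
  -- the vectors along the block span
  have hli : LinearIndependent k (fun i : Fin (h + 1) => (δ ^ (i : ℕ)) w) := by
    rw [Fintype.linearIndependent_iff]
    intro g hg i
    induction hn : (i : ℕ) using Nat.strong_induction_on generalizing i with
    | _ n ih =>
      subst hn
      have h2 : (δ ^ (h - i)) (∑ l, g l • (δ ^ (l : ℕ)) w) = 0 := by rw [hg, map_zero]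
      rw [map_sum, Finset.sum_eq_single i ?_ (fun h => absurd (Finset.mem_univ i) h), map_smul,
        ← Module.End.mul_apply, ← pow_add, Nat.sub_add_cancel (by omega), smul_eq_zero] at h2
      · exact h2.resolve_right htop
      · intro l _ hli
        rcases lt_or_gt_of_ne (Fin.val_ne_of_ne hli) with hl | hl
        · rw [ih l hl l rfl, zero_smul, map_zero]
        · rw [map_smul, ← Module.End.mul_apply, ← pow_add,
            show h - (i : ℕ) + l = ((l : ℕ) - i - 1) + (h + 1) by omega, pow_add,
            Module.End.mul_apply, h0, map_zero, smul_zero]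
  have hspan := hli.span_eq_top_of_card_eq_finrank (by rw [Fintype.card_fin, hdim])
  have hz : z ∈ Submodule.span k (Set.range fun i : Fin (h + 1) => (δ ^ (i : ℕ)) w) :=
    hspan ▸ Submodule.mem_top
  rw [LinearMap.zero_apply]
  induction hz using Submodule.span_induction with
  | mem x hx =>
    obtain ⟨i, rfl⟩ := hx
    obtain ⟨i, hi⟩ := i
    rcases i with _ | i
    · show B u ((δ ^ 0) w) = 0
      rw [pow_zero, Module.End.one_apply]
      exact form_eigen D σ B hinv hua hw hμ
    · show B u ((δ ^ (i + 1)) w) = 0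
      rw [pow_succ', Module.End.mul_apply]
      exact form_delta_right D σ B hinv hfix _
  | zero => rw [map_zero]
  | add a b _ _ ha hb => rw [map_add, ha, hb, add_zero]
  | smul c a _ ha => rw [map_smul, ha, smul_zero]

variable [Fintype G]

/-- The module of dimension `p + 1` is not irreducible. -/
theorem not_irred (hM : finrank k W = p + 1) (hB : B ≠ 0) {l : k} (hl : l * l ≠ 1)
    (heig : ∀ ν : k, ν ^ Nat.card D.L = 1 →
      finrank k (Module.End.eigenspace (σ D.a) ν) =
        D.f + (if ν = l then 1 else 0) + (if ν = l⁻¹ then 1 else 0)) :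
    ¬ IsIrred σ := by
  intro hρ
  have hp2 := hp.out.two_le
  set δ := delta σ D.x with hδ
  obtain ⟨μ, w, hμ, hw, hwn⟩ := exists_top D σ hρ (m := p - 1) (by omega) (by omega)
  change (δ ^ (p - 1)) w ≠ 0 at hwn
  have hδp : δ ^ p = 0 := delta_pow_eq_zero σ D.orderOf_x
  have h0 : (δ ^ (p - 1 + 1)) w = 0 := by
    rw [Nat.sub_add_cancel (by omega), hδp, LinearMap.zero_apply]
  set r : ℕ → ℕ := fun j => finrank k (LinearMap.range (δ ^ j)) with hr
  set s := finrank k (LinearMap.ker δ) with hs
  have hstep : ∀ j, r j = r (j + 1) +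
      finrank k (LinearMap.ker (δ.domRestrict (LinearMap.range (δ ^ j)))) := by
    intro j
    have h2 := (δ.domRestrict (LinearMap.range (δ ^ j))).finrank_range_add_finrank_ker
    rw [show LinearMap.range (δ.domRestrict (LinearMap.range (δ ^ j))) =
        LinearMap.range (δ ^ (j + 1)) by
      rw [LinearMap.range_domRestrict, pow_succ', Module.End.mul_eq_comp, LinearMap.range_comp]] at h2
    exact h2.symm
  have hkle : ∀ j, finrank k (LinearMap.ker (δ.domRestrict (LinearMap.range (δ ^ j)))) ≤ s := by
    intro j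
    rw [LinearMap.ker_domRestrict, ← Submodule.finrank_map_subtype_eq]
    exact Submodule.finrank_mono (Submodule.map_comap_le _ _)
  have hkpos : ∀ j ≤ p - 1, 1 ≤ finrank k (LinearMap.ker (δ.domRestrict (LinearMap.range (δ ^ j)))) := by
    intro j hj
    refine Submodule.one_le_finrank_iff.2 ((Submodule.ne_bot_iff _).2
      ⟨⟨(δ ^ (p - 1)) w, ⟨(δ ^ (p - 1 - j)) w, ?_⟩⟩, ?_, fun h => hwn (congrArg Subtype.val h)⟩)
    · rw [← Module.End.mul_apply, ← pow_add, Nat.add_sub_cancel' hj]
    · rw [LinearMap.mem_ker, LinearMap.domRestrict_apply, ← Module.End.mul_apply, ← pow_succ', h0]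
  have hlow : ∀ i j, i + j ≤ p → i ≤ r j := by
    intro i
    induction i with
    | zero => exact fun j _ => Nat.zero_le _
    | succ i ih =>
      intro j hij
      have := ih (j + 1) (by omega)
      have := hstep j
      have := hkpos j (by omega)
      omega
  have hr0 : r 0 = p + 1 := by
    simp only [hr]
    rw [pow_zero, Module.End.one_eq_id, LinearMap.range_id, finrank_top, hM]
  have hr1 : r 1 + s = p + 1 := by
    have h := δ.finrank_range_add_finrank_ker
    simp only [hr, pow_one]
    rw [← hM]; exact h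
  have hs2 : 2 ≤ s := by
    by_contra h
    have hup : ∀ j, r 0 ≤ r j + j := by
      intro j
      induction j with
      | zero => omega
      | succ j ih =>
        have := hstep j
        have := hkle j
        omega
    have h2 := hup p
    have h3 : r p = 0 := by
      simp only [hr]
      rw [hδp, LinearMap.range_zero, finrank_bot]
    omega
  have h1low := hlow (p - 1) 1 (by omega)
  have hs2' : s = 2 := by omega
  have hnle : ¬ LinearMap.ker δ ≤ LinearMap.range δ := by
    intro hle
    have h2low := hlow (p - 2) 2 (by omega)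
    have h := hstep 1
    have hk : finrank k (LinearMap.ker (δ.domRestrict (LinearMap.range (δ ^ 1)))) = s := by
      rw [LinearMap.ker_domRestrict, ← Submodule.finrank_map_subtype_eq,
        Submodule.map_comap_subtype, pow_one, inf_eq_right.2 hle]
    rw [hk] at h
    rw [show 1 + 1 = 2 from rfl] at h
    omega
  obtain ⟨ν, v, hν, hv, hvker, hvD⟩ := exists_eigen_mem_not_mem (σ D.a) (card_cast_ne_zero D)
    (sigma_pow_card D σ) (LinearMap.ker δ) (LinearMap.range δ) (fun z hz => by
      have := ker_pow_invariant D σ 1 z (by rwa [pow_one])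
      rwa [pow_one] at this) hnle
  have hv0 : δ v = 0 := LinearMap.mem_ker.1 hvker
  have hν2 : ν * ν ≠ 1 := by
    have h1 := le_finrank_eigenspace_succ D σ hμ hw h0 hwn (by omega) hv hv0 hvD
    have h2 := le_count D (μ := μ) hμ hν (n := p - 1 + 1) (q := D.f) (by
      have := D.card_eq
      rw [Nat.mul_comm]; omega)
    rw [heig ν hν] at h1
    intro hsq
    by_cases ha : ν = l
    · exact hl (ha ▸ hsq)
    by_cases hb : ν = l⁻¹
    · refine hl ?_
      rw [hb, ← mul_inv, inv_eq_one] at hsq
      exact hsq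
    rw [if_neg ha, if_neg hb] at h1
    omega
  have hvv : B v v = 0 := form_eigen D σ B hinv hv hv hν2
  -- the three pieces span
  set D' := LinearMap.range δ ⊔ Submodule.span k {v} with hD'
  have hD'ker : D' ≤ LinearMap.ker (δ ^ (p - 1)) := by
    refine sup_le ?_ (Submodule.span_le.2 ?_)
    · rintro _ ⟨z, rfl⟩
      rw [LinearMap.mem_ker, ← Module.End.mul_apply, ← pow_succ, Nat.sub_add_cancel (by omega), hδp,
        LinearMap.zero_apply]
    · intro z hz
      rw [Set.mem_singleton_iff] at hz
      rw [hz, SetLike.mem_coe, LinearMap.mem_ker, show p - 1 = (p - 2) + 1 by omega, pow_succ,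
        Module.End.mul_apply, hv0, map_zero]
  have hlt1 : LinearMap.range δ < D' := lt_of_le_of_ne le_sup_left fun h =>
    hvD (h ▸ Submodule.mem_sup_right (Submodule.mem_span_singleton_self v))
  have hlt2 : D' < D' ⊔ Submodule.span k {w} := lt_of_le_of_ne le_sup_left fun h =>
    hwn (LinearMap.mem_ker.1 (hD'ker (h ▸ Submodule.mem_sup_right
      (Submodule.mem_span_singleton_self w))))
  have htop : D' ⊔ Submodule.span k {w} = ⊤ := by
    refine Submodule.eq_top_of_finrank_eq (le_antisymm (Submodule.finrank_le _) ?_)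
    have h1 := Submodule.finrank_lt_finrank_of_lt hlt1
    have h2 := Submodule.finrank_lt_finrank_of_lt hlt2
    have h3 : r 1 = finrank k (LinearMap.range δ) := by
      show finrank k (LinearMap.range (δ ^ 1)) = _
      rw [pow_one]
    omega
  have hkill : ∀ u : W, δ u = 0 → B u v = 0 → B u w = 0 → u = 0 := by
    intro u hu huv huw
    refine eq_zero_of_forall σ B hinv hρ hB (LinearMap.ext fun z => ?_)
    have hz : z ∈ D' ⊔ Submodule.span k {w} := htop ▸ Submodule.mem_top
    obtain ⟨d, hd, b, hb, rfl⟩ := Submodule.mem_sup.1 hz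
    obtain ⟨_, ⟨d₁, rfl⟩, d₂, hd₂, rfl⟩ := Submodule.mem_sup.1 hd
    obtain ⟨c₁, rfl⟩ := Submodule.mem_span_singleton.1 hd₂
    obtain ⟨c₂, rfl⟩ := Submodule.mem_span_singleton.1 hb
    rw [map_add, map_add, map_smul, map_smul, huv, huw, form_delta_right D σ B hinv hu, smul_zero,
      smul_zero, add_zero, add_zero, LinearMap.zero_apply]
  set n := (δ ^ (p - 1)) w with hn
  have hn0 : δ n = 0 := by rw [hn, ← Module.End.mul_apply, ← pow_succ', h0]
  have hnv : B n v = 0 := by
    rw [hn, show p - 1 = (p - 2) + 1 by omega, pow_succ', Module.End.mul_apply]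
    exact form_delta_left D σ B hinv hv0 _
  have hnw : B n w ≠ 0 := fun h => hwn (hkill n hn0 hnv h)
  refine hvD ?_
  have hz := hkill (v - (B v w / B n w) • n) (by rw [map_sub, map_smul, hv0, hn0, smul_zero, sub_zero])
    (by rw [map_sub, map_smul, LinearMap.sub_apply, LinearMap.smul_apply, hvv, hnv, smul_zero, sub_zero])
    (by rw [map_sub, map_smul, LinearMap.sub_apply, LinearMap.smul_apply, smul_eq_mul,
      div_mul_cancel₀ _ hnw, sub_self])
  rw [sub_eq_zero.1 hz]
  refine Submodule.smul_mem _ _ ⟨(δ ^ (p - 2)) w, ?_⟩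
  rw [hn, ← Module.End.mul_apply, ← pow_succ', show p - 2 + 1 = p - 1 by omega]

end Cfsg.Agent.H42.PrimeDegree
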