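import Mathlib
import Cfsg.Agent.H42.PrimeDegree.Weights

/-!
# A small invariant subspace from a short block of the normalizer
-/

set_option autoImplicit false
set_option maxHeartbeats 1000000
set_option linter.unusedSectionVars false

namespace Cfsg.Agent.H42.PrimeDegree

open Module Cfsg.Agent.H43.D1

attribute [local instance] Fintype.ofFinite Classical.propDecidable

variable {p : ℕ} [hp : Fact p.Prime] {G : Type*} [Group G] [Fintype G] (D : Datum p G)
  {k : Type*} [Field k] [IsAlgClosed k] [CharP k p]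
  {A : Type*} [AddCommGroup A] [Module k A] [FiniteDimensional k A] (α : G →* Module.End k A)

/-- A block of length `m + 1` of `N(P)` that survives modulo the longer ones gives an invariant
subspace of dimension at most `m + 1`, when there is no projective part. -/
theorem exists_small_invariant (hN : delta α D.x ^ (p - 1) = 0) {f : A} {ν : k}
    (hf : α D.a f = ν • f) {m : ℕ} (hf0 : (delta α D.x ^ (m + 1)) f = 0)
    (hnot : (delta α D.x ^ m) f ∉ LinearMap.range (delta α D.x ^ (m + 1))) :
    ∃ Y : Submodule k A, (∀ g, ∀ y ∈ Y, α g y ∈ Y) ∧ finrank k Y ≤ m + 1 ∧ Y ≠ ⊥ := by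
  classical
  set δ := delta α D.x with hδ
  set e := Nat.card D.L with he
  have hfne : f ≠ 0 := fun h => hnot (by rw [h, map_zero]; exact Submodule.zero_mem _)
  have hfD : f ∉ LinearMap.range δ := by
    rintro ⟨b, hb⟩
    refine hnot ⟨b, ?_⟩
    rw [pow_succ, Module.End.mul_apply, hb]
  have hpowf : ∀ j : ℕ, α (D.a ^ j) f = ν ^ j • f := by
    intro j
    induction j with
    | zero => simp
    | succ j ih => rw [pow_succ', map_mul, Module.End.mul_apply, ih, map_smul, hf, smul_smul, ← pow_succ]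
  have hνe : ν ^ e = 1 := by
    have h := hpowf e
    rw [he, a_pow_card D, map_one, Module.End.one_apply] at h
    exact smul_left_injective k hfne (h.symm.trans (one_smul k _).symm)
  -- the functional
  obtain ⟨φ, hφD, hφf⟩ : ∃ φ : A →ₗ[k] k, (∀ b, φ ((δ ^ (m + 1)) b) = 0) ∧ φ ((δ ^ m) f) = 1 := by
    set R := LinearMap.range (δ ^ (m + 1))
    have h1 : R.mkQ ((δ ^ m) f) ≠ 0 := fun h => hnot ((Submodule.Quotient.mk_eq_zero R).1 h)
    obtain ⟨ψ, hψ⟩ : ∃ ψ : Module.Dual k (A ⧸ R), ψ (R.mkQ ((δ ^ m) f)) ≠ 0 := by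
      by_contra hc
      push Not at hc
      exact h1 ((Module.forall_dual_apply_eq_zero_iff k _).1 hc)
    refine ⟨(ψ (R.mkQ ((δ ^ m) f)))⁻¹ • (ψ ∘ₗ R.mkQ), fun b => ?_, ?_⟩
    · rw [LinearMap.smul_apply, LinearMap.comp_apply,
        show R.mkQ ((δ ^ (m + 1)) b) = 0 from (Submodule.Quotient.mk_eq_zero R).2 ⟨b, rfl⟩, map_zero,
        smul_zero]
    · rw [LinearMap.smul_apply, LinearMap.comp_apply, smul_eq_mul, inv_mul_cancel₀ hψ]
  set W : Submodule k A := Submodule.span k
    (((Finset.range (m + 1)).image fun j => (δ ^ j) f : Finset A) : Set A) with hW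
  have hWdim : finrank k W ≤ m + 1 :=
    (finrank_span_finset_le_card _).trans (Finset.card_image_le.trans (Finset.card_range _).le)
  have hWmem : ∀ j, (δ ^ j) f ∈ W := by
    intro j
    by_cases hj : j < m + 1
    · exact Submodule.subset_span (Finset.mem_coe.2 (Finset.mem_image.2 ⟨j, Finset.mem_range.2 hj, rfl⟩))
    · rw [show j = (j - (m + 1)) + (m + 1) by omega, pow_add, Module.End.mul_apply, hf0, map_zero]
      exact W.zero_mem
  have hWind : ∀ (T : Module.End k A), (∀ j, T ((δ ^ j) f) ∈ W) → ∀ z ∈ W, T z ∈ W := by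
    intro T hT z hz
    induction hz using Submodule.span_induction with
    | mem x hx =>
      obtain ⟨j, -, rfl⟩ := Finset.mem_image.1 (Finset.mem_coe.1 hx)
      exact hT j
    | zero => rw [map_zero]; exact W.zero_mem
    | add a b _ _ ha hb => rw [map_add]; exact W.add_mem ha hb
    | smul c a _ ha => rw [map_smul]; exact W.smul_mem c ha
  have hδW : ∀ z ∈ W, δ z ∈ W := hWind δ fun j => by
    rw [← Module.End.mul_apply, ← pow_succ']; exact hWmem _
  have hδWpow : ∀ i, ∀ z ∈ W, (δ ^ i) z ∈ W := by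
    intro i
    induction i with
    | zero => exact fun z hz => hz
    | succ i ih => intro z hz; rw [pow_succ, Module.End.mul_apply]; exact ih _ (hδW z hz)
  have hxW : ∀ z ∈ W, α D.x z ∈ W := by
    intro z hz
    have h := W.add_mem (hδW z hz) hz
    rwa [hδ, delta, LinearMap.sub_apply, Module.End.one_apply, sub_add_cancel] at h
  have hmultW : ∀ i, ∀ z ∈ W, (mult D α ^ i) z ∈ W := by
    intro i
    induction i with
    | zero => exact fun z hz => hz
    | succ i ih =>
      intro z hz
      rw [pow_succ, Module.End.mul_apply]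
      refine ih _ ?_
      rw [mult, LinearMap.sum_apply]
      refine W.sum_mem fun l hl => ?_
      clear ih hl
      induction l with
      | zero => simpa using hz
      | succ l ih => rw [pow_succ', Module.End.mul_apply]; exact hxW _ ih
  have haW : ∀ z ∈ W, α D.a z ∈ W := hWind _ fun j => by
    rw [← Module.End.mul_apply, a_delta_pow, Module.End.mul_apply, hf, map_smul]
    exact W.smul_mem _ (hmultW j _ (hWmem j))
  have hδWzero : ∀ i, m + 1 ≤ i → ∀ z ∈ W, (δ ^ i) z = 0 := by
    intro i hi z hz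
    induction hz using Submodule.span_induction with
    | mem x hx =>
      obtain ⟨j, -, rfl⟩ := Finset.mem_image.1 (Finset.mem_coe.1 hx)
      rw [← Module.End.mul_apply, ← pow_add, show i + j = (i + j - (m + 1)) + (m + 1) by omega,
        pow_add, Module.End.mul_apply, hf0, map_zero]
    | zero => rw [map_zero]
    | add a b _ _ ha hb => rw [map_add, ha, hb, add_zero]
    | smul c a _ ha => rw [map_smul, ha, smul_zero]
  -- the map onto the block
  set π₀ : Module.End k A :=
    ∑ j ∈ Finset.range (m + 1), (φ ∘ₗ (δ ^ (m - j))).smulRight ((δ ^ j) f) with hπ₀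
  have hπ₀W : ∀ b, π₀ b ∈ W := fun b => by
    rw [hπ₀, LinearMap.sum_apply]
    exact W.sum_mem fun j _ => W.smul_mem _ (hWmem j)
  have hπ₀δ : Commute π₀ δ := by
    refine LinearMap.ext fun b => ?_
    rw [Module.End.mul_apply, Module.End.mul_apply, hπ₀, LinearMap.sum_apply, LinearMap.sum_apply,
      map_sum]
    set F : ℕ → A := fun j => φ ((δ ^ (m + 1 - j)) b) • (δ ^ j) f with hF
    have hl : ∀ j ∈ Finset.range (m + 1),
        ((φ ∘ₗ (δ ^ (m - j))).smulRight ((δ ^ j) f)) (δ b) = F j := by
      intro j hj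
      have := Finset.mem_range.1 hj
      rw [LinearMap.smulRight_apply, LinearMap.comp_apply, hF, ← Module.End.mul_apply, ← pow_succ,
        show m - j + 1 = m + 1 - j by omega]
    have hr : ∀ j ∈ Finset.range (m + 1),
        δ (((φ ∘ₗ (δ ^ (m - j))).smulRight ((δ ^ j) f)) b) = F (j + 1) := by
      intro j _
      rw [LinearMap.smulRight_apply, LinearMap.comp_apply, map_smul, ← Module.End.mul_apply δ,
        ← pow_succ', hF]
      simp
    rw [Finset.sum_congr rfl hl, Finset.sum_congr rfl hr]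
    have h1 := Finset.sum_range_succ' F (m + 1)
    rw [Finset.sum_range_succ, show F (m + 1) = 0 by simp [hF, hf0],
      show F 0 = 0 by simp [hF, hφD]] at h1
    simpa using h1
  have hπ₀f : π₀ f - f ∈ LinearMap.range δ := by
    rw [hπ₀, LinearMap.sum_apply, ← Finset.add_sum_erase _ _ (Finset.mem_range.2 (Nat.succ_pos m)),
      LinearMap.smulRight_apply, LinearMap.comp_apply, Nat.sub_zero, hφf, one_smul, pow_zero,
      Module.End.one_apply, add_sub_cancel_left]
    refine Submodule.sum_mem _ fun j hj => ?_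
    obtain ⟨i, rfl⟩ := Nat.exists_eq_succ_of_ne_zero (Finset.mem_erase.1 hj).1
    rw [LinearMap.smulRight_apply, pow_succ', Module.End.mul_apply]
    exact Submodule.smul_mem _ _ ⟨_, rfl⟩
  have hπ₀x : ∀ u ∈ D.P, α u * π₀ = π₀ * α u := by
    intro u hu
    obtain ⟨i, rfl⟩ := (mem_powers_iff_mem_zpowers (x := D.x)).2 hu
    have h : Commute (α D.x) π₀ := by
      rw [show α D.x = δ + 1 by rw [hδ, delta, sub_add_cancel]]
      exact hπ₀δ.symm.add_left (Commute.one_left _)
    show α (D.x ^ i) * π₀ = π₀ * α (D.x ^ i)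
    rw [map_pow]
    exact h.pow_left i
  -- average over the complement
  have hek : (e : k) ≠ 0 := card_cast_ne_zero D
  set T : ℕ → Module.End k A := fun j => α (D.a ^ j) * π₀ * α (D.a ^ j)⁻¹ with hT
  set π : Module.End k A := (e : k)⁻¹ • ∑ j ∈ Finset.range e, T j with hπ
  have haj : ∀ j : ℕ, ∀ z ∈ W, α (D.a ^ j) z ∈ W := by
    intro j
    induction j with
    | zero => intro z hz; simpa using hz
    | succ j ih => intro z hz; rw [pow_succ, map_mul, Module.End.mul_apply]; exact ih _ (haW z hz)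
  have hπW : ∀ b, π b ∈ W := fun b => by
    rw [hπ, LinearMap.smul_apply, LinearMap.sum_apply]
    refine W.smul_mem _ (W.sum_mem fun j _ => ?_)
    rw [hT, Module.End.mul_apply, Module.End.mul_apply]
    exact haj j _ (hπ₀W _)
  have hπP : ∀ u ∈ D.P, α u * π = π * α u := by
    intro u hu
    rw [hπ, mul_smul_comm, smul_mul_assoc, Finset.mul_sum, Finset.sum_mul]
    congr 1
    refine Finset.sum_congr rfl fun j _ => ?_
    have hmem : D.a ^ j ∈ D.L := D.L.pow_mem (D.a_gen ▸ Subgroup.mem_zpowers D.a) j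
    have h := hπ₀x _ (D.conj_mem' hmem hu)
    calc α u * T j = α (D.a ^ j) * (α ((D.a ^ j)⁻¹ * u * D.a ^ j) * π₀) * α (D.a ^ j)⁻¹ := by
          simp only [hT, ← mul_assoc, ← map_mul]
          congr 3
          group
      _ = α (D.a ^ j) * π₀ * (α ((D.a ^ j)⁻¹ * u * D.a ^ j) * α (D.a ^ j)⁻¹) := by
          rw [h]; simp only [mul_assoc]
      _ = T j * α u := by
          simp only [hT, mul_assoc, ← map_mul]
          congr 3
          group
  have hπa : α D.a * π = π * α D.a := by
    rw [hπ, mul_smul_comm, smul_mul_assoc, Finset.mul_sum, Finset.sum_mul]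
    congr 1
    have h1 : ∀ j, α D.a * T j = T (j + 1) * α D.a := by
      intro j
      simp only [hT, pow_succ', map_mul, mul_inv_rev, mul_assoc]
      rw [← map_mul α D.a⁻¹ D.a, inv_mul_cancel, map_one, mul_one]
    rw [Finset.sum_congr rfl fun j _ => h1 j]
    set F : ℕ → Module.End k A := fun j => T j * α D.a with hF
    show ∑ j ∈ Finset.range e, F (j + 1) = ∑ j ∈ Finset.range e, F j
    have h2 := Finset.sum_range_succ' F e
    rw [Finset.sum_range_succ, show F e = F 0 by
      simp only [hF, hT]; rw [show D.a ^ e = 1 from a_pow_card D, pow_zero]] at h2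
    exact (add_right_cancel h2).symm
  have hπN : ∀ g ∈ D.N, α g * π * α g⁻¹ = π := by
    intro g hg
    have hcomm : α g * π = π * α g := by
      obtain ⟨l, hl, u, hu, rfl⟩ := D.mem_N_iff.1 hg
      rw [← D.a_gen] at hl
      obtain ⟨i, rfl⟩ := (mem_powers_iff_mem_zpowers (x := D.a)).2 hl
      show α (D.a ^ i * u) * π = π * α (D.a ^ i * u)
      rw [map_mul, map_pow]
      exact ((show Commute (α D.a) π from hπa).pow_left i).mul_left (hπP u hu)
    rw [hcomm, mul_assoc, ← map_mul, mul_inv_cancel, map_one, mul_one]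
  have hDinv : ∀ j : ℕ, ∀ z ∈ LinearMap.range δ, α (D.a ^ j) z ∈ LinearMap.range δ := by
    intro j
    induction j with
    | zero => intro z hz; simpa using hz
    | succ j ih =>
      intro z hz
      rw [pow_succ, map_mul, Module.End.mul_apply]
      refine ih _ ?_
      have := range_pow_invariant D α 1 z (by rwa [pow_one])
      rwa [pow_one] at this
  have hπf : π f - f ∈ LinearMap.range δ := by
    have h : π f - f = (e : k)⁻¹ • ∑ j ∈ Finset.range e, (T j f - f) := by
      rw [Finset.sum_sub_distrib, Finset.sum_const, Finset.card_range, ← Nat.cast_smul_eq_nsmul k,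
        smul_sub, smul_smul, inv_mul_cancel₀ hek, one_smul, hπ, LinearMap.smul_apply, LinearMap.sum_apply]
    rw [h]
    refine Submodule.smul_mem _ _ (Submodule.sum_mem _ fun j _ => ?_)
    have hinv : α (D.a ^ j)⁻¹ f = (ν⁻¹) ^ j • f := by
      have hν0 : ν ≠ 0 := fun h => by
        rw [h, zero_pow (Nat.card_pos (α := D.L)).ne'] at hνe; exact zero_ne_one hνe
      have h1 := hpowf j
      have h2 := congrArg (α (D.a ^ j)⁻¹) h1
      rw [← Module.End.mul_apply, ← map_mul, inv_mul_cancel, map_one, Module.End.one_apply,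
        map_smul] at h2
      conv_rhs => rw [h2, smul_smul, ← mul_pow, inv_mul_cancel₀ hν0, one_pow, one_smul]
    simp only [hT, Module.End.mul_apply, hinv, map_smul]
    have h3 : α (D.a ^ j) (π₀ f) - α (D.a ^ j) f ∈ LinearMap.range δ := by
      rw [← map_sub]; exact hDinv j _ hπ₀f
    have hν0 : ν ≠ 0 := fun h => by
      rw [h, zero_pow (Nat.card_pos (α := D.L)).ne'] at hνe; exact zero_ne_one hνe
    have h4 : (ν⁻¹) ^ j • α (D.a ^ j) (π₀ f) - f =
        (ν⁻¹) ^ j • (α (D.a ^ j) (π₀ f) - α (D.a ^ j) f) := by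
      rw [smul_sub, hpowf, smul_smul, ← mul_pow, inv_mul_cancel₀ hν0, one_pow, one_smul]
    rw [h4]
    exact Submodule.smul_mem _ _ h3
  -- the transfer
  let F : G ⧸ D.N → Module.End k A := fun q => α q.out * π * α q.out⁻¹
  have hFact : ∀ (g : G) (q : G ⧸ D.N), F (g • q) = α g * F q * α g⁻¹ := by
    intro g q
    obtain ⟨n, hn⟩ := QuotientGroup.mk_out_eq_mul D.N (g * q.out)
    have hgc : g • q = QuotientGroup.mk (g * q.out) := by
      conv_lhs => rw [← QuotientGroup.out_eq' q]
      rfl
    show α (g • q).out * π * α (g • q).out⁻¹ = _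
    rw [hgc, hn]
    simp only [F, map_mul, mul_inv_rev]
    calc α g * α q.out * α (n : G) * π * (α (n : G)⁻¹ * (α q.out⁻¹ * α g⁻¹))
        = α g * α q.out * (α (n : G) * π * α (n : G)⁻¹) * (α q.out⁻¹ * α g⁻¹) := by
          simp only [mul_assoc]
      _ = _ := by rw [hπN n n.2]; simp only [mul_assoc]
  set E : Module.End k A := ∑ q : G ⧸ D.N, F q with hE
  have hEcomm : ∀ g, α g * E = E * α g := by
    intro g
    have h : α g * E * α g⁻¹ = E := by
      rw [hE, Finset.mul_sum, Finset.sum_mul]
      exact Fintype.sum_equiv (MulAction.toPerm g) _ _ fun q => (hFact g q).symm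
    conv_rhs => rw [← h]
    rw [mul_assoc, ← map_mul, inv_mul_cancel, map_one, mul_one]
  have hK : ∀ b, normP α D.x b = 0 := fun b => by
    rw [normP_eq_pow α D.orderOf_x, hN, LinearMap.zero_apply]
  have hEmod : ∀ b, ∃ b', E b = π b + δ b' := by
    intro b
    suffices E b - π b ∈ LinearMap.range δ by
      obtain ⟨b', hb'⟩ := this
      exact ⟨b', by rw [hb', add_sub_cancel]⟩
    set q₀ : G ⧸ D.N := QuotientGroup.mk (1 : G)
    have hF0 : F q₀ = π := hπN _ (by
      obtain ⟨n, hn⟩ := QuotientGroup.mk_out_eq_mul D.N (1 : G)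
      rw [hn, one_mul]; exact n.2)
    rw [hE, ← Finset.add_sum_erase _ _ (Finset.mem_univ q₀), LinearMap.add_apply, hF0,
      add_sub_cancel_left]
    refine sum_free_mem α _ (fun u q hq => ?_) (fun u q hq huq => ?_) _
      (fun u q _ => hFact (u : G) q) (hK b)
    · refine Finset.mem_erase.2 ⟨fun h => (Finset.mem_erase.1 hq).1 ?_, Finset.mem_univ _⟩
      rw [← inv_smul_smul u q, h]
      exact QuotientGroup.eq.2 (by simpa using D.P_le_N u.2)
    · induction q using QuotientGroup.induction_on with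
      | H g =>
        by_contra hu
        have hg : g ∈ D.N := by
          refine D.mem_N_of_fix u.2 (fun h => hu (Subtype.ext h)) ?_
          have h2 : (QuotientGroup.mk g : G ⧸ D.N) = QuotientGroup.mk ((u : G) * g) := huq.symm
          rw [QuotientGroup.eq] at h2
          simpa [mul_assoc] using h2
        exact (Finset.mem_erase.1 hq).1 (QuotientGroup.eq.2 (by simpa using hg))
  have hEδ : Commute E δ := by
    rw [hδ, delta]
    exact (show Commute E (α D.x) from (hEcomm D.x).symm).sub_right (Commute.one_right _)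
  have hEpow : ∀ (i : ℕ) b, ∃ b', E ((δ ^ i) b) = (δ ^ i) (π b) + (δ ^ (i + 1)) b' := by
    intro i b
    obtain ⟨b', hb'⟩ := hEmod b
    refine ⟨b', ?_⟩
    rw [← Module.End.mul_apply, (hEδ.pow_right i).eq, Module.End.mul_apply, hb', map_add,
      pow_succ, Module.End.mul_apply]
  have hiter : ∀ (n i : ℕ) b, ∃ b', (E ^ n) ((δ ^ (i + (m + 1))) b) = (δ ^ (i + (m + 1) + n)) b' := by
    intro n
    induction n with
    | zero => exact fun i b => ⟨b, rfl⟩
    | succ n ih =>
      intro i b
      obtain ⟨b', hb'⟩ := hEpow (i + (m + 1)) b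
      rw [hδWzero _ (by omega) _ (hπW b), zero_add] at hb'
      obtain ⟨b'', hb''⟩ := ih (i + 1) b'
      exact ⟨b'', by rw [pow_succ, Module.End.mul_apply, hb',
        show i + (m + 1) + 1 = i + 1 + (m + 1) by ring, hb'',
        show i + 1 + (m + 1) + n = i + (m + 1) + (n + 1) by ring]⟩
  obtain ⟨n, hn, hcompl⟩ : ∃ n, p ≤ n ∧
      IsCompl (LinearMap.ker (E ^ n)) (LinearMap.range (E ^ n)) :=
    (Filter.eventually_atTop.1 E.eventually_isCompl_ker_pow_range_pow).elim
      fun n h => ⟨max n p, le_max_right _ _, h _ (le_max_left _ _)⟩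
  set Q : ℕ → Submodule k A := fun i => (LinearMap.range (δ ^ i)).map (E ^ n) with hQ
  have hQY : ∀ i, Q i ≤ LinearMap.range (E ^ n) := fun i => LinearMap.map_le_range
  have hQE : ∀ i, Q i = (Q i).map E := by
    intro i
    symm
    refine Submodule.eq_of_le_of_finrank_le ?_ ?_
    · rintro _ ⟨_, ⟨_, ⟨b, rfl⟩, rfl⟩, rfl⟩
      refine ⟨(δ ^ i) (E b), ⟨E b, rfl⟩, ?_⟩
      rw [← Module.End.mul_apply (δ ^ i), ← (hEδ.pow_right i).eq, Module.End.mul_apply,
        ← Module.End.mul_apply (E ^ n), ← pow_succ, pow_succ', Module.End.mul_apply]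
    · rw [← LinearMap.range_domRestrict]
      refine (LinearMap.finrank_range_of_inj ?_).ge
      refine (injective_iff_map_eq_zero _).2 fun z hz => Subtype.ext ?_
      refine Submodule.disjoint_def.1 hcompl.disjoint _ (LinearMap.mem_ker.2 ?_) (hQY i z.2)
      have : 1 ≤ n := by have := hp.out.two_le; omega
      rw [← Nat.sub_add_cancel this, pow_add, pow_one, Module.End.mul_apply,
        show E (z : A) = 0 from hz, map_zero]
  have hQstep : ∀ i, Q i ≤ W.map (E ^ n) ⊔ Q (i + 1) := by
    intro i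
    rw [hQE i]
    rintro _ ⟨_, ⟨_, ⟨b, rfl⟩, rfl⟩, rfl⟩
    obtain ⟨b', hb'⟩ := hEpow i b
    rw [← Module.End.mul_apply E, ← pow_succ', pow_succ, Module.End.mul_apply, hb', map_add]
    exact add_mem (Submodule.mem_sup_left ⟨_, hδWpow i _ (hπW b), rfl⟩)
      (Submodule.mem_sup_right ⟨_, ⟨b', rfl⟩, rfl⟩)
  have hQall : ∀ i, Q 0 ≤ W.map (E ^ n) ⊔ Q i := by
    intro i
    induction i with
    | zero => exact le_sup_right
    | succ i ih => exact ih.trans (sup_le le_sup_left (hQstep i))
  have hQlast : Q (m + 1) = ⊥ := by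
    rw [Submodule.eq_bot_iff]
    rintro _ ⟨_, ⟨b, rfl⟩, rfl⟩
    obtain ⟨b', hb'⟩ := hiter n 0 b
    rw [zero_add] at hb'
    rw [hb', pow_eq_zero_of_le (by omega) (delta_pow_eq_zero α D.orderOf_x), LinearMap.zero_apply]
  refine ⟨LinearMap.range (E ^ n), ?_, ?_, ?_⟩
  · rintro g _ ⟨b, rfl⟩
    exact ⟨α g b, (LinearMap.congr_fun ((show Commute (α g) E from hEcomm g).pow_right n).eq b).symm⟩
  · refine le_trans (Submodule.finrank_mono ?_) ((Submodule.finrank_map_le (E ^ n) W).trans hWdim)
    rintro _ ⟨b, rfl⟩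
    have h := hQall (m + 1)
    rw [hQlast, sup_bot_eq] at h
    exact h ⟨b, ⟨b, rfl⟩, rfl⟩
  · intro hbot
    have hmodD : ∀ j : ℕ, (E ^ j) f - f ∈ LinearMap.range δ := by
      intro j
      induction j with
      | zero => simp
      | succ j ih =>
        obtain ⟨c, hc⟩ := ih
        obtain ⟨b', hb'⟩ := hEmod f
        rw [pow_succ', Module.End.mul_apply, show E ((E ^ j) f) - f = E ((E ^ j) f - f) + (E f - f) by
          rw [map_sub]; abel, ← hc, ← Module.End.mul_apply E, hEδ.eq, Module.End.mul_apply, hb']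
        refine add_mem ⟨_, rfl⟩ ?_
        rw [add_sub_right_comm]
        exact add_mem hπf ⟨_, rfl⟩
    have h := hmodD n
    have h0 : (E ^ n) f = 0 := by
      have : (E ^ n) f ∈ LinearMap.range (E ^ n) := ⟨f, rfl⟩
      rwa [hbot, Submodule.mem_bot] at this
    rw [h0, zero_sub] at h
    exact hfD (neg_mem_iff.1 h)

end Cfsg.Agent.H42.PrimeDegree
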