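import Mathlib
import Cfsg.Agent.H42.PrimeDegree.Cayley
import Cfsg.Agent.H42.PrimeDegree.Forms
import Cfsg.Agent.H42.PrimeDegree.Transfer
import Cfsg.Agent.H42.SmallFaithful.Core

/-!
# A module of dimension `(p + 1) / 2` that is not self dual gives a tiny one
-/

set_option autoImplicit false
set_option maxHeartbeats 1000000
set_option linter.unusedSectionVars false
set_option maxSynthPendingDepth 3

namespace Cfsg.Agent.H42.PrimeDegree

open Module Cfsg.Agent.H43.D1

attribute [local instance] Fintype.ofFinite Classical.propDecidable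

variable {p : ℕ} [hp : Fact p.Prime] {G : Type*} [Group G] [Fintype G] (D : Datum p G)
  {k : Type} [Field k] [IsAlgClosed k] [CharP k p]

theorem exists_small_of_half (h3 : 3 ≤ Nat.card D.L) {V : Type} [AddCommGroup V] [Module k V]
    [FiniteDimensional k V] (τ : G →* Module.End k V) (hρ : IsIrred τ) {μ : k} {w : V} {h : ℕ}
    (hdim : finrank k V = h + 1) (hph : 2 * h + 1 = p) (hdvd : Nat.card D.L ∣ h) (hμ : μ * μ ≠ 1)
    (hμe : μ ^ Nat.card D.L = 1) (hw : τ D.a w = μ • w) (htop : (delta τ D.x ^ h) w ≠ 0) :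
    ∃ (U : Type) (_ : AddCommGroup U) (_ : Module k U) (_ : FiniteDimensional k U)
      (σ : G →* Module.End k U), IsIrred σ ∧ σ D.x ≠ 1 ∧ finrank k U ≤ 3 := by
  classical
  have hh0 : 0 < h := by have := hp.out.two_le; omega
  have hh3 : 3 ≤ h := le_trans h3 (Nat.le_of_dvd hh0 hdvd)
  have hp2 : p ≠ 2 := by omega
  have h2k : (2 : k) ≠ 0 := fun h2 => by
    have := Nat.le_of_dvd (by omega) ((CharP.cast_eq_zero_iff k p 2).1 (by exact_mod_cast h2))
    omega
  have hxp : D.x ^ p = 1 := by
    have h1 := pow_orderOf_eq_one D.x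
    rwa [D.orderOf_x] at h1
  set X := τ D.x with hX
  set S := τ D.x⁻¹ with hS
  set δV := delta τ D.x with hδV
  have hXS : X * S = 1 := by rw [hX, hS, ← map_mul, mul_inv_cancel, map_one]
  have hSX : S * X = 1 := by rw [hX, hS, ← map_mul, inv_mul_cancel, map_one]
  have hSp : S ^ p = 1 := by rw [hS, ← map_pow, inv_pow, hxp, inv_one, map_one]
  set J := halfInv p S with hJ
  have hJ1 : J * (S + 1) = 1 := halfInv_mul h2k hp2 hSp
  have hJ2 : (S + 1) * J = 1 := add_one_mul_halfInv h2k hp2 hSp
  set Z := cay p S with hZ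
  have hδS : Commute δV S :=
    ((show Commute X S from hXS.trans hSX.symm).sub_left (Commute.one_left _))
  have hδJ : Commute δV J := halfInv_commute hδS
  set C : Module.End k V := -(S * J) with hC
  have hδC : Commute δV C := (hδS.mul_right hδJ).neg_right
  have hZC : Z = δV * C := by
    rw [hC, mul_neg, ← mul_assoc, hδS.eq, hδV, delta, mul_sub, mul_one, ← hX, hSX, ← neg_mul,
      neg_sub]
    rfl
  have hC1 : -((S + 1) * X) * C = 1 := by
    rw [hC, neg_mul_neg, mul_assoc, ← mul_assoc X, hXS, one_mul, hJ2]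
  have hC2 : C * -((S + 1) * X) = 1 := mul_eq_one_comm.1 hC1
  have hZpow : ∀ i, Z ^ i = δV ^ i * C ^ i := fun i => by rw [hZC, hδC.mul_pow]
  have hZzero : ∀ i, h < i → Z ^ i = 0 := by
    intro i hi
    rw [hZpow, pow_eq_zero_of_le (show h + 1 ≤ i by omega)
      (hdim ▸ delta_pow_finrank τ D.orderOf_x), zero_mul]
  set v : ℕ → V := fun i => (Z ^ i) w with hv
  have hvtop : v h ≠ 0 := by
    intro h0
    refine htop ?_
    have h1 : (-((S + 1) * X)) ^ h * C ^ h = 1 := by
      rw [← (show Commute (-((S + 1) * X)) C from hC1.trans hC2.symm).mul_pow, hC1, one_pow]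
    have h2 := LinearMap.congr_fun h1 ((δV ^ h) w)
    rw [Module.End.mul_apply, ← Module.End.mul_apply (C ^ h), ← (hδC.pow_pow h h).eq, ← hZpow,
      Module.End.one_apply, show (Z ^ h) w = 0 from h0, map_zero] at h2
    exact h2.symm
  have hvadd : ∀ a i, (Z ^ a) (v i) = v (a + i) := fun a i => by
    simp only [hv]
    rw [pow_add, Module.End.mul_apply]
  have hvzero : ∀ a, h < a → v a = 0 := fun a ha => by
    simp only [hv]
    rw [hZzero a ha, LinearMap.zero_apply]
  have hli : LinearIndependent k (fun i : Fin (h + 1) => v i) := by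
    rw [Fintype.linearIndependent_iff]
    intro g hg i
    induction hn : (i : ℕ) using Nat.strong_induction_on generalizing i with
    | _ n ih =>
      subst hn
      have h2 : (Z ^ (h - i)) (∑ l, g l • v l) = 0 := by rw [hg, map_zero]
      rw [map_sum, Finset.sum_eq_single i ?_ (fun h => absurd (Finset.mem_univ i) h), map_smul,
        hvadd, Nat.sub_add_cancel (by omega), smul_eq_zero] at h2
      · exact h2.resolve_right hvtop
      · intro l _ hli
        rcases lt_or_gt_of_ne (Fin.val_ne_of_ne hli) with hl | hl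
        · rw [ih l hl l rfl, zero_smul, map_zero]
        · rw [map_smul, hvadd, hvzero _ (by omega), smul_zero]
  set bV := basisOfLinearIndependentOfCardEqFinrank hli (by rw [Fintype.card_fin, hdim]) with hbV
  have hbv : ∀ i, bV i = v i := fun i => by
    rw [hbV, coe_basisOfLinearIndependentOfCardEqFinrank]
  have hsplit : ∀ u : V, ∃ (c : k) (r : V), u = c • w + Z r := by
    intro u
    refine ⟨bV.repr u 0, ∑ i : Fin h, bV.repr u i.succ • v i, ?_⟩
    conv_lhs => rw [← bV.sum_repr u]
    rw [Fin.sum_univ_succ, map_sum, hbv]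
    congr 1
    refine Finset.sum_congr rfl fun i _ => ?_
    rw [map_smul, hbv]
    congr 1
    show (Z ^ ((i : ℕ) + 1)) w = Z ((Z ^ (i : ℕ)) w)
    rw [pow_succ', Module.End.mul_apply]
  -- the forms that vanish from a level on
  let Below : ℕ → Submodule k (V →ₗ[k] V →ₗ[k] k) := fun N =>
    { carrier := {β | ∀ a b : ℕ, N ≤ a + b → β (v a) (v b) = 0}
      add_mem' := fun {x y} hx hy a b hab => by
        rw [LinearMap.add_apply, LinearMap.add_apply, hx a b hab, hy a b hab, add_zero]
      zero_mem' := fun a b _ => rfl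
      smul_mem' := fun c x hx a b hab => by
        rw [LinearMap.smul_apply, LinearMap.smul_apply, hx a b hab, smul_zero] }
  have hBelowGen : ∀ N, ∀ β ∈ Below N, ∀ a b, N ≤ a + b → ∀ u y, β ((Z ^ a) u) ((Z ^ b) y) = 0 := by
    intro N β hβ a b hab u y
    have h0 : β.compl₁₂ (Z ^ a) (Z ^ b) = 0 := bV.ext fun i => bV.ext fun l => by
      show β ((Z ^ a) (bV i)) ((Z ^ b) (bV l)) = 0
      rw [hbv, hbv, hvadd, hvadd]
      exact hβ _ _ (by omega)
    exact LinearMap.congr_fun₂ h0 u y
  -- the action of `a`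
  set b₀ : D.L := ⟨D.a, D.a_gen ▸ Subgroup.mem_zpowers D.a⟩⁻¹ with hb₀
  set B := τ D.a⁻¹ with hB
  set m := ((D.act b₀ : (ZMod p)ˣ) : ZMod p).val with hm
  have hspec : D.a⁻¹ * D.x * D.a = D.x ^ m := by
    have h1 := D.act_spec b₀
    have h2 : ((b₀ : D.L) : G) = D.a⁻¹ := by rw [hb₀]; rfl
    rw [h2, inv_inv] at h1
    exact h1
  have hBS : SemiconjBy B S (S ^ m) := by
    show B * S = S ^ m * B
    rw [hB, hS, ← map_mul, ← map_pow, ← map_mul, inv_pow, ← hspec]
    congr 1
    group
  have hBJ : SemiconjBy B J (halfInv p (S ^ m)) := by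
    show B * halfInv p S = halfInv p (S ^ m) * B
    rw [halfInv, halfInv, mul_smul_comm, smul_mul_assoc, Finset.mul_sum, Finset.sum_mul]
    congr 1
    exact Finset.sum_congr rfl fun i _ => ((hBS.neg_right).pow_right i).eq
  set H : Module.End k V := (S + 1) * ((∑ l ∈ Finset.range m, S ^ l) * halfInv p (S ^ m)) with hH
  have hBZ : B * Z = Z * H * B := by
    have h1 : Z * H = (S ^ m - 1) * halfInv p (S ^ m) := by
      rw [hZ, cay, hH, mul_assoc, ← mul_assoc (halfInv p S), ← hJ, hJ1, one_mul, ← mul_assoc,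
        mul_geom_sum]
    rw [h1, hZ, cay, ← mul_assoc, mul_sub, mul_one, hBS.eq, mul_assoc ((S ^ m - 1)), ← hBJ.eq,
      ← mul_assoc, ← hJ]
    noncomm_ring
  have hHS : Commute H S :=
    ((Commute.refl S).add_left (Commute.one_left S)).mul_left
      ((Commute.sum_left _ _ _ fun l _ => (Commute.refl S).pow_left l).mul_left
        (halfInv_commute ((Commute.refl S).pow_right m)).symm)
  have hHZ : Commute H Z := cay_commute hHS
  have hBZpow : ∀ i, B * Z ^ i = Z ^ i * H ^ i * B := by
    intro i
    induction i with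
    | zero => simp
    | succ i ih =>
      calc B * Z ^ (i + 1) = (B * Z ^ i) * Z := by rw [pow_succ, mul_assoc]
        _ = Z ^ i * H ^ i * (B * Z) := by rw [ih, mul_assoc]
        _ = Z ^ i * (H ^ i * Z) * H * B := by rw [hBZ]; simp only [mul_assoc]
        _ = Z ^ i * (Z * H ^ i) * H * B := by rw [(hHZ.pow_left i).eq]
        _ = Z ^ (i + 1) * H ^ (i + 1) * B := by rw [pow_succ, pow_succ]; simp only [mul_assoc]
  have hμ0 : μ ≠ 0 := fun h => by
    rw [h, zero_pow (Nat.card_pos (α := D.L)).ne'] at hμe; exact zero_ne_one hμe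
  have hBw : B w = μ⁻¹ • w := by
    have h1 := congrArg B hw
    rw [hB, ← Module.End.mul_apply, ← map_mul, inv_mul_cancel, map_one, Module.End.one_apply,
      map_smul] at h1
    conv_rhs => rw [h1, smul_smul, inv_mul_cancel₀ hμ0, one_smul]
  obtain ⟨c₀, r₀, hHw⟩ := hsplit (H w)
  have hHpow : ∀ i, ∃ r, (H ^ i) w = c₀ ^ i • w + Z r := by
    intro i
    induction i with
    | zero => exact ⟨0, by simp⟩
    | succ i ih =>
      obtain ⟨r, hr⟩ := ih
      refine ⟨c₀ ^ i • r₀ + H r, ?_⟩
      have hc : H (Z r) = Z (H r) := LinearMap.congr_fun hHZ.eq r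
      rw [pow_succ', Module.End.mul_apply, hr, map_add, map_smul, hHw, hc, map_add, map_smul,
        smul_add, smul_smul, ← pow_succ, add_assoc]
  have hval : ∀ (β : V →ₗ[k] V →ₗ[k] k) (a b : ℕ), formRep τ D.a β (v a) (v b) =
      μ⁻¹ * μ⁻¹ * β ((Z ^ a) ((H ^ a) w)) ((Z ^ b) ((H ^ b) w)) := by
    intro β a b
    rw [formRep_apply, ← hB]
    simp only [hv, ← Module.End.mul_apply, hBZpow]
    simp only [Module.End.mul_apply, hBw, map_smul, LinearMap.smul_apply, smul_eq_mul]
    ring
  have hBelowInv : ∀ N, ∀ β ∈ Below N, formRep τ D.a β ∈ Below N := fun N β hβ a b hab => by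
    rw [hval, hBelowGen N β hβ a b hab, mul_zero]
  have hκ : ∀ N, ∀ β ∈ Below (N + 1),
      formRep τ D.a β - (μ⁻¹ * μ⁻¹ * c₀ ^ N) • β ∈ Below N := by
    intro N β hβ a b hab
    rw [LinearMap.sub_apply, LinearMap.sub_apply, LinearMap.smul_apply, LinearMap.smul_apply, hval,
      smul_eq_mul]
    rcases Nat.lt_or_ge N (a + b) with hlt | hge
    · rw [hBelowGen _ β hβ a b hlt, hβ a b hlt, mul_zero, mul_zero, sub_zero]
    obtain ⟨r, hr⟩ := hHpow a
    obtain ⟨r', hr'⟩ := hHpow b
    have e1 : (Z ^ a) (Z r) = (Z ^ (a + 1)) r := by rw [pow_succ, Module.End.mul_apply]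
    have e2 : (Z ^ b) (Z r') = (Z ^ (b + 1)) r' := by rw [pow_succ, Module.End.mul_apply]
    simp only [hr, hr', e1, e2, map_add, map_smul, LinearMap.add_apply, LinearMap.smul_apply, smul_eq_mul,
      hBelowGen _ β hβ (a + 1) b (by omega), hBelowGen _ β hβ (a + 1) (b + 1) (by omega),
      hBelowGen _ β hβ a (b + 1) (by omega), mul_zero, add_zero]
    rw [show N = a + b by omega, pow_add]
    show μ⁻¹ * μ⁻¹ * (c₀ ^ b * (c₀ ^ a * β (v a) (v b))) - μ⁻¹ * μ⁻¹ * (c₀ ^ a * c₀ ^ b) * β (v a) (v b) = 0
    ring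
  -- forms
  set Dm := derMap Z with hDm
  set K := bothMap J with hK
  set Ki := bothMap (S + 1) with hKi
  have hKK : ∀ β, Ki (K β) = β := fun β => LinearMap.ext₂ fun u y => by
    rw [hKi, hK, bothMap_apply, bothMap_apply, ← Module.End.mul_apply J, ← Module.End.mul_apply J,
      hJ1, Module.End.one_apply, Module.End.one_apply]
  have hKKi : ∀ β, K (Ki β) = β := fun β => LinearMap.ext₂ fun u y => by
    rw [hKi, hK, bothMap_apply, bothMap_apply, ← Module.End.mul_apply (S + 1),
      ← Module.End.mul_apply (S + 1), hJ2, Module.End.one_apply, Module.End.one_apply]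
  have hDpow : ∀ (i : ℕ) (β : V →ₗ[k] V →ₗ[k] k),
      (Dm ^ i) β = (2 : k) ^ i • (K ^ i) ((formDelta τ D.x ^ i) β) := fun i β => by
    rw [hDm, hZ, hS, derMap_cay_pow τ D.x h2k hp2 hxp i]
    rfl
  have hKpow0 : ∀ (i : ℕ) (β : V →ₗ[k] V →ₗ[k] k), (K ^ i) β = 0 → β = 0 := by
    intro i
    induction i with
    | zero => intro β hβ; simpa using hβ
    | succ i ih =>
      intro β hβ
      rw [pow_succ', Module.End.mul_apply] at hβ
      refine ih β ?_
      rw [← hKK ((K ^ i) β), hβ, map_zero]
  have hKiD : ∀ (i : ℕ) β, Ki ((Dm ^ i) β) = (Dm ^ i) (Ki β) := by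
    intro i β
    have hc : ∀ u, (S + 1) (Z u) = Z ((S + 1) u) := fun u => LinearMap.congr_fun
      (show Commute (S + 1) Z from cay_commute ((Commute.refl S).add_left (Commute.one_left S))).eq u
    have h1 : Commute Ki Dm := by
      refine LinearMap.ext fun γ => LinearMap.ext₂ fun u y => ?_
      show γ (Z ((S + 1) u)) ((S + 1) y) + γ ((S + 1) u) (Z ((S + 1) y)) =
        γ ((S + 1) (Z u)) ((S + 1) y) + γ ((S + 1) u) ((S + 1) (Z y))
      rw [hc, hc]
    exact LinearMap.congr_fun (h1.pow_right i).eq β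
  have hAinv : ∀ g, ∀ β ∈ altSub k V, formRep τ g β ∈ altSub k V := fun g β hβ u => hβ _
  set α := restrictRep (V := V →ₗ[k] V →ₗ[k] k) (formRep τ) (altSub k V) hAinv with hα
  have hαpow : ∀ (i : ℕ) (β : altSub k V),
      (((delta α D.x ^ i) β : altSub k V) : V →ₗ[k] V →ₗ[k] k) = (formDelta τ D.x ^ i) β := by
    intro i
    induction i with
    | zero => intro β; rfl
    | succ i ih =>
      intro β
      rw [pow_succ', pow_succ', Module.End.mul_apply, Module.End.mul_apply, ← ih]
      rfl
  have hNzero : delta α D.x ^ (p - 1) = 0 := by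
    refine LinearMap.ext fun β => Subtype.ext ?_
    rw [hαpow, LinearMap.zero_apply, Submodule.coe_zero]
    refine hKpow0 (p - 1) _ ((smul_eq_zero.1 ?_).resolve_left (pow_ne_zero (p - 1) h2k))
    rw [← hDpow]
    refine LinearMap.ext₂ fun u y => ?_
    rw [hDm, derMap_pow, LinearMap.zero_apply, LinearMap.zero_apply]
    refine Finset.sum_eq_zero fun l hl => ?_
    rcases lt_trichotomy l h with hlt | heq | hgt
    · rw [hZzero (p - 1 - l) (by omega), LinearMap.zero_apply, map_zero, mul_zero]
    · subst heq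
      obtain ⟨cu, ru, rfl⟩ := hsplit u
      obtain ⟨cy, ry, rfl⟩ := hsplit y
      have e : ∀ r, (Z ^ l) (Z r) = 0 := fun r => by
        rw [← Module.End.mul_apply, ← pow_succ, hZzero (l + 1) (by omega), LinearMap.zero_apply]
      rw [show p - 1 - l = l by omega]
      simp only [map_add, map_smul, e, add_zero, LinearMap.smul_apply, β.2 _, smul_zero, mul_zero]
    · rw [hZzero l hgt, LinearMap.zero_apply, map_zero, LinearMap.zero_apply, mul_zero]
  -- the general argument
  have key : ∀ (N j : ℕ) (c : ℕ → k) (φ : (V →ₗ[k] V →ₗ[k] k) →ₗ[k] k), j ≤ 2 →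
      (∀ a b, a + b = N → c b = -c a) → (∀ a b, a + b = N → h < a ∨ h < b → c a = 0) →
      (∀ f : V →ₗ[k] V →ₗ[k] k, (∀ a b, f (v a) (v b) = if a + b = N then c a else 0) →
        (∀ a b, ((Dm ^ (j + 1)) f) (v a) (v b) = 0) ∧ φ ((Dm ^ j) f) ≠ 0) →
      (∀ β ∈ Below N, φ ((Dm ^ j) β) = 0) →
      (∀ β, φ ((Dm ^ (j + 1)) β) = 0) →
      ∃ (U : Type) (_ : AddCommGroup U) (_ : Module k U) (_ : FiniteDimensional k U)
        (σ : G →* Module.End k U), IsIrred σ ∧ σ D.x ≠ 1 ∧ finrank k U ≤ 3 := by
    intro N j c φ hj hskew hzero hf hlow hrange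
    set f : V →ₗ[k] V →ₗ[k] k := bV.constr k fun i => bV.constr k fun l =>
      if (i : ℕ) + (l : ℕ) = N then c i else 0 with hfdef
    have hfb : ∀ i l : Fin (h + 1), f (bV i) (bV l) = if (i : ℕ) + (l : ℕ) = N then c i else 0 :=
      fun i l => by rw [hfdef, Basis.constr_basis, Basis.constr_basis]
    have hfv : ∀ a b, f (v a) (v b) = if a + b = N then c a else 0 := by
      intro a b
      by_cases ha : h < a
      · rw [hvzero a ha, map_zero, LinearMap.zero_apply]
        split_ifs with h1
        · exact (hzero a b h1 (Or.inl ha)).symm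
        · rfl
      by_cases hb : h < b
      · rw [hvzero b hb, map_zero]
        split_ifs with h1
        · exact (hzero a b h1 (Or.inr hb)).symm
        · rfl
      have h1 := hfb ⟨a, by omega⟩ ⟨b, by omega⟩
      rwa [hbv, hbv] at h1
    have hfA : f ∈ altSub k V := by
      have hflip : f.flip = -f := bV.ext fun i => bV.ext fun l => by
        rw [LinearMap.flip_apply, LinearMap.neg_apply, LinearMap.neg_apply, hfb, hfb,
          Nat.add_comm (l : ℕ)]
        split_ifs with h1
        · exact hskew _ _ h1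
        · rw [neg_zero]
      intro u
      have h1 := LinearMap.congr_fun₂ hflip u u
      rw [LinearMap.flip_apply, LinearMap.neg_apply, LinearMap.neg_apply] at h1
      exact (mul_eq_zero.1 (show (2 : k) * f u u = 0 by linear_combination h1)).resolve_left h2k
    obtain ⟨hf1, hf2⟩ := hf f hfv
    have hfN : f ∈ Below (N + 1) := fun a b hab => by rw [hfv, if_neg (by omega)]
    have hfnot : f ∉ Below N := fun h1 => hf2 (hlow f h1)
    set κ := μ⁻¹ * μ⁻¹ * c₀ ^ N with hκdef
    set e := Nat.card D.L with he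
    have hiter : ∀ i : ℕ, formRep τ (D.a ^ i) f - κ ^ i • f ∈ Below N := by
      intro i
      induction i with
      | zero => rw [pow_zero, map_one, pow_zero, one_smul, Module.End.one_apply, sub_self]; exact Submodule.zero_mem _
      | succ i ih =>
        rw [pow_succ', map_mul, Module.End.mul_apply, show formRep τ D.a (formRep τ (D.a ^ i) f) -
            κ ^ (i + 1) • f = formRep τ D.a (formRep τ (D.a ^ i) f - κ ^ i • f) +
              κ ^ i • (formRep τ D.a f - κ • f) by
          rw [map_sub, map_smul, smul_sub, smul_smul, ← pow_succ, sub_add_sub_cancel]]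
        exact add_mem (hBelowInv _ _ ih) (Submodule.smul_mem _ _ (hκ N f hfN))
    have hκe : κ ^ e = 1 := by
      by_contra hne
      have h1 := hiter e
      rw [he, a_pow_card D, map_one, Module.End.one_apply,
        show f - κ ^ e • f = (1 - κ ^ e) • f by rw [sub_smul, one_smul]] at h1
      exact hfnot ((Submodule.smul_mem_iff _ (sub_ne_zero.2 (Ne.symm hne))).1 h1)
    set fA : altSub k V := ⟨f, hfA⟩
    have hfU : fA ∈ LinearMap.ker (delta α D.x ^ (j + 1)) := by
      refine LinearMap.mem_ker.2 (Subtype.ext ?_)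
      rw [hαpow, Submodule.coe_zero]
      refine hKpow0 (j + 1) _ ((smul_eq_zero.1 ?_).resolve_left (pow_ne_zero (j + 1) h2k))
      rw [← hDpow]
      refine bV.ext fun i => bV.ext fun l => ?_
      rw [hbv, hbv, hf1]
      rfl
    obtain ⟨f', hf'U, hf'a, hf'S⟩ := exists_eigen_congr (α D.a) (card_cast_ne_zero D)
      (sigma_pow_card D α) hκe (LinearMap.ker (delta α D.x ^ (j + 1)))
      ((Below N).comap (altSub k V).subtype) (ker_pow_invariant D α _)
      (fun z hz => hBelowInv N _ hz) hfU (hκ N f hfN)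
    have hφf' : φ ((Dm ^ j) (f' : V →ₗ[k] V →ₗ[k] k)) ≠ 0 := by
      have h1 := hlow _ hf'S
      rw [Submodule.subtype_apply, Submodule.coe_sub, map_sub, map_sub, sub_eq_zero] at h1
      rw [h1]
      exact hf2
    have hnot : (delta α D.x ^ j) f' ∉ LinearMap.range (delta α D.x ^ (j + 1)) := by
      rintro ⟨β, hβ⟩
      refine hφf' ?_
      have h1 := congrArg (fun z : altSub k V => (z : V →ₗ[k] V →ₗ[k] k)) hβ
      simp only [hαpow] at h1
      have h2 : (Dm ^ j) (f' : V →ₗ[k] V →ₗ[k] k) = (2 : k)⁻¹ • (Dm ^ (j + 1)) (Ki β) := by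
        rw [hDpow, ← h1, ← hKiD, hDpow (j + 1), map_smul, pow_succ' K, Module.End.mul_apply, hKK,
          smul_smul]
        congr 1
        rw [pow_succ (2 : k)]
        field_simp
      rw [h2, map_smul, hrange, smul_zero]
    obtain ⟨Y, hYinv, hYdim, hYne⟩ := exists_small_invariant D α hNzero hf'a
      (LinearMap.mem_ker.1 hf'U) hnot
    set τY := restrictRep α Y hYinv with hτY
    by_cases hx : τY D.x = 1
    · exfalso
      refine hYne ((Submodule.eq_bot_iff Y).2 fun y hy => Subtype.ext ?_)
      have hfix : ∀ g, τY g = 1 := fun g => by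
        have h : τY.ker = ⊤ := (D.simple τY.ker inferInstance).resolve_left fun h => D.x_ne_one (by
          have : D.x ∈ τY.ker := hx
          rwa [h, Subgroup.mem_bot] at this)
        exact MonoidHom.mem_ker.1 (h ▸ Subgroup.mem_top g)
      refine form_eq_zero_of_block D τ _ (fun g u u' => ?_) hρ hdim hμ hμe hw hdvd htop
      have h1 : α g⁻¹ y = y := congrArg Subtype.val (LinearMap.congr_fun (hfix g⁻¹) ⟨y, hy⟩)
      have h2 := LinearMap.congr_fun₂ (congrArg Subtype.val h1) u u'
      change formRep τ g⁻¹ (y : V →ₗ[k] V →ₗ[k] k) u u' = _ at h2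
      rwa [formRep_apply, inv_inv] at h2
    · obtain ⟨U, i1, i2, i3, σ, h1, h2, h3⟩ := SmallFaithful.exists_irred D.toSetup
        (fun H hH hxH => (D.simple H hH).resolve_left fun h => D.x_ne_one (by
          rwa [h, Subgroup.mem_bot] at hxH)) D.perfect _ Y τY rfl hx
      exact ⟨U, i1, i2, i3, σ, h1, h3, le_trans h2 (hYdim.trans (by omega))⟩
  -- evaluation maps
  let ev : ℕ → ℕ → ((V →ₗ[k] V →ₗ[k] k) →ₗ[k] k) := fun a b =>
    { toFun := fun β => β (v a) (v b)
      map_add' := fun _ _ => rfl
      map_smul' := fun _ _ => rfl }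
  have hev : ∀ a b (β : V →ₗ[k] V →ₗ[k] k), ev a b β = β (v a) (v b) := fun a b β => rfl
  have hDv : ∀ (i : ℕ) (β : V →ₗ[k] V →ₗ[k] k) (a b : ℕ), (Dm ^ i) β (v a) (v b) =
      ∑ l ∈ Finset.range (i + 1), (i.choose l : k) * β (v (l + a)) (v (i - l + b)) := by
    intro i β a b
    rw [hDm, derMap_pow]
    simp only [hvadd]
  rcases Nat.even_or_odd h with heven | hodd
  swap
  · -- one fixed form
    refine key h 0 (fun a => (-1) ^ a) (∑ a ∈ Finset.range (h + 1), ((-1 : k) ^ a) • ev a (h - a))
      (by omega) (fun a b hab => ?_) (fun a b hab hlt => by omega) (fun f hfv => ⟨fun a b => ?_, ?_⟩)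
      (fun β hβ => ?_) (fun β => ?_)
    · have h1 : Odd (a + b) := hab ▸ hodd
      show (-1 : k) ^ b = -((-1) ^ a)
      rcases Nat.even_or_odd a with ha | ha
      · have hb : Odd b := (Nat.odd_add'.1 h1).2 ha
        rw [ha.neg_one_pow, hb.neg_one_pow]
      · have hb : Even b := (Nat.odd_add.1 h1).1 ha
        rw [ha.neg_one_pow, hb.neg_one_pow, neg_neg]
    · rw [hDv, Finset.sum_range_succ, Finset.sum_range_one]
      simp only [Nat.choose_zero_right, Nat.choose_self, Nat.cast_one, one_mul, Nat.zero_add,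
        Nat.sub_self, Nat.sub_zero, hfv]
      by_cases h1 : a + b + 1 = h
      · rw [if_pos (by omega), if_pos (by omega), show 1 + a = a + 1 by omega, pow_succ]; ring
      · rw [if_neg (by omega), if_neg (by omega), add_zero]
    · simp only [pow_zero, Module.End.one_apply, LinearMap.sum_apply, LinearMap.smul_apply, hev,
        smul_eq_mul]
      rw [Finset.sum_congr rfl fun a ha => show (-1 : k) ^ a * f (v a) (v (h - a)) = 1 by
        have := Finset.mem_range.1 ha
        rw [hfv, if_pos (by omega), ← pow_add, ← two_mul, pow_mul, neg_one_sq, one_pow],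
        Finset.sum_const, Finset.card_range, nsmul_one, ne_eq, CharP.cast_eq_zero_iff k p]
      exact fun h1 => by have := Nat.le_of_dvd (by omega) h1; omega
    · simp only [pow_zero, Module.End.one_apply, LinearMap.sum_apply, LinearMap.smul_apply, hev,
        smul_eq_mul]
      refine Finset.sum_eq_zero fun a ha => ?_
      have := Finset.mem_range.1 ha
      rw [hβ a (h - a) (by omega), mul_zero]
    · simp only [LinearMap.sum_apply, LinearMap.smul_apply, hev, smul_eq_mul, hDv]
      set F : ℕ → k := fun a => (-1 : k) ^ a * β (v a) (v (h + 1 - a)) with hF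
      refine (Finset.sum_congr rfl fun a ha => ?_).trans ((Finset.sum_range_sub' F (h + 1)).trans ?_)
      · have := Finset.mem_range.1 ha
        rw [Finset.sum_range_succ, Finset.sum_range_one]
        simp only [hF, Nat.choose_zero_right, Nat.choose_self, Nat.cast_one, one_mul, Nat.zero_add,
          Nat.sub_self, Nat.sub_zero]
        rw [show 1 + (h - a) = h + 1 - a by omega, show h + 1 - (a + 1) = h - a by omega,
          show 1 + a = a + 1 by omega, pow_succ]
        ring
      simp only [hF]
      rw [Nat.sub_zero, hvzero (h + 1) (by omega)]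
      simp
  -- a three dimensional block
  set cf : ℕ → k := fun a => (-1) ^ a * ((a : k) * ((h : k) + 1 - a)) with hcf
  refine key (h + 1) 2 cf (∑ a ∈ Finset.range h, cf (a + 1) • ev a (h - 1 - a))
    (le_refl 2) (fun a b hab => ?_) (fun a b hab hlt => ?_) (fun f hfv => ⟨fun a b => ?_, ?_⟩)
    (fun β hβ => ?_) (fun β => ?_)
  · have hab' : (a : k) + b = h + 1 := by exact_mod_cast congrArg (Nat.cast (R := k)) hab
    have hsgn : (-1 : k) ^ b = -((-1) ^ a) := by
      have h1 : Odd (a + b) := hab ▸ heven.add_one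
      rcases Nat.even_or_odd a with ha | ha
      · have hb : Odd b := (Nat.odd_add'.1 h1).2 ha
        rw [ha.neg_one_pow, hb.neg_one_pow]
      · have hb : Even b := (Nat.odd_add.1 h1).1 ha
        rw [ha.neg_one_pow, hb.neg_one_pow, neg_neg]
    simp only [hcf]
    rw [hsgn, show (b : k) = h + 1 - a by linear_combination hab']
    ring
  · simp only [hcf]
    rcases hlt with hlt | hlt
    · rw [show a = h + 1 by omega]
      push_cast
      ring
    · rw [show a = 0 by omega, Nat.cast_zero, zero_mul, mul_zero]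
  · rw [hDv]
    simp only [Finset.sum_range_succ, Finset.sum_range_zero, zero_add, hfv]
    by_cases h1 : a + b + 3 = h + 1
    · rw [if_pos (by omega), if_pos (by omega), if_pos (by omega), if_pos (by omega)]
      simp only [hcf, show Nat.choose 3 0 = 1 from rfl, show Nat.choose 3 1 = 3 from rfl,
        show Nat.choose 3 2 = 3 from rfl, show Nat.choose 3 3 = 1 from rfl]
      push_cast
      ring
    · rw [if_neg (by omega), if_neg (by omega), if_neg (by omega), if_neg (by omega)]
      ring
  · simp only [LinearMap.sum_apply, LinearMap.smul_apply, hev, smul_eq_mul, hDv,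
      Finset.sum_range_succ _ 2, Finset.sum_range_succ _ 1, Finset.sum_range_one, hfv]
    intro h0
    have h1' : ∑ a ∈ Finset.range h, 2 * (((a : k) + 1) * ((h : k) - a)) = 0 := by
      refine (Finset.sum_congr rfl fun a ha => ?_).trans h0
      symm
      have := Finset.mem_range.1 ha
      rw [if_pos (by omega), if_pos (by omega), if_pos (by omega)]
      simp only [hcf, show Nat.choose 2 0 = 1 from rfl, show Nat.choose 2 1 = 2 from rfl,
        show Nat.choose 2 2 = 1 from rfl]
      have hsq : ((-1 : k) ^ a) * ((-1) ^ a) = 1 := by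
        rw [← pow_add, ← two_mul, pow_mul, neg_one_sq, one_pow]
      push_cast
      rw [show (-1 : k) ^ (0 + a) = (-1) ^ a by rw [Nat.zero_add],
        show (-1 : k) ^ (1 + a) = -((-1) ^ a) by rw [Nat.add_comm, pow_succ]; ring,
        show (-1 : k) ^ (2 + a) = (-1) ^ a by rw [pow_add, neg_one_sq, one_mul],
        show (-1 : k) ^ (a + 1) = -((-1) ^ a) by rw [pow_succ]; ring]
      linear_combination (2 * (((a : k) + 1) * ((h : k) - a))) * hsq
    rw [← Finset.mul_sum, mul_eq_zero] at h1'
    have h1 := h1'.resolve_left h2k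
    have hsum : ∀ n : ℕ, 6 * ∑ a ∈ Finset.range n, ((a : k) + 1) * ((h : k) - a) =
        (n : k) * (n + 1) * (3 * h - 2 * n + 2) := by
      intro n
      induction n with
      | zero => simp
      | succ n ih => rw [Finset.sum_range_succ, mul_add, ih]; push_cast; ring
    have h6 := hsum h
    rw [h1, mul_zero, show (h : k) * (h + 1) * (3 * h - 2 * h + 2) = ((h * (h + 1) * (h + 2) : ℕ) : k)
      by push_cast; ring, eq_comm, CharP.cast_eq_zero_iff k p] at h6
    rcases hp.out.dvd_mul.1 h6 with h7 | h7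
    · rcases hp.out.dvd_mul.1 h7 with h8 | h8 <;> (have := Nat.le_of_dvd (by omega) h8; omega)
    · have := Nat.le_of_dvd (by omega) h7
      omega
  · simp only [LinearMap.sum_apply, LinearMap.smul_apply, hev, smul_eq_mul, hDv]
    refine Finset.sum_eq_zero fun a ha => ?_
    have := Finset.mem_range.1 ha
    rw [Finset.sum_eq_zero fun l hl => by
      have := Finset.mem_range.1 hl
      rw [hβ (l + a) (2 - l + (h - 1 - a)) (by omega), mul_zero], mul_zero]
  · simp only [LinearMap.sum_apply, LinearMap.smul_apply, hev, smul_eq_mul, hDv, Finset.mul_sum]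
    set g : ℕ → k := fun i => β (v i) (v (h + 2 - i)) with hg
    have hg0 : ∀ i, i ≤ 1 → g i = 0 := fun i hi => by
      simp only [hg]; rw [hvzero (h + 2 - i) (by omega), map_zero]
    have hg1 : ∀ i, h < i → g i = 0 := fun i hi => by
      simp only [hg]; rw [hvzero i hi, map_zero, LinearMap.zero_apply]
    let term : ℕ → ℕ → k := fun l i =>
      (-1) ^ (i + 1 + l) * (((i : k) + 1 - l) * ((h : k) - i + l)) * g i
    have hterm : ∀ l ≤ 3, ∑ a ∈ Finset.range h, cf (a + 1) * g (l + a) =
        ∑ i ∈ Finset.range (h + 3), term l i := by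
      intro l hl
      rw [show h + 3 = l + (h + (3 - l)) by omega, Finset.sum_range_add,
        Finset.sum_eq_zero (s := Finset.range l) (fun i hi => ?_), zero_add, Finset.sum_range_add,
        Finset.sum_eq_zero (s := Finset.range (3 - l)) (fun a _ => ?_), add_zero]
      · refine Finset.sum_congr rfl fun a _ => ?_
        simp only [term, hcf]
        rw [show l + a + 1 + l = a + 1 + 2 * l by omega, pow_add _ (a + 1), pow_mul, neg_one_sq,
          one_pow, mul_one]
        push_cast
        ring
      · rcases Nat.eq_zero_or_pos a with rfl | ha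
        · simp only [term]
          push_cast
          ring
        · simp only [term]
          rw [hg1 _ (by omega), mul_zero]
      · have := Finset.mem_range.1 hi
        rcases Nat.lt_or_ge i 2 with hi2 | hi2
        · simp only [term]
          rw [hg0 i (by omega), mul_zero]
        · simp only [term]
          rw [show i = 2 by omega, show l = 3 by omega]
          push_cast
          ring
    rw [Finset.sum_comm, Finset.sum_congr rfl fun l hl => show
        ∑ a ∈ Finset.range h, cf (a + 1) * ((Nat.choose 3 l : k) *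
          β (v (l + a)) (v (3 - l + (h - 1 - a)))) =
        (Nat.choose 3 l : k) * ∑ i ∈ Finset.range (h + 3), term l i by
      have hl3 := Nat.lt_succ_iff.1 (Finset.mem_range.1 hl)
      rw [← hterm l hl3, Finset.mul_sum]
      refine Finset.sum_congr rfl fun a ha => ?_
      have := Finset.mem_range.1 ha
      simp only [hg]
      rw [show h + 2 - (l + a) = 3 - l + (h - 1 - a) by omega]
      ring]
    simp only [Finset.mul_sum]
    rw [Finset.sum_comm]
    refine Finset.sum_eq_zero fun i _ => ?_
    simp only [term, Finset.sum_range_succ, Finset.sum_range_zero, pow_add,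
      show Nat.choose 3 0 = 1 from rfl, show Nat.choose 3 1 = 3 from rfl,
      show Nat.choose 3 2 = 3 from rfl, show Nat.choose 3 3 = 1 from rfl]
    push_cast
    ring

end Cfsg.Agent.H42.PrimeDegree
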