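import Mathlib

/-!
# The automorphism of a cyclic TI subgroup in a perfect group

If `E` is cyclic, a TI subgroup of index two in its normalizer and the group is perfect, an element
of the normalizer outside `E` centralizes only involutions of `E`.
-/

set_option autoImplicit false
set_option maxHeartbeats 1000000
set_option linter.unusedSectionVars false

namespace Cfsg.Agent.H42.PrimeDegree

attribute [local instance] Fintype.ofFinite

variable {G : Type*} [Group G] [Finite G]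

/-- In a cyclic subgroup the order determines the generated subgroup. -/
theorem mem_zpowers_of_orderOf_dvd {E : Subgroup G} [IsCyclic E] {u v : G} (hu : u ∈ E)
    (hv : v ∈ E) (h : orderOf u ∣ orderOf v) : u ∈ Subgroup.zpowers v := by
  classical
  set n := orderOf v
  set s : Finset E := Finset.univ.filter fun x => x ^ n = 1
  have hn : 0 < n := orderOf_pos v
  have hs : s.card ≤ n := IsCyclic.card_pow_eq_one_le hn
  have himg : (Finset.range n).image (fun i => (⟨v, hv⟩ : E) ^ i) ⊆ s := by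
    intro x hx
    obtain ⟨i, -, rfl⟩ := Finset.mem_image.1 hx
    refine Finset.mem_filter.2 ⟨Finset.mem_univ _, Subtype.ext ?_⟩
    show (v ^ i) ^ n = 1
    rw [← pow_mul, mul_comm, pow_mul, pow_orderOf_eq_one, one_pow]
  have hcard : ((Finset.range n).image (fun i => (⟨v, hv⟩ : E) ^ i)).card = n := by
    rw [Finset.card_image_of_injOn, Finset.card_range]
    intro i hi j hj hij
    exact pow_injOn_Iio_orderOf (Set.mem_Iio.2 (Finset.mem_range.1 hi))
      (Set.mem_Iio.2 (Finset.mem_range.1 hj)) (congrArg Subtype.val hij)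
  have heq := Finset.eq_of_subset_of_card_le himg (by rw [hcard]; exact hs)
  have humem : (⟨u, hu⟩ : E) ∈ s := Finset.mem_filter.2 ⟨Finset.mem_univ _,
    Subtype.ext (orderOf_dvd_iff_pow_eq_one.1 h)⟩
  rw [← heq] at humem
  obtain ⟨i, -, hi⟩ := Finset.mem_image.1 humem
  exact ⟨i, by simpa using congrArg Subtype.val hi⟩

variable (hperf : commutator G = ⊤)
include hperf

/-- A homomorphism to a commutative group is trivial. -/
theorem hom_eq_one {A : Type*} [CommGroup A] (φ : G →* A) (g : G) : φ g = 1 := by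
  have hle : commutator G ≤ φ.ker := by
    rw [commutator_def, Subgroup.commutator_le]
    intro u _ v _
    rw [MonoidHom.mem_ker, map_commutatorElement, commutatorElement_eq_one_iff_mul_comm, mul_comm]
  exact MonoidHom.mem_ker.1 (hle (hperf ▸ Subgroup.mem_top g))

variable (E : Subgroup G) [IsCyclic E]

/-- The twist: an element of the normalizer outside `E` and its action. -/
theorem exists_twist (a : G) (ha : Subgroup.zpowers a = E)
    (hNE : Nat.card (Subgroup.normalizer (E : Set G)) = 2 * Nat.card E)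
    (hTI : ∀ g : G, g ∉ Subgroup.normalizer (E : Set G) →
      E ⊓ E.map (MulAut.conj g).toMonoidHom = ⊥) :
    ∃ (t : G) (c : ℕ), t ∈ Subgroup.normalizer (E : Set G) ∧ t ∉ E ∧
      (∀ g ∈ Subgroup.normalizer (E : Set G), g ∈ E ∨ t⁻¹ * g ∈ E) ∧
      t * a * t⁻¹ = a ^ c ∧ c * c ≡ 1 [MOD Nat.card E] ∧
      ∀ b ∈ E, t * b * t⁻¹ = b → b * b = 1 := by
  classical
  set N := Subgroup.normalizer (E : Set G) with hN
  have hEN : E ≤ N := Subgroup.le_normalizer
  have hidx : (E.subgroupOf N).index = 2 := by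
    have h := (E.subgroupOf N).card_mul_index
    rw [Nat.card_congr (Subgroup.subgroupOfEquivOfLe hEN).toEquiv, hNE, mul_comm 2] at h
    exact Nat.eq_of_mul_eq_mul_left Nat.card_pos h
  have hsq : ∀ g ∈ N, g * g ∈ E := fun g hg =>
    Subgroup.mul_self_mem_of_index_two hidx (⟨g, hg⟩ : N)
  have hcommE : ∀ u ∈ E, ∀ v ∈ E, u * v = v * u := fun u hu v hv =>
    congrArg Subtype.val ((IsCyclic.isMulCommutative (α := E)).is_comm.comm ⟨u, hu⟩ ⟨v, hv⟩)
  have hmap : ∀ g ∈ N, ∀ u ∈ E, g * u * g⁻¹ ∈ E := fun g hg u hu =>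
    (Subgroup.mem_normalizer_iff.1 hg u).1 hu
  have hC : ∀ b ∈ E, b ≠ 1 → ∀ g : G, g * b * g⁻¹ ∈ E → g ∈ N := by
    intro b hb hb1 g hg
    by_contra hgN
    have h : g * b * g⁻¹ ∈ E ⊓ E.map (MulAut.conj g).toMonoidHom := ⟨hg, b, hb, rfl⟩
    rw [hTI g hgN, Subgroup.mem_bot, conj_eq_one_iff] at h
    exact hb1 h
  obtain ⟨t, htN, htE⟩ : ∃ t, t ∈ N ∧ t ∉ E := by
    by_contra hcon
    push Not at hcon
    have hle : N ≤ E := hcon
    have := Subgroup.card_le_of_le hle
    have := Nat.card_pos (α := E)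
    omega
  have hcoset : ∀ g ∈ N, g ∈ E ∨ t⁻¹ * g ∈ E := by
    intro g hg
    by_cases hgE : g ∈ E
    · exact Or.inl hgE
    refine Or.inr ?_
    have h := (Subgroup.mul_mem_iff_of_index_two hidx (a := (⟨t, htN⟩ : N)⁻¹) (b := ⟨g, hg⟩)).2
      (iff_of_false (fun h => htE (by simpa [Subgroup.mem_subgroupOf] using h)) hgE)
    exact h
  have hctE : ∀ g ∈ N, g ∉ E → ∀ u ∈ E, g * u * g⁻¹ = t * u * t⁻¹ := by
    intro g hg hgE u hu
    have h := (hcoset g hg).resolve_left hgE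
    calc g * u * g⁻¹ = t * ((t⁻¹ * g) * u * (t⁻¹ * g)⁻¹) * t⁻¹ := by group
      _ = t * u * t⁻¹ := by rw [hcommE _ h u hu, mul_inv_cancel_right]
  obtain ⟨c, hc⟩ : ∃ c : ℕ, a ^ c = t * a * t⁻¹ := by
    have := hmap t htN a (ha ▸ Subgroup.mem_zpowers a)
    rw [← ha] at this
    exact (mem_powers_iff_mem_zpowers).2 this
  have htt : ∀ u ∈ E, t * (t * u * t⁻¹) * t⁻¹ = u := by
    intro u hu
    calc t * (t * u * t⁻¹) * t⁻¹ = (t * t) * u * (t * t)⁻¹ := by group
      _ = u := by rw [hcommE _ (hsq t htN) u hu, mul_inv_cancel_right]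
  refine ⟨t, c, htN, htE, hcoset, hc.symm, ?_, ?_⟩
  · rw [← ha, Nat.card_zpowers, ← pow_eq_pow_iff_modEq, pow_one, pow_mul, hc, conj_pow, hc,
      htt a (ha ▸ Subgroup.mem_zpowers a)]
  -- the fixed points
  intro b hb htb
  by_contra hb2
  -- the commutator of `t` with an element of `E` is inverted
  have hinv : ∀ u ∈ E, t * (t * u * t⁻¹ * u⁻¹) * t⁻¹ = (t * u * t⁻¹ * u⁻¹)⁻¹ := by
    intro u hu
    have h := htt u hu
    calc t * (t * u * t⁻¹ * u⁻¹) * t⁻¹ = t * (t * u * t⁻¹) * t⁻¹ * (t * u⁻¹ * t⁻¹) := by group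
      _ = u * (t * u⁻¹ * t⁻¹) := by rw [h]
      _ = _ := by group
  have hfix : ∀ y ∈ E, t * y * t⁻¹ = y⁻¹ → ∀ z ∈ Subgroup.zpowers y, t * z * t⁻¹ = z →
      z * z = 1 := by
    intro y _ hy z hz hz'
    obtain ⟨i, rfl⟩ := Subgroup.mem_zpowers_iff.1 hz
    rw [← conj_zpow, hy, inv_zpow] at hz'
    conv_lhs => arg 1; rw [← hz']
    rw [inv_mul_cancel]
  have hb1 : b ≠ 1 := fun h => hb2 (by rw [h, one_mul])
  -- reduce to an element of odd prime order or of order four
  obtain ⟨q, hq, hqb⟩ : ∃ q, q ∣ orderOf b ∧ (q.Prime ∧ q ≠ 2 ∨ q = 4) := by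
    by_cases h4 : 4 ∣ orderOf b
    · exact ⟨4, h4, Or.inr rfl⟩
    have h2 : ¬ orderOf b ∣ 2 := fun h => hb2 (by
      rw [← sq]; exact orderOf_dvd_iff_pow_eq_one.1 h)
    by_contra hcon
    push Not at hcon
    obtain ⟨j, hj⟩ : ∃ j, orderOf b = 2 ^ j := ⟨_, Nat.eq_prime_pow_of_unique_prime_dvd
      (orderOf_pos b).ne' fun {r} hr hrd => (hcon r hrd).1 hr⟩
    rcases Nat.lt_or_ge j 2 with hj2 | hj2
    · refine h2 ?_
      rw [hj]
      exact (pow_dvd_pow 2 (show j ≤ 1 by omega)).trans (by norm_num)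
    · exact h4 (hj ▸ (pow_dvd_pow 2 hj2))
  set b₀ := b ^ (orderOf b / q) with hb₀
  have hb₀o : orderOf b₀ = q := orderOf_pow_orderOf_div (orderOf_pos b).ne' hq
  have hb₀E : b₀ ∈ E := E.pow_mem hb _
  have htb₀ : t * b₀ * t⁻¹ = b₀ := by rw [hb₀, ← conj_pow, htb]
  have hb₀1 : b₀ ≠ 1 := fun h => by
    rw [h, orderOf_one] at hb₀o
    rcases hqb with ⟨hqp, -⟩ | h4
    · exact hqp.one_lt.ne hb₀o
    · omega
  have hb₀2 : b₀ * b₀ ≠ 1 := fun h => by
    have h1 : orderOf b₀ ∣ 2 := orderOf_dvd_of_pow_eq_one (by rw [sq]; exact h)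
    rw [hb₀o] at h1
    rcases hqb with ⟨hqp, hq2⟩ | h4
    · exact hq2 ((Nat.prime_dvd_prime_iff_eq hqp Nat.prime_two).1 h1)
    · rw [h4] at h1; norm_num at h1
  rcases hqb with ⟨hqp, hq2⟩ | rfl
  · -- an odd prime: Burnside's transfer
    have : Fact q.Prime := ⟨hqp⟩
    have hpg : IsPGroup q (Subgroup.zpowers b₀) :=
      IsPGroup.of_card (n := 1) (by rw [Nat.card_zpowers, hb₀o, pow_one])
    obtain ⟨Q, hQ⟩ := hpg.exists_le_sylow
    have hbQ : b₀ ∈ (Q : Subgroup G) := hQ (Subgroup.mem_zpowers b₀)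
    have hodd : ∀ g ∈ (Q : Subgroup G), g ∈ N → g ∈ E := by
      intro g hg hgN
      obtain ⟨j, hj⟩ := (IsPGroup.iff_orderOf).1 Q.2 ⟨g, hg⟩
      rw [Subgroup.orderOf_mk] at hj
      have ho : Odd (orderOf g) := hj ▸ (hqp.odd_of_ne_two hq2).pow
      obtain ⟨r, hr⟩ := ho
      have : g = (g * g) ^ (r + 1) := by
        rw [← sq, ← pow_mul, show 2 * (r + 1) = orderOf g + 1 by omega, pow_succ, pow_orderOf_eq_one,
          one_mul]
      rw [this]
      exact E.pow_mem (hsq g hgN) _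
    have : Nontrivial (Q : Subgroup G) := ⟨⟨⟨b₀, hbQ⟩, 1, fun h => hb₀1 (congrArg Subtype.val h)⟩⟩
    have hZ : Nontrivial (Subgroup.center (Q : Subgroup G)) := Q.2.center_nontrivial
    obtain ⟨z, hz⟩ : ∃ z : Subgroup.center (Q : Subgroup G), orderOf z = q := by
      refine exists_prime_orderOf_dvd_card' q ?_
      obtain ⟨j, hj, hj'⟩ := ((IsPGroup.to_subgroup Q.2 _).nontrivial_iff_card).1 hZ
      exact hj' ▸ dvd_pow_self q (by omega)
    set z₀ : G := ((z : (Q : Subgroup G)) : G) with hz₀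
    have hz₀o : orderOf z₀ = q := by rw [hz₀, Subgroup.orderOf_coe, Subgroup.orderOf_coe, hz]
    have hzc : ∀ g ∈ (Q : Subgroup G), g * z₀ = z₀ * g := fun g hg =>
      congrArg Subtype.val (Subgroup.mem_center_iff.1 z.2 ⟨g, hg⟩)
    have hz₀N : z₀ ∈ N := hC b₀ hb₀E hb₀1 z₀ (by
      rw [← hzc b₀ hbQ, mul_inv_cancel_right]; exact hb₀E)
    have hz₀E : z₀ ∈ E := hodd z₀ (z : (Q : Subgroup G)).2 hz₀N
    obtain ⟨i, hi⟩ := Subgroup.mem_zpowers_iff.1
      (mem_zpowers_of_orderOf_dvd hb₀E hz₀E (dvd_of_eq (hb₀o.trans hz₀o.symm)))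
    have hQE : (Q : Subgroup G) ≤ E := fun g hg => by
      refine hodd g hg (hC b₀ hb₀E hb₀1 g ?_)
      rw [← hi, ((show Commute g z₀ from hzc g hg).zpow_right i).eq, mul_inv_cancel_right, hi]
      exact hb₀E
    have htQ : ∀ u ∈ (Q : Subgroup G), t * u * t⁻¹ = u := by
      intro u hu
      have huE := hQE hu
      set y := t * u * t⁻¹ * u⁻¹ with hy
      by_contra hne
      have hy1 : y ≠ 1 := fun h => hne (mul_inv_eq_one.1 h)
      have hyE : y ∈ E := E.mul_mem (hmap t htN u huE) (E.inv_mem huE)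
      obtain ⟨j, hj⟩ := (IsPGroup.iff_orderOf).1 Q.2 ⟨u, hu⟩
      rw [Subgroup.orderOf_mk] at hj
      have hyo : orderOf y ∣ q ^ j := by
        refine orderOf_dvd_of_pow_eq_one ?_
        rw [hy, (show Commute (t * u * t⁻¹) u⁻¹ from
          hcommE _ (hmap t htN u huE) _ (E.inv_mem huE)).mul_pow, conj_pow, inv_pow,
          ← hj, pow_orderOf_eq_one, mul_one, mul_inv_cancel, one_mul, inv_one]
      obtain ⟨r, -, hr⟩ := (Nat.dvd_prime_pow hqp).1 hyo
      have hr1 : r ≠ 0 := fun h => hy1 (orderOf_eq_one_iff.1 (by rw [hr, h, pow_zero]))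
      exact hb₀2 (hfix y hyE (hinv u huE) b₀
        (mem_zpowers_of_orderOf_dvd hb₀E hyE (by rw [hb₀o, hr]; exact dvd_pow_self q hr1)) htb₀)
    have hburn : Subgroup.normalizer ((Q : Subgroup G) : Set G) ≤
        Subgroup.centralizer ((Q : Subgroup G) : Set G) := by
      intro g hg
      have hgN : g ∈ N := hC b₀ hb₀E hb₀1 g (hQE ((Subgroup.mem_normalizer_iff.1 hg b₀).1 hbQ))
      refine Subgroup.mem_centralizer_iff.2 fun u hu => ?_
      by_cases hgE : g ∈ E
      · exact hcommE u (hQE hu) g hgE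
      · have h := hctE g hgN hgE u (hQE hu)
        rw [htQ u hu, mul_inv_eq_iff_eq_mul] at h
        exact h.symm
    refine MonoidHom.not_dvd_card_ker_transferSylow Q hburn ?_
    have : IsMulCommutative (Q : Subgroup G) :=
      ⟨⟨fun u v => Subtype.ext (hcommE u (hQE u.2) v (hQE v.2))⟩⟩
    open scoped IsMulCommutative in
    have hker : (MonoidHom.transferSylow Q hburn).ker = ⊤ :=
      eq_top_iff.2 fun g _ => MonoidHom.mem_ker.2 (hom_eq_one hperf _ g)
    rw [hker, Subgroup.card_top, ← hb₀o]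
    exact orderOf_dvd_natCard b₀
  -- an element of order four
  have : Fact (Nat.Prime 2) := ⟨Nat.prime_two⟩
  have hpg : IsPGroup 2 (Subgroup.zpowers b₀) :=
    IsPGroup.of_card (n := 2) (by rw [Nat.card_zpowers, hb₀o]; norm_num)
  obtain ⟨T, hT⟩ := hpg.exists_le_sylow
  have hbT : b₀ ∈ (T : Subgroup G) := hT (Subgroup.mem_zpowers b₀)
  set i₀ := b₀ * b₀ with hi₀
  have hi₀E : i₀ ∈ E := E.mul_mem hb₀E hb₀E
  have hi₀i : i₀ * i₀ = 1 := by
    have h := pow_orderOf_eq_one b₀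
    rw [hb₀o] at h
    rw [hi₀, ← h]; simp only [pow_succ, pow_zero, one_mul, mul_assoc]
  have hinvol : ∀ u ∈ E, u * u = 1 → u = 1 ∨ u = i₀ := by
    intro u hu hu2
    by_contra hc
    rw [not_or] at hc
    have h1 : orderOf u = 2 := orderOf_eq_prime (by rw [sq]; exact hu2) hc.1
    have h2 : orderOf i₀ = 2 := orderOf_eq_prime (by rw [sq]; exact hi₀i) hb₀2
    obtain ⟨j, hj⟩ := (mem_powers_iff_mem_zpowers).2
      (mem_zpowers_of_orderOf_dvd hu hi₀E (dvd_of_eq (h1.trans h2.symm)))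
    change i₀ ^ j = u at hj
    rcases Nat.even_or_odd j with ⟨r, rfl⟩ | ⟨r, rfl⟩
    · exact hc.1 (by rw [← hj, ← two_mul, pow_mul, sq, hi₀i, one_pow])
    · exact hc.2 (by rw [← hj, pow_succ, pow_mul, sq, hi₀i, one_pow, one_mul])
  have hTN : (T : Subgroup G) ≤ N := by
    set T₀ := N.subgroupOf (T : Subgroup G) with hT₀
    by_contra hnle
    have hlt : T₀ < ⊤ := lt_top_iff_ne_top.2 fun h => hnle (Subgroup.subgroupOf_eq_top.1 h)
    obtain ⟨s, hs, hsT⟩ := SetLike.exists_of_lt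
      (normalizerCondition_of_isNilpotent (h := T.2.isNilpotent) T₀ hlt)
    refine hsT ?_
    have h1 : (s * ⟨b₀, hbT⟩ * s⁻¹) ∈ T₀ := (Subgroup.mem_normalizer_iff.1 hs _).1 (hEN hb₀E)
    have h2 := hsq _ h1
    refine hC i₀ hi₀E hb₀2 (s : G) ?_
    convert h2 using 1
    simp [hi₀, mul_assoc]
  have hcomm_u : ∀ x ∈ (T : Subgroup G), ∀ w ∈ (T : Subgroup G), w ∈ E →
      x * w * x⁻¹ * w⁻¹ = 1 ∨ x * w * x⁻¹ * w⁻¹ = i₀ := by
    intro x hx w hw hwE
    by_cases hxE : x ∈ E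
    · exact Or.inl (by rw [hcommE x hxE w hwE, mul_inv_cancel_right, mul_inv_cancel])
    rw [hctE x (hTN hx) hxE w hwE]
    set y := t * w * t⁻¹ * w⁻¹ with hy
    have hyE : y ∈ E := E.mul_mem (hmap t htN w hwE) (E.inv_mem hwE)
    obtain ⟨j, hj⟩ := (IsPGroup.iff_orderOf).1 T.2 ⟨w, hw⟩
    rw [Subgroup.orderOf_mk] at hj
    have hyo : orderOf y ∣ 2 ^ j := by
      refine orderOf_dvd_of_pow_eq_one ?_
      rw [hy, (show Commute (t * w * t⁻¹) w⁻¹ from
        hcommE _ (hmap t htN w hwE) _ (E.inv_mem hwE)).mul_pow, conj_pow, inv_pow,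
        ← hj, pow_orderOf_eq_one, mul_one, mul_inv_cancel, one_mul, inv_one]
    obtain ⟨r, -, hr⟩ := (Nat.dvd_prime_pow Nat.prime_two).1 hyo
    have hr2 : r ≤ 1 := by
      by_contra h
      refine hb₀2 (hfix y hyE (hinv w hwE) b₀ (mem_zpowers_of_orderOf_dvd hb₀E hyE ?_) htb₀)
      rw [hb₀o, hr]
      exact (pow_dvd_pow 2 (show 2 ≤ r by omega))
    refine hinvol y hyE ?_
    rw [← sq, ← orderOf_dvd_iff_pow_eq_one, hr]
    exact (pow_dvd_pow 2 hr2).trans (by norm_num)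
  have hi₀c : ∀ g ∈ N, g * i₀ * g⁻¹ = i₀ := by
    intro g hg
    by_cases hgE : g ∈ E
    · rw [hcommE g hgE i₀ hi₀E, mul_inv_cancel_right]
    · rw [hctE g hg hgE i₀ hi₀E, hi₀, ← conj_mul, htb₀]
  have hcomm_all : ∀ x ∈ (T : Subgroup G), ∀ w ∈ (T : Subgroup G),
      x * w = w * x ∨ x * w = i₀ * (w * x) := by
    have key : ∀ x ∈ (T : Subgroup G), ∀ w ∈ (T : Subgroup G), w ∈ E →
        x * w = w * x ∨ x * w = i₀ * (w * x) := by
      intro x hx w hw hwE
      rcases hcomm_u x hx w hw hwE with h | h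
      · exact Or.inl (by rw [mul_inv_eq_one, mul_inv_eq_iff_eq_mul] at h; exact h)
      · refine Or.inr ?_
        rw [← h]; group
    intro x hx w hw
    by_cases hwE : w ∈ E
    · exact key x hx w hw hwE
    by_cases hxE : x ∈ E
    · rcases key w hw x hx hxE with h | h
      · exact Or.inl h.symm
      · refine Or.inr ?_
        rw [h, ← mul_assoc i₀, hi₀i, one_mul]
    have hu : x⁻¹ * w ∈ E := by
      have h1 := (hcoset x (hTN hx)).resolve_left hxE
      have h2 := (hcoset w (hTN hw)).resolve_left hwE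
      have : x⁻¹ * w = (t⁻¹ * x)⁻¹ * (t⁻¹ * w) := by group
      rw [this]
      exact E.mul_mem (E.inv_mem h1) h2
    have hxi : x * i₀ = i₀ * x := mul_inv_eq_iff_eq_mul.1 (hi₀c x (hTN hx))
    rcases key x hx _ ((T : Subgroup G).mul_mem ((T : Subgroup G).inv_mem hx) hw) hu with h | h
    · refine Or.inl ?_
      calc x * w = x * (x * (x⁻¹ * w)) := by group
        _ = _ := by rw [h]; group
    · refine Or.inr ?_
      calc x * w = x * (x * (x⁻¹ * w)) := by group
        _ = (x * i₀) * (x⁻¹ * w * x) := by rw [h, ← mul_assoc]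
        _ = i₀ * (w * x) := by rw [hxi]; group
  -- the cyclic part
  obtain ⟨u, hu⟩ := (Subgroup.isCyclic_iff_exists_zpowers_eq_top ((T : Subgroup G) ⊓ E)).1
    (isCyclic_of_injective (Subgroup.inclusion (inf_le_right : (T : Subgroup G) ⊓ E ≤ E))
      (Subgroup.inclusion_injective _))
  have huT : u ∈ (T : Subgroup G) ⊓ E := hu ▸ Subgroup.mem_zpowers u
  obtain ⟨k, hk⟩ := (IsPGroup.iff_orderOf).1 T.2 ⟨u, huT.1⟩
  rw [Subgroup.orderOf_mk] at hk
  have hk2 : 2 ≤ k := by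
    have h : b₀ ∈ Subgroup.zpowers u := hu ▸ Subgroup.mem_inf.2 ⟨hbT, hb₀E⟩
    have h2 := orderOf_dvd_of_mem_zpowers h
    rw [hb₀o, hk, show 4 = 2 ^ 2 by norm_num] at h2
    exact (Nat.pow_dvd_pow_iff_le_right (le_refl 2)).1 h2
  have hsqT : ∀ x ∈ (T : Subgroup G), (x * x) ^ 2 ^ k = 1 := by
    intro x hx
    have h : x * x ∈ Subgroup.zpowers u :=
      hu ▸ Subgroup.mem_inf.2 ⟨(T : Subgroup G).mul_mem hx hx, hsq x (hTN hx)⟩
    exact orderOf_dvd_iff_pow_eq_one.1 (hk ▸ orderOf_dvd_of_mem_zpowers h)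
  obtain ⟨k', rfl⟩ : ∃ k', k = k' + 2 := ⟨k - 2, by omega⟩
  obtain ⟨m, v, hm, hvT, hvm, hall, hmul⟩ : ∃ (m : ℕ) (v : G), (∃ r, m = 2 * r) ∧
      v ∈ (T : Subgroup G) ∧ v ^ m = i₀ ∧ (∀ x ∈ (T : Subgroup G), x ^ m * x ^ m = 1) ∧
      ((∃ r, m = 4 * r) ∨ ∀ x ∈ (T : Subgroup G), ∀ w ∈ (T : Subgroup G), x * w = w * x) := by
    by_cases hexp : ∀ x ∈ (T : Subgroup G), x ^ 2 ^ (k' + 2) = 1
    · refine ⟨2 ^ (k' + 1), u, ⟨2 ^ k', by ring⟩, huT.1, ?_, fun x hx => ?_, ?_⟩
      · refine (hinvol _ (E.pow_mem huT.2 _) ?_).resolve_left fun h => ?_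
        · rw [← pow_add, ← two_mul, ← pow_succ', ← hk, pow_orderOf_eq_one]
        · have h1 := orderOf_dvd_of_pow_eq_one h
          rw [hk] at h1
          have := (Nat.pow_dvd_pow_iff_le_right (le_refl 2)).1 h1
          omega
      · rw [← pow_add, ← two_mul, ← pow_succ', hexp x hx]
      · rcases Nat.eq_zero_or_pos k' with h0 | h0
        · right
          subst h0
          have hbu : Subgroup.zpowers b₀ = Subgroup.zpowers u := by
            refine Subgroup.eq_of_le_of_card_ge (Subgroup.zpowers_le.2 ?_) ?_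
            · exact hu ▸ Subgroup.mem_inf.2 ⟨hbT, hb₀E⟩
            · rw [Nat.card_zpowers, Nat.card_zpowers, hb₀o, hk]; norm_num
          have key : ∀ x ∈ (T : Subgroup G), ∀ w ∈ (T : Subgroup G), w ∈ E → x * w = w * x := by
            intro x hx w hw hwE
            have h : w ∈ Subgroup.zpowers b₀ := hbu ▸ hu ▸ Subgroup.mem_inf.2 ⟨hw, hwE⟩
            obtain ⟨j, rfl⟩ := Subgroup.mem_zpowers_iff.1 h
            by_cases hxE : x ∈ E
            · exact hcommE x hxE _ hwE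
            · have h2 := hctE x (hTN hx) hxE _ hwE
              rw [← conj_zpow (a := t), htb₀, mul_inv_eq_iff_eq_mul] at h2
              exact h2
          intro x hx w hw
          by_cases hwE : w ∈ E
          · exact key x hx w hw hwE
          by_cases hxE : x ∈ E
          · exact (key w hw x hx hxE).symm
          have h1 := (hcoset x (hTN hx)).resolve_left hxE
          have h2 := (hcoset w (hTN hw)).resolve_left hwE
          have h3 : x⁻¹ * w ∈ E := by
            rw [show x⁻¹ * w = (t⁻¹ * x)⁻¹ * (t⁻¹ * w) by group]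
            exact E.mul_mem (E.inv_mem h1) h2
          have h4 := key x hx _
            ((T : Subgroup G).mul_mem ((T : Subgroup G).inv_mem hx) hw) h3
          calc x * w = x * (x * (x⁻¹ * w)) := by group
            _ = _ := by rw [h4]; group
        · exact Or.inl ⟨2 ^ (k' - 1), by
            rw [show k' + 1 = k' - 1 + 2 by omega, pow_add]; ring⟩
    · push Not at hexp
      obtain ⟨x, hx, hx1⟩ := hexp
      have hall' : ∀ w ∈ (T : Subgroup G), w ^ 2 ^ (k' + 2) * w ^ 2 ^ (k' + 2) = 1 := fun w hw => by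
        rw [← (Commute.refl w).mul_pow, hsqT w hw]
      refine ⟨2 ^ (k' + 2), x, ⟨2 ^ (k' + 1), by ring⟩, hx, ?_, hall',
        Or.inl ⟨2 ^ k', by ring⟩⟩
      refine (hinvol _ ?_ (hall' x hx)).resolve_left hx1
      rw [show 2 ^ (k' + 2) = 2 * 2 ^ (k' + 1) by ring, pow_mul, sq]
      exact E.pow_mem (hsq x (hTN hx)) _
  obtain ⟨r, rfl⟩ := hm
  have hval : ∀ x ∈ (T : Subgroup G), x ^ (2 * r) ∈ Subgroup.zpowers i₀ := by
    intro x hx
    rcases hinvol _ (by rw [pow_mul, sq]; exact E.pow_mem (hsq x (hTN hx)) _) (hall x hx) with h | h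
    · rw [h]; exact one_mem _
    · rw [h]; exact Subgroup.mem_zpowers i₀
  have hpowmul : ∀ x ∈ (T : Subgroup G), ∀ w ∈ (T : Subgroup G),
      (x * w) ^ (2 * r) = x ^ (2 * r) * w ^ (2 * r) := by
    intro x hx w hw
    rcases hmul with ⟨s, hs⟩ | hab
    · rcases hcomm_all x hx w hw with h | h
      · exact (show Commute x w from h).mul_pow _
      have hx2 := hsq x (hTN hx)
      have hw2 := hsq w (hTN hw)
      have hci : ∀ g ∈ (T : Subgroup G), g * i₀ = i₀ * g := fun g hg =>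
        mul_inv_eq_iff_eq_mul.1 (hi₀c g (hTN hg))
      have h' : w * x = i₀ * (x * w) := by rw [h, ← mul_assoc, hi₀i, one_mul]
      have hsquare : (x * w) * (x * w) = (x * x) * (w * w) * i₀ := by
        calc (x * w) * (x * w) = x * (w * x) * w := by group
          _ = (x * i₀) * (x * w * w) := by rw [h']; group
          _ = i₀ * ((x * x) * (w * w)) := by rw [hci x hx]; group
          _ = _ := hcommE _ hi₀E _ (E.mul_mem hx2 hw2)
      have hfour : ((x * w) * (x * w)) ^ 2 = (x * x) ^ 2 * (w * w) ^ 2 := by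
        rw [hsquare, (show Commute ((x * x) * (w * w)) i₀ from
          hcommE _ (E.mul_mem hx2 hw2) _ hi₀E).mul_pow, sq i₀, hi₀i, mul_one,
          (show Commute (x * x) (w * w) from hcommE _ hx2 _ hw2).mul_pow]
      have e : ∀ g : G, g ^ (2 * (2 * s)) = ((g * g) ^ 2) ^ s := fun g => by
        rw [← sq, ← pow_mul, ← pow_mul]
      rw [show 2 * r = 2 * (2 * s) by omega, e, e x, e w, hfour]
      exact (show Commute ((x * x) ^ 2) ((w * w) ^ 2) from
        hcommE _ (E.pow_mem hx2 2) _ (E.pow_mem hw2 2)).mul_pow _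
    · exact (show Commute x w from hab x hx w hw).mul_pow _
  let ψ : (T : Subgroup G) →* Subgroup.zpowers i₀ :=
    { toFun := fun x => ⟨(x : G) ^ (2 * r), hval x x.2⟩
      map_one' := Subtype.ext (one_pow _)
      map_mul' := fun x w => Subtype.ext (hpowmul x x.2 w w.2) }
  have hord : orderOf i₀ = 2 := orderOf_eq_prime (by rw [sq]; exact hi₀i) hb₀2
  have : IsMulCommutative (Subgroup.zpowers i₀) :=
    ⟨⟨fun u w => Subtype.ext (hcommE u (Subgroup.zpowers_le.2 hi₀E u.2) w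
      (Subgroup.zpowers_le.2 hi₀E w.2))⟩⟩
  let : Fintype (G ⧸ (T : Subgroup G)) := Fintype.ofFinite _
  let : Fintype (Quotient (MulAction.orbitRel (Subgroup.zpowers v) (G ⧸ (T : Subgroup G)))) :=
    Fintype.ofFinite _
  open scoped IsMulCommutative in
  have htr : (1 : Subgroup.zpowers i₀) =
      (⟨i₀, Subgroup.mem_zpowers i₀⟩ : Subgroup.zpowers i₀) ^ (T : Subgroup G).index := by
    rw [← hom_eq_one hperf (MonoidHom.transfer ψ) v,
      MonoidHom.transfer_eq_prod_quotient_orbitRel_zpowers_quot,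
      Subgroup.index_eq_sum_minimalPeriod (T : Subgroup G) v, ← Finset.prod_pow_eq_pow_sum]
    refine Finset.prod_congr rfl fun q _ => Subtype.ext ?_
    set l := Function.minimalPeriod (v • ·) q.out
    set g₀ := q.out.out
    show (g₀⁻¹ * v ^ l * g₀) ^ (2 * r) = i₀ ^ l
    have hmem : g₀⁻¹ * v ^ l * g₀ ∈ (T : Subgroup G) :=
      QuotientGroup.out_conj_pow_minimalPeriod_mem _ v q.out
    have he : (g₀⁻¹ * v ^ l * g₀) ^ (2 * r) = g₀⁻¹ * i₀ ^ l * g₀ := by
      conv_lhs => rw [show g₀⁻¹ * v ^ l * g₀ = g₀⁻¹ * v ^ l * g₀⁻¹⁻¹ by rw [inv_inv]]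
      rw [conj_pow, inv_inv, ← pow_mul, mul_comm l, pow_mul, hvm]
    rcases hinvol _ (hEN |> fun _ => Subgroup.zpowers_le.2 hi₀E (hval _ hmem)) (hall _ hmem) with
      h | h
    · rw [h]
      rw [he] at h
      have : i₀ ^ l = 1 := by
        calc i₀ ^ l = g₀ * (g₀⁻¹ * i₀ ^ l * g₀) * g₀⁻¹ := by group
          _ = 1 := by rw [h]; group
      rw [this]
    · rw [h]
      rw [he] at h
      refine ((hinvol _ (E.pow_mem hi₀E l) ?_).resolve_left fun h0 => ?_).symm
      · rw [← (Commute.refl i₀).mul_pow, hi₀i, one_pow]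
      · rw [h0, mul_one, inv_mul_cancel] at h
        exact hb₀2 h.symm
  have h1 := congrArg Subtype.val htr
  simp only [Subgroup.coe_one, SubmonoidClass.coe_pow] at h1
  have h2 := orderOf_dvd_of_pow_eq_one h1.symm
  rw [hord] at h2
  exact T.not_dvd_index h2

end Cfsg.Agent.H42.PrimeDegree
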