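import Mathlib
import Cfsg.Agent.H42.PrimeDegree.Perm
import Cfsg.Agent.H42.PrimeDegree.TI
import Cfsg.Agent.H42.PrimeDegree.Eigen
import Cfsg.Agent.H68.RankOne
import Cfsg.Agent.H25.CharInd
import Cfsg.Agent.H26.CharOrtho
import Cfsg.Agent.H26.CharFS

/-!
# Induced generalized characters of the cyclic TI complement
-/

set_option autoImplicit false
set_option maxHeartbeats 1000000
set_option linter.unusedSectionVars false

namespace Cfsg.Agent.H42.PrimeDegree

open scoped ComplexConjugate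
open Module Cfsg.Agent.H43.D1

attribute [local instance] Fintype.ofFinite Classical.propDecidable

variable {p : ℕ} [hp : Fact p.Prime] {G : Type*} [Group G] [Finite G]

theorem card_L_eq (D : Datum p G) : orderOf D.a = Nat.card D.L := by
  rw [← D.a_gen, Nat.card_zpowers]

theorem pow_card_L (D : Datum p G) : D.a ^ Nat.card D.L = 1 :=
  card_L_eq D ▸ pow_orderOf_eq_one D.a

theorem exists_pow_eq (D : Datum p G) {b : G} (hb : b ∈ D.L) :
    ∃ j < Nat.card D.L, D.a ^ j = b := by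
  rw [← D.a_gen] at hb
  obtain ⟨j, hj⟩ := (mem_powers_iff_mem_zpowers).2 hb
  refine ⟨j % Nat.card D.L, Nat.mod_lt _ Nat.card_pos, ?_⟩
  rw [← card_L_eq D, pow_mod_orderOf]
  exact hj

theorem pow_mem_L (D : Datum p G) (j : ℕ) : D.a ^ j ∈ D.L :=
  D.L.pow_mem (D.a_gen ▸ Subgroup.mem_zpowers D.a) j

/-- A sum over the complement as a sum over exponents. -/
theorem sum_L (D : Datum p G) [Fintype D.L] (F : G → ℂ) :
    ∑ b : D.L, F b = ∑ j ∈ Finset.range (Nat.card D.L), F (D.a ^ j) := by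
  refine (Finset.sum_bij (fun j _ => (⟨D.a ^ j, pow_mem_L D j⟩ : D.L))
    (fun j _ => Finset.mem_univ _) (fun i hi j hj h => ?_) (fun b _ => ?_) (fun j _ => rfl)).symm
  · exact pow_injOn_Iio_orderOf (Set.mem_Iio.2 (card_L_eq D ▸ Finset.mem_range.1 hi))
      (Set.mem_Iio.2 (card_L_eq D ▸ Finset.mem_range.1 hj)) (congrArg Subtype.val h)
  · obtain ⟨j, hj, h⟩ := exists_pow_eq D b.2
    exact ⟨j, Finset.mem_range.2 hj, Subtype.ext h⟩

/-- The roots of unity. -/
noncomputable def mu (e : ℕ) : Finset ℂ := Polynomial.nthRootsFinset e (1 : ℂ)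

theorem mem_mu {e : ℕ} (he : 0 < e) {ν : ℂ} : ν ∈ mu e ↔ ν ^ e = 1 :=
  Polynomial.mem_nthRootsFinset he 1

theorem card_mu {e : ℕ} (he : 0 < e) : (mu e).card = e :=
  (Complex.isPrimitiveRoot_exp e he.ne').card_nthRootsFinset

theorem sum_pow_eq {e : ℕ} {x : ℂ} (hx : x ^ e = 1) :
    ∑ j ∈ Finset.range e, x ^ j = if x = 1 then (e : ℂ) else 0 := by
  split_ifs with h
  · simp [h]
  · rw [geom_sum_eq h, hx, sub_self, zero_div]

theorem conj_root {e : ℕ} (he : e ≠ 0) {ν : ℂ} (hν : ν ^ e = 1) : conj ν = ν⁻¹ := by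
  have h1 := Complex.norm_eq_one_of_pow_eq_one hν he
  rw [Complex.inv_def, Complex.normSq_eq_norm_sq, h1]
  simp

/-- The multiplicities of the eigenvalues of `a` in an irreducible representation. -/
theorem exists_mult (D : Datum p G) [Fintype G] (φ : Cfsg.IrrCharacter G) :
    ∃ m : ℂ → ℕ, (∀ ν : ℂ, ν ^ Nat.card D.L = 1 →
        ∑ j ∈ Finset.range (Nat.card D.L), (ν⁻¹) ^ j * φ.1 (D.a ^ j) =
          (Nat.card D.L : ℂ) * m ν) ∧
      φ.1 1 = ((∑ ν ∈ mu (Nat.card D.L), m ν : ℕ) : ℂ) ∧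
      ∏ ν ∈ mu (Nat.card D.L), ν ^ m ν = 1 := by
  obtain ⟨n, ρ, hρ, hc⟩ := φ.2
  set e := Nat.card D.L with he
  have he0 : (e : ℂ) ≠ 0 := Nat.cast_ne_zero.2 Nat.card_pos.ne'
  have hA : (ρ D.a) ^ e = 1 := by rw [← map_pow, pow_card_L, map_one]
  obtain ⟨c, b, hb, hcp⟩ := exists_eigenbasis (ρ D.a) he0 hA
  refine ⟨fun ν => finrank ℂ (Module.End.eigenspace (ρ D.a) ν), fun ν hν => ?_, ?_, ?_⟩
  · rw [natCast_finrank_eigenspace (ρ D.a) he0 hA hν]
    refine Finset.sum_congr rfl fun j _ => ?_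
    rw [← map_pow, ← hc]
    rfl
  · simp only [finrank_eigenspace_eq b hb]
    rw [← Finset.card_eq_sum_card_fiberwise (f := c) fun i _ => (mem_mu Nat.card_pos).2 (hcp i),
      Finset.card_univ, Fintype.card_fin, ← hc, ρ.char_one]
  · simp only [finrank_eigenspace_eq b hb]
    rw [← show ∏ i, c i = ∏ ν ∈ mu e, ν ^ (Finset.univ.filter fun i => c i = ν).card from ?_,
      ← det_eq_prod b hb]
    · have h := hom_eq_one D.perfect ((LinearMap.det.comp ρ).toHomUnits) D.a
      exact congrArg Units.val h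
    · rw [← Finset.prod_fiberwise_of_maps_to (g := c) (t := mu e)
        fun i _ => (mem_mu Nat.card_pos).2 (hcp i)]
      refine Finset.prod_congr rfl fun ν _ => ?_
      rw [Finset.prod_congr rfl fun i hi => (Finset.mem_filter.1 hi).2, Finset.prod_const]

/-- Exactly one entry of a sum of squares equal to one. -/
theorem exists_of_sum_sq_one {ι : Type*} (s : Finset ι) (a : ι → ℤ) (h : ∑ i ∈ s, a i ^ 2 = 1) :
    ∃ i ∈ s, a i ^ 2 = 1 ∧ ∀ j ∈ s, j ≠ i → a j = 0 := by
  obtain ⟨i, hi, hi0⟩ : ∃ i ∈ s, a i ≠ 0 := by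
    by_contra hc
    push Not at hc
    rw [Finset.sum_eq_zero fun i hi => by rw [hc i hi]; rfl] at h
    exact zero_ne_one h
  have h2 : a i ^ 2 + ∑ j ∈ s.erase i, a j ^ 2 = 1 :=
    (Finset.add_sum_erase s (fun i => a i ^ 2) hi).trans h
  have h3 : 0 ≤ ∑ j ∈ s.erase i, a j ^ 2 := Finset.sum_nonneg fun j _ => sq_nonneg _
  have h4 : 0 < a i ^ 2 := lt_of_le_of_ne (sq_nonneg _) (Ne.symm (pow_ne_zero 2 hi0))
  refine ⟨i, hi, by omega, fun j hj hji => ?_⟩
  have h5 := Finset.single_le_sum (f := fun j => a j ^ 2) (fun j _ => sq_nonneg _)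
    (Finset.mem_erase.2 ⟨hji, hj⟩)
  have h6 : a j ^ 2 = 0 := by
    have := sq_nonneg (a j)
    omega
  exact pow_eq_zero_iff two_ne_zero |>.1 h6

/-- The combinatorial core: the coefficient vectors of the induced generalized characters. -/
theorem coefficient_step {ι : Type*} [Fintype ι] [DecidableEq ι] {o χ : ι} (hoχ : o ≠ χ)
    (deg : ι → ℤ) (p : ℤ) (ho : deg o = 1) (hχ : deg χ = p)
    (a : ι → ℤ) (ha1 : a o = -1) (hn : ∑ i, a i * a i = 3) (hdeg : ∑ i, a i * deg i = 0)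
    (hs : a χ ≠ 0) :
    (a χ = 1 ∨ a χ = -1) ∧ ∃ R, R ≠ o ∧ R ≠ χ ∧ (a R = 1 ∨ a R = -1) ∧
      (∀ i, i ≠ o → i ≠ χ → i ≠ R → a i = 0) ∧ a R * deg R = 1 - a χ * p := by
  have hχmem : χ ∈ (Finset.univ : Finset ι).erase o :=
    Finset.mem_erase.2 ⟨hoχ.symm, Finset.mem_univ _⟩
  rw [← Finset.add_sum_erase _ _ (Finset.mem_univ o), ← Finset.add_sum_erase _ _ hχmem, ha1] at hn
  rw [← Finset.add_sum_erase _ _ (Finset.mem_univ o), ← Finset.add_sum_erase _ _ hχmem, ha1, ho,
    hχ] at hdeg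
  set rest := ((Finset.univ : Finset ι).erase o).erase χ
  have hnn : 0 ≤ ∑ i ∈ rest, a i * a i := Finset.sum_nonneg fun i _ => mul_self_nonneg _
  have hs1 : a χ = 1 ∨ a χ = -1 := by
    have h1 : a χ ≤ 1 := by nlinarith
    have h2 : -1 ≤ a χ := by nlinarith
    omega
  have hsq : a χ * a χ = 1 := by rcases hs1 with h | h <;> rw [h] <;> norm_num
  obtain ⟨R, hR, hR1, hR0⟩ := exists_of_sum_sq_one rest a (by
    rw [Finset.sum_congr rfl fun i _ => sq (a i)]; omega)
  refine ⟨hs1, R, (Finset.mem_erase.1 (Finset.mem_erase.1 hR).2).1, (Finset.mem_erase.1 hR).1,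
    ?_, fun i h1 h2 h3 => hR0 i (Finset.mem_erase.2 ⟨h2, Finset.mem_erase.2 ⟨h1,
      Finset.mem_univ _⟩⟩) h3, ?_⟩
  · exact sq_eq_one_iff.1 hR1
  · rw [Finset.sum_eq_single R (fun i hi hiR => by rw [hR0 i hi hiR, zero_mul])
      (fun h => absurd hR h)] at hdeg
    linarith

/-- The comparison of two coefficient vectors. -/
theorem coefficient_other {ι : Type*} [Fintype ι] [DecidableEq ι] {o χ R : ι} (hoχ : o ≠ χ)
    (hRo : R ≠ o) (hRχ : R ≠ χ) (deg : ι → ℤ) (p : ℤ) (ho : deg o = 1) (hχ : deg χ = p)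
    (huniq : ∀ i, deg i = p → i = χ) (hpos : ∀ i, 0 < deg i) (hp : 0 < p)
    (a b : ι → ℤ) (ha1 : a o = -1) (hs : a χ = 1 ∨ a χ = -1) (ht : a R = 1 ∨ a R = -1)
    (hrest : ∀ i, i ≠ o → i ≠ χ → i ≠ R → a i = 0) (hR : a R * deg R = 1 - a χ * p)
    (hb1 : b o = -1) (hab : ∑ i, a i * b i = 2) (N : ℤ) (hN : N ≤ 4) (hn : ∑ i, b i * b i = N)
    (hdeg : ∑ i, b i * deg i = 0) :
    (b χ = a χ ∧ b R = 0) ∨ (N ≠ 3 ∧ b χ = 0) := by
  have hRmem : R ∈ ((Finset.univ : Finset ι).erase o).erase χ :=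
    Finset.mem_erase.2 ⟨hRχ, Finset.mem_erase.2 ⟨hRo, Finset.mem_univ _⟩⟩
  have hχmem : χ ∈ (Finset.univ : Finset ι).erase o :=
    Finset.mem_erase.2 ⟨hoχ.symm, Finset.mem_univ _⟩
  set rest := (((Finset.univ : Finset ι).erase o).erase χ).erase R
  rw [← Finset.add_sum_erase _ _ (Finset.mem_univ o), ← Finset.add_sum_erase _ _ hχmem,
    ← Finset.add_sum_erase _ _ hRmem] at hab hn hdeg
  rw [Finset.sum_eq_zero fun i hi => ?_, ha1, hb1] at hab
  swap
  · simp only [Finset.mem_erase, Finset.mem_univ, and_true] at hi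
    rw [hrest i hi.2.2 hi.2.1 hi.1, zero_mul]
  rw [hb1] at hn hdeg
  rw [ho, hχ] at hdeg
  have hnn : 0 ≤ ∑ i ∈ rest, b i * b i := Finset.sum_nonneg fun i _ => mul_self_nonneg _
  have h1 : b χ ≤ 1 := by nlinarith
  have h2 : -1 ≤ b χ := by nlinarith
  have h3 : b R ≤ 1 := by nlinarith
  have h4 : -1 ≤ b R := by nlinarith
  rcases (show b χ = 0 ∨ b χ = 1 ∨ b χ = -1 by omega) with hx | hx | hx
  rotate_left
  · left; rw [hx] at hab ⊢; rcases hs with h | h <;> rcases ht with h' | h' <;> rw [h, h'] at hab <;>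
      omega
  · left; rw [hx] at hab ⊢; rcases hs with h | h <;> rcases ht with h' | h' <;> rw [h, h'] at hab <;>
      omega
  refine Or.inr ⟨fun hN3 => ?_, hx⟩
  subst hN3
  have hy : b R = a R := by
    rw [hx] at hab
    rcases ht with h' | h' <;> rw [h'] at hab ⊢ <;> omega
  have hyy : b R * b R = 1 := by rw [hy]; rcases ht with h' | h' <;> rw [h'] <;> norm_num
  obtain ⟨Z, hZ, hZ1, hZ0⟩ := exists_of_sum_sq_one rest b (by
    rw [Finset.sum_congr rfl fun i _ => sq (b i)]; rw [hx] at hn; linarith)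
  rw [Finset.sum_eq_single Z (fun i hi hiR => by rw [hZ0 i hi hiR, zero_mul])
    (fun h => absurd hZ h), hy, hR, hx] at hdeg
  have hz : deg Z = p := by
    have := hpos Z
    rcases sq_eq_one_iff.1 hZ1 with h | h <;> rcases hs with h' | h' <;> rw [h, h'] at hdeg <;> omega
  have hZ' := Finset.mem_erase.1 (Finset.mem_erase.1 hZ).2
  exact hZ'.1 (huniq Z hz)

/-- The real character of degree `p + 1`. -/
theorem exists_real_char [Fintype G] (D : Datum p G) (h3 : 3 ≤ Nat.card D.L)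
    (huniq : ∃! χ : Cfsg.IrrCharacter G, Cfsg.charDegree (χ : G → ℂ) = p)
    (hNE : Nat.card (Subgroup.normalizer (D.L : Set G)) = 2 * Nat.card D.L)
    (hTI : ∀ g : G, g ∉ Subgroup.normalizer (D.L : Set G) →
      D.L ⊓ D.L.map (MulAut.conj g).toMonoidHom = ⊥) :
    ∃ (ζ : ℂ) (φ : Cfsg.IrrCharacter G), ζ ^ Nat.card D.L = 1 ∧ ζ ≠ ζ⁻¹ ∧
      (∀ g, conj (φ.1 g) = φ.1 g) ∧ φ.1 1 = (p : ℂ) + 1 ∧
      ∀ ν : ℂ, ν ^ Nat.card D.L = 1 →
        ∑ j ∈ Finset.range (Nat.card D.L), (ν⁻¹) ^ j * φ.1 (D.a ^ j) =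
          (Nat.card D.L : ℂ) *
            ((D.f + (if ν = ζ then 1 else 0) + (if ν = ζ⁻¹ then 1 else 0) : ℕ) : ℂ) := by
  classical
  obtain ⟨χ, hχ, hχu⟩ := huniq
  set E := D.L with hE
  set e := Nat.card E with he
  set a := D.a with ha
  have hcyc : IsCyclic E := (Subgroup.isCyclic_iff_exists_zpowers_eq_top E).2 ⟨a, D.a_gen⟩
  obtain ⟨t, c, htN, htE, hcoset, hta, hcc, hfixed⟩ :=
    exists_twist D.perfect E a D.a_gen hNE hTI
  have he0 : 0 < e := Nat.card_pos
  have he0' : (e : ℂ) ≠ 0 := Nat.cast_ne_zero.2 he0.ne'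
  have hao : orderOf a = e := card_L_eq D
  have sumE : ∀ F : G → ℂ, ∑ b : E, F b = ∑ j ∈ Finset.range e, F (a ^ j) := fun F => by
    convert sum_L D F using 2
  have hcomm : ∀ i j : ℕ, a ^ i * a ^ j = a ^ j * a ^ i := fun i j => by
    rw [← pow_add, ← pow_add, add_comm]
  have htj : ∀ j : ℕ, t * a ^ j * t⁻¹ = a ^ (c * j) := fun j => by
    rw [← conj_pow, hta, pow_mul]
  have hperiod : ∀ {ν : ℂ}, ν ^ e = 1 → ∀ {i j : ℕ}, i ≡ j [MOD e] → ν ^ i = ν ^ j :=
    fun hν _ _ h => pow_eq_pow_of_modEq h hν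
  -- the multiplicities
  choose m hm hmdeg hmdet using exists_mult D
  have hdegn : ∀ φ : Cfsg.IrrCharacter G,
      Cfsg.charDegree (φ : G → ℂ) = ∑ ν ∈ mu e, m φ ν := fun φ => H26.charDegree_eq (hmdeg φ)
  set o := H26.oneIrr G with ho
  have hmo : ∀ ν : ℂ, ν ^ e = 1 → m o ν = if ν = 1 then 1 else 0 := by
    intro ν hν
    have h := hm o ν hν
    simp only [ho, H26.oneIrr_val, mul_one] at h
    rw [sum_pow_eq (by rw [inv_pow, hν, inv_one])] at h
    simp only [inv_eq_one] at h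
    split_ifs at h ⊢ with h1
    · exact_mod_cast (mul_left_cancel₀ he0' ((mul_one _).trans h)).symm
    · exact_mod_cast (mul_eq_zero.1 h.symm).resolve_left he0'
  let A : ℂ → Cfsg.IrrCharacter G → ℤ := fun ν φ => (m φ ν : ℤ) - m φ 1
  -- the generalized characters
  let θ : ℂ → E → ℂ := fun ν b =>
    ν ^ Nat.find ((exists_pow_eq D b.2).imp fun j h => h.2 : ∃ j : ℕ, a ^ j = (b : G)) - 1
  have hθ : ∀ ν : ℂ, ν ^ e = 1 → ∀ (b : E) (j : ℕ), a ^ j = (b : G) → θ ν b = ν ^ j - 1 := by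
    intro ν hν b j hj
    have hex : ∃ j : ℕ, a ^ j = (b : G) := ⟨j, hj⟩
    have h := Nat.find_spec hex
    show ν ^ Nat.find _ - 1 = _
    rw [hperiod hν (i := Nat.find hex) (j := j)]
    have h' : a ^ Nat.find hex = a ^ j := h.trans hj.symm
    rw [pow_eq_pow_iff_modEq, hao] at h'
    exact h'
  let Γ : ℂ → G → ℂ := fun ν => Cfsg.indFun E (θ ν)
  have hΓcf : ∀ ν, Cfsg.IsClassFunction G (Γ ν) := fun ν => H68.isClassFunction_indFun E _
  have hΓinner : ∀ ν : ℂ, ν ^ e = 1 → ∀ φ : Cfsg.IrrCharacter G,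
      Cfsg.classInner (Γ ν) φ.1 = ((A ν φ : ℤ) : ℂ) := by
    intro ν hν φ
    have h1 : Cfsg.classInner φ.1 (Γ ν) = ((A ν φ : ℤ) : ℂ) := by
      rw [H68.classInner_indFun_right E (H26.irr_isClassFunction φ), Cfsg.classInner]
      rw [Finset.sum_congr rfl fun (b : E) _ => show φ.1 b * conj (θ ν b) =
          (fun g : G => φ.1 g * conj (if h : g ∈ E then θ ν ⟨g, h⟩ else 0)) b by
        simp [b.2], sumE fun g : G => φ.1 g * conj (if h : g ∈ E then θ ν ⟨g, h⟩ else 0)]
      have h2 : ∀ j, φ.1 (a ^ j) * conj (if h : a ^ j ∈ E then θ ν ⟨a ^ j, h⟩ else 0) =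
          (ν⁻¹) ^ j * φ.1 (a ^ j) - ((1 : ℂ)⁻¹) ^ j * φ.1 (a ^ j) := by
        intro j
        rw [dif_pos (pow_mem_L D j), hθ ν hν _ j rfl, map_sub, map_pow, map_one,
          conj_root he0.ne' hν, inv_one, one_pow]
        ring
      rw [Finset.sum_congr rfl fun j _ => h2 j, Finset.sum_sub_distrib, hm φ ν hν, hm φ 1 (one_pow _)]
      simp only [A, Int.cast_sub, Int.cast_natCast, ← hE, ← he]
      field_simp
    rw [H26.classInner_comm φ.1 (Γ ν), h1, map_intCast]
  have hΓE : ∀ ν : ℂ, ν ^ e = 1 → ∀ j : ℕ, Γ ν (a ^ j) = ν ^ j + ν ^ (c * j) - 2 := by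
    intro ν hν j
    show (Nat.card E : ℂ)⁻¹ * ∑ x : G, Cfsg.extendByZero E (θ ν) (x⁻¹ * a ^ j * x) = _
    by_cases hj1 : a ^ j = 1
    · rw [Finset.sum_eq_zero fun x _ => by
        rw [hj1, mul_one, inv_mul_cancel, H25.extendByZero_of_mem E _ E.one_mem,
          hθ ν hν _ 0 (pow_zero a), pow_zero, sub_self], mul_zero]
      rw [hperiod hν (i := j) (j := 0), hperiod hν (i := c * j) (j := 0), pow_zero]
      · norm_num
      · rw [← hao, ← pow_eq_pow_iff_modEq, pow_zero, mul_comm, pow_mul, hj1, one_pow]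
      · rw [← hao, ← pow_eq_pow_iff_modEq, pow_zero, hj1]
    have hN : ∀ x : G, x⁻¹ * a ^ j * x ∈ E → x ∈ Subgroup.normalizer (E : Set G) := by
      intro x hx
      by_contra hxN
      have hxi : x⁻¹ ∉ Subgroup.normalizer (E : Set G) := fun h =>
        hxN ((Subgroup.normalizer (E : Set G)).inv_mem_iff.1 h)
      have h : x⁻¹ * a ^ j * x ∈ E ⊓ E.map (MulAut.conj x⁻¹).toMonoidHom :=
        ⟨hx, a ^ j, pow_mem_L D j, by simp⟩
      rw [hTI _ hxi, Subgroup.mem_bot] at h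
      refine hj1 ?_
      calc a ^ j = x * (x⁻¹ * a ^ j * x) * x⁻¹ := by group
        _ = 1 := by rw [h]; group
    have hval1 : ∀ x ∈ E, Cfsg.extendByZero E (θ ν) (x⁻¹ * a ^ j * x) = ν ^ j - 1 := by
      intro x hx
      obtain ⟨i, -, rfl⟩ := exists_pow_eq D hx
      rw [mul_assoc, hcomm j i, inv_mul_cancel_left, H25.extendByZero_of_mem E _ (pow_mem_L D j),
        hθ ν hν _ j rfl]
    have hval2 : ∀ x, t⁻¹ * x ∈ E →
        Cfsg.extendByZero E (θ ν) (x⁻¹ * a ^ j * x) = ν ^ (c * j) - 1 := by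
      intro x hx
      obtain ⟨i, -, hi⟩ := exists_pow_eq D hx
      have h1 : t⁻¹ * a ^ j * t = a ^ (c * j) := by
        have h2 : t * a ^ (c * j) * t⁻¹ = a ^ j := by
          rw [htj, ← mul_assoc, pow_eq_pow_iff_modEq, hao]
          simpa only [one_mul] using hcc.mul_right j
        rw [← h2]; group
      have hxe : x = t * a ^ i := by rw [show a ^ i = t⁻¹ * x from hi]; group
      have h3 : x⁻¹ * a ^ j * x = a ^ (c * j) := by
        rw [hxe, show (t * a ^ i)⁻¹ * a ^ j * (t * a ^ i) = (a ^ i)⁻¹ * ((t⁻¹ * a ^ j * t) * a ^ i) by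
          group, h1, hcomm (c * j) i, inv_mul_cancel_left]
      rw [h3, H25.extendByZero_of_mem E _ (pow_mem_L D _), hθ ν hν _ (c * j) rfl]
    set s1 : Finset G := Finset.univ.filter fun x => x ∈ E
    set s2 : Finset G := Finset.univ.filter fun x => t⁻¹ * x ∈ E
    have hdisj : Disjoint s1 s2 := by
      refine Finset.disjoint_filter.2 fun x _ h1 h2 => htE ?_
      rw [show t = x * (t⁻¹ * x)⁻¹ by group]
      exact E.mul_mem h1 (E.inv_mem h2)
    have hs1 : s1.card = e := by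
      rw [he, Nat.card_eq_fintype_card, Fintype.card_subtype]
    have hs2 : s2.card = e := by
      rw [← hs1]
      refine Finset.card_bij' (fun x _ => t⁻¹ * x) (fun x _ => t * x) ?_ ?_ ?_ ?_ <;>
        intro x hx <;> simp_all [s1, s2]
    rw [← Finset.sum_subset (Finset.subset_univ (s1 ∪ s2)) ?_, Finset.sum_union hdisj,
      Finset.sum_congr rfl fun x hx => hval1 x (Finset.mem_filter.1 hx).2,
      Finset.sum_congr rfl fun x hx => hval2 x (Finset.mem_filter.1 hx).2,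
      Finset.sum_const, Finset.sum_const, hs1, hs2, nsmul_eq_mul, nsmul_eq_mul, ← mul_add,
      ← mul_assoc, ← he, inv_mul_cancel₀ he0', one_mul]
    · ring
    · intro x _ hx
      refine H25.extendByZero_of_notMem E _ fun h => hx ?_
      rcases hcoset x (hN x h) with h' | h'
      · exact Finset.mem_union_left _ (Finset.mem_filter.2 ⟨Finset.mem_univ _, h'⟩)
      · exact Finset.mem_union_right _ (Finset.mem_filter.2 ⟨Finset.mem_univ _, h'⟩)
  have hΓdot : ∀ ν μ : ℂ, ν ^ e = 1 → μ ^ e = 1 →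
      ((∑ φ, A ν φ * A μ φ : ℤ) : ℂ) = (e : ℂ)⁻¹ *
        ∑ j ∈ Finset.range e, (ν ^ j + ν ^ (c * j) - 2) * ((μ⁻¹) ^ j - 1) := by
    intro ν μ hν hμ
    have h := H26.classInner_eq_sum (Γ ν) (Γ μ) (hΓcf ν)
    simp only [hΓinner ν hν, hΓinner μ hμ, map_intCast] at h
    push_cast
    rw [← h, H68.classInner_indFun_right E (hΓcf ν), Cfsg.classInner]
    rw [Finset.sum_congr rfl fun (b : E) _ => show Γ ν b * conj (θ μ b) =
        (fun g : G => Γ ν g * conj (if h : g ∈ E then θ μ ⟨g, h⟩ else 0)) b by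
      simp [b.2], sumE fun g : G => Γ ν g * conj (if h : g ∈ E then θ μ ⟨g, h⟩ else 0)]
    congr 1
    refine Finset.sum_congr rfl fun j _ => ?_
    rw [dif_pos (pow_mem_L D j), hθ μ hμ _ j rfl, map_sub, map_pow, map_one,
      conj_root he0.ne' hμ, hΓE ν hν]
  have hdot : ∀ ν μ : ℂ, ν ^ e = 1 → μ ^ e = 1 → ν ≠ 1 → μ ≠ 1 →
      ∑ φ, A ν φ * A μ φ = (if ν = μ then 1 else 0) + (if ν ^ c = μ then 1 else 0) + 2 := by
    intro ν μ hν hμ hν1 hμ1
    have hμ0 : μ ≠ 0 := fun h => by rw [h, zero_pow he0.ne'] at hμ; exact zero_ne_one hμ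
    have hμi : (μ⁻¹) ^ e = 1 := by rw [inv_pow, hμ, inv_one]
    have hνc : (ν ^ c) ^ e = 1 := by rw [← pow_mul, mul_comm, pow_mul, hν, one_pow]
    have hνc1 : ν ^ c ≠ 1 := fun h => hν1 (by
      have h2 : ν ^ (c * c) = ν ^ 1 := hperiod hν hcc
      rw [pow_one, pow_mul, h, one_pow] at h2
      exact h2.symm)
    have h := hΓdot ν μ hν hμ
    rw [Finset.sum_congr rfl fun j _ => show (ν ^ j + ν ^ (c * j) - 2) * ((μ⁻¹) ^ j - 1) =
      (ν * μ⁻¹) ^ j + (ν ^ c * μ⁻¹) ^ j - ν ^ j - (ν ^ c) ^ j - 2 * (μ⁻¹) ^ j + 2 by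
      rw [mul_pow, mul_pow, pow_mul]; ring] at h
    simp only [Finset.sum_add_distrib, Finset.sum_sub_distrib, ← Finset.mul_sum, Finset.sum_const,
      Finset.card_range, nsmul_eq_mul, sum_pow_eq hν, sum_pow_eq hνc, sum_pow_eq hμi,
      sum_pow_eq (show (ν * μ⁻¹) ^ e = 1 by rw [mul_pow, hν, hμi, one_mul]),
      sum_pow_eq (show (ν ^ c * μ⁻¹) ^ e = 1 by rw [mul_pow, hνc, hμi, one_mul]),
      if_neg hν1, if_neg hνc1, if_neg (inv_ne_one.2 hμ1), mul_inv_eq_one₀ hμ0] at h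
    have h2 : ((∑ φ, A ν φ * A μ φ : ℤ) : ℂ) = (((if ν = μ then 1 else 0) +
        (if ν ^ c = μ then 1 else 0) + 2 : ℤ) : ℂ) := by
      rw [h]
      push_cast
      split_ifs <;> field_simp <;> ring
    exact_mod_cast h2
  have hdeg0 : ∀ ν : ℂ, ν ^ e = 1 → ∑ φ : Cfsg.IrrCharacter G,
      A ν φ * ((∑ μ ∈ mu e, m φ μ : ℕ) : ℤ) = 0 := by
    intro ν hν
    have h := congrFun (H26.class_function_expansion (Γ ν) (hΓcf ν)) 1
    rw [show Γ ν 1 = 0 by
      have := hΓE ν hν 0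
      rw [pow_zero, mul_zero, pow_zero] at this
      rw [this]; norm_num, Finset.sum_apply] at h
    simp only [Pi.smul_apply, smul_eq_mul, hΓinner ν hν, hmdeg] at h
    exact_mod_cast h.symm
  have hAo : ∀ ν : ℂ, ν ^ e = 1 → ν ≠ 1 → A ν o = -1 := by
    intro ν hν hν1
    simp only [A, hmo ν hν, hmo 1 (one_pow _), if_neg hν1, if_pos rfl]
    norm_num
  -- the action of `t` on multiplicities
  have hmc : ∀ (φ : Cfsg.IrrCharacter G) (ν : ℂ), ν ^ e = 1 → m φ (ν ^ c) = m φ ν := by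
    intro φ ν hν
    have hνc : (ν ^ c) ^ e = 1 := by rw [← pow_mul, mul_comm, pow_mul, hν, one_pow]
    have hinv : ∀ i, c * (c * i % e) % e = i % e := by
      intro i
      have h1 : c * (c * i % e) ≡ i [MOD e] :=
        ((Nat.mod_modEq _ _).mul_left c).trans (by simpa only [one_mul, mul_assoc] using hcc.mul_right i)
      exact h1
    have hkey : ∑ j ∈ Finset.range e, ((ν ^ c)⁻¹) ^ j * φ.1 (a ^ j) =
        ∑ j ∈ Finset.range e, (ν⁻¹) ^ j * φ.1 (a ^ j) := by
      refine Finset.sum_nbij' (fun j => c * j % e) (fun j => c * j % e) ?_ ?_ ?_ ?_ ?_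
      · exact fun j _ => Finset.mem_range.2 (Nat.mod_lt _ he0)
      · exact fun j _ => Finset.mem_range.2 (Nat.mod_lt _ he0)
      · exact fun j hj => (hinv j).trans (Nat.mod_eq_of_lt (Finset.mem_range.1 hj))
      · exact fun j hj => (hinv j).trans (Nat.mod_eq_of_lt (Finset.mem_range.1 hj))
      · intro j _
        have hpa : a ^ (c * j % e) = a ^ (c * j) := by rw [← hao, pow_mod_orderOf]
        rw [hpa, ← htj, H26.irr_conj, ← inv_pow, ← pow_mul,
          hperiod (by rw [inv_pow, hν, inv_one]) (Nat.mod_modEq (c * j) e)]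
    have h1 := hm φ (ν ^ c) hνc
    rw [← he, ← ha, hkey, hm φ ν hν] at h1
    exact_mod_cast (mul_left_cancel₀ he0' h1).symm
  -- fixed roots
  obtain ⟨ω, hω⟩ : ∃ ω : ℂ, IsPrimitiveRoot ω e := ⟨_, Complex.isPrimitiveRoot_exp e he0.ne'⟩
  have hfix : ∀ ν : ℂ, ν ^ e = 1 → ν ^ c = ν → ν * ν = 1 := by
    intro ν hν hνc
    have : NeZero e := ⟨he0.ne'⟩
    obtain ⟨j, -, rfl⟩ := hω.eq_pow_of_pow_eq_one hν
    rw [← pow_mul, (hω.isOfFinOrder he0.ne').pow_eq_pow_iff_modEq, ← hω.eq_orderOf, ← hao,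
      ← pow_eq_pow_iff_modEq, mul_comm,
      ← htj] at hνc
    have h2 := hfixed _ (pow_mem_L D j) hνc
    rw [← pow_add, ← pow_zero a, pow_eq_pow_iff_modEq, hao] at h2
    rw [← pow_add, ← pow_zero ω, (hω.isOfFinOrder he0.ne').pow_eq_pow_iff_modEq, ← hω.eq_orderOf]
    exact h2
  -- degrees
  let deg : Cfsg.IrrCharacter G → ℤ := fun φ => ((∑ μ ∈ mu e, m φ μ : ℕ) : ℤ)
  have hdego : deg o = 1 := by
    have h := hmdeg o
    rw [H26.oneIrr_val] at h
    simp only [deg]
    exact_mod_cast h.symm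
  have hdegχ : deg χ = (p : ℤ) := by
    simp only [deg]
    rw [← hdegn χ]
    exact_mod_cast hχ
  have hdegu : ∀ i, deg i = (p : ℤ) → i = χ := fun i hi => hχu i (by
    simp only [deg] at hi
    show Cfsg.charDegree (i : G → ℂ) = p
    rw [hdegn i]
    exact_mod_cast hi)
  have hdegp : ∀ i, 0 < deg i := fun i => by
    simp only [deg]
    rcases Nat.eq_zero_or_pos (∑ μ ∈ mu e, m i μ) with h | h
    · have := hmdeg i
      rw [h, Nat.cast_zero] at this
      exact absurd this (H26.irr_one_ne_zero i)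
    · exact_mod_cast h
  have hoχ : o ≠ χ := fun h => by
    rw [← h, hdego] at hdegχ
    have := hp.out.one_lt
    omega
  have hp0 : (0 : ℤ) < p := by exact_mod_cast hp.out.pos
  have h1mem : (1 : ℂ) ∈ mu e := (mem_mu he0).2 (one_pow _)
  -- some pair meets `χ`
  have hpair : ∃ ν : ℂ, ν ^ e = 1 ∧ ν ^ c ≠ ν ∧ A ν χ ≠ 0 := by
    by_contra hcon
    push Not at hcon
    set m1 := m χ 1 with hm1
    have hall : ∀ ν ∈ mu e, ν ≠ -1 → m χ ν = m1 := by
      intro ν hν hν1
      rcases eq_or_ne ν 1 with rfl | hν0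
      · rfl
      have hνe := (mem_mu he0).1 hν
      have hne : ν ^ c ≠ ν := fun h => by
        rcases mul_self_eq_one_iff.1 (hfix ν hνe h) with h' | h'
        · exact hν0 h'
        · exact hν1 h'
      have := hcon ν hνe hne
      simp only [A, hm1] at this ⊢
      omega
    by_cases hneg : (-1 : ℂ) ∈ mu e
    · have heven : Even e := by
        rcases Nat.even_or_odd e with h | h
        · exact h
        · have := (mem_mu he0).1 hneg
          rw [h.neg_one_pow] at this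
          norm_num at this
      set mσ := m χ (-1) with hmσ
      have hsum : p = (e - 1) * m1 + mσ := by
        rw [← hχ, hdegn χ, ← Finset.sum_erase_add _ _ hneg, Finset.sum_congr rfl fun ν hν =>
          hall ν (Finset.mem_erase.1 hν).2 (Finset.mem_erase.1 hν).1, Finset.sum_const,
          Finset.card_erase_of_mem hneg, card_mu he0, smul_eq_mul]
      have hprod : ∏ ν ∈ (mu e).erase (-1), ν = 1 := by
        refine Finset.prod_involution (fun ν _ => ν⁻¹) (fun ν hν => ?_) (fun ν hν h1 => ?_)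
          (fun ν hν => ?_) (fun ν _ => inv_inv ν)
        · refine mul_inv_cancel₀ fun h => ?_
          have := (mem_mu he0).1 (Finset.mem_erase.1 hν).2
          rw [h, zero_pow he0.ne'] at this
          exact zero_ne_one this
        · intro h
          have hν0 : ν ≠ 0 := fun h0 => by
            have := (mem_mu he0).1 (Finset.mem_erase.1 hν).2
            rw [h0, zero_pow he0.ne'] at this
            exact zero_ne_one this
          rcases mul_self_eq_one_iff.1 (show ν * ν = 1 by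
            conv_lhs => arg 1; rw [← h]
            exact inv_mul_cancel₀ hν0) with h' | h'
          · exact h1 h'
          · exact (Finset.mem_erase.1 hν).1 h'
        · refine Finset.mem_erase.2 ⟨fun h => (Finset.mem_erase.1 hν).1 ?_, (mem_mu he0).2 ?_⟩
          · rw [← inv_inv ν, h, inv_neg, inv_one]
          · rw [inv_pow, (mem_mu he0).1 (Finset.mem_erase.1 hν).2, inv_one]
      have hev : Even mσ := by
        have h := hmdet χ
        rw [← he, ← Finset.prod_erase_mul _ _ hneg, Finset.prod_congr rfl fun ν hν => by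
            rw [hall ν (Finset.mem_erase.1 hν).2 (Finset.mem_erase.1 hν).1],
          Finset.prod_pow, hprod, one_pow, one_mul] at h
        exact (neg_one_pow_eq_one_iff_even (by norm_num)).1 h
      -- the coefficient at `-1`
      have hne1 : (-1 : ℂ) ≠ 1 := by norm_num
      have hν := (mem_mu he0).1 hneg
      have hnorm := hdot (-1) (-1) hν hν hne1 hne1
      rw [if_pos rfl] at hnorm
      have hle : A (-1) χ * A (-1) χ ≤ 3 := by
        have h2 : ∑ φ ∈ ({o, χ} : Finset (Cfsg.IrrCharacter G)), A (-1) φ * A (-1) φ ≤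
            ∑ φ, A (-1) φ * A (-1) φ :=
          Finset.sum_le_univ_sum_of_nonneg (fun φ => mul_self_nonneg _)
        rw [Finset.sum_pair hoχ, hnorm, hAo (-1) hν hne1] at h2
        split_ifs at h2 <;> linarith
      have hx1 : A (-1) χ ≤ 1 := by nlinarith
      have hx2 : -1 ≤ A (-1) χ := by nlinarith
      simp only [A, ← hm1, ← hmσ] at hx1 hx2
      obtain ⟨r, hr⟩ := heven
      obtain ⟨r', hr'⟩ := hev
      obtain ⟨r'', hr''⟩ := D.even_f
      have hpf : p = e * D.f + 1 := D.card_eq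
      -- compare
      obtain ⟨q, rfl⟩ : ∃ q, r = q + 1 := ⟨r - 1, by omega⟩
      rw [hr, show q + 1 + (q + 1) - 1 = 2 * q + 1 by omega] at hsum
      rw [hr] at hpf h3
      rcases lt_trichotomy m1 D.f with hlt | heq | hgt
      · have hmul := Nat.mul_le_mul_left (q + 1 + (q + 1)) (Nat.succ_le_of_lt hlt)
        rw [Nat.mul_succ] at hmul
        have : (2 * q + 1) * m1 + m1 = (q + 1 + (q + 1)) * m1 := by ring
        omega
      · have : (2 * q + 1) * m1 + m1 = (q + 1 + (q + 1)) * m1 := by ring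
        rw [heq] at hsum this
        omega
      · have hmul := Nat.mul_le_mul_left (q + 1 + (q + 1)) (Nat.succ_le_of_lt hgt)
        rw [Nat.mul_succ] at hmul
        have : (2 * q + 1) * m1 + m1 = (q + 1 + (q + 1)) * m1 := by ring
        omega
    · have hsum : p = e * m1 := by
        rw [← hχ, hdegn χ, Finset.sum_congr rfl fun ν hν => hall ν hν fun h => hneg (h ▸ hν),
          Finset.sum_const, card_mu he0, smul_eq_mul]
      have h1 : e ∣ p := ⟨m1, hsum⟩
      rcases (Nat.dvd_prime hp.out).1 h1 with h | h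
      · omega
      · exact D.not_dvd (dvd_of_eq h.symm)
  -- one step
  have step : ∀ l : ℂ, l ^ e = 1 → l ^ c ≠ l → A l χ ≠ 0 →
      (A l χ = 1 ∨ A l χ = -1) ∧ (∀ ν : ℂ, ν ^ e = 1 → ν ≠ 1 → A ν χ = A l χ) ∧
      ∃ R, R ≠ o ∧ R ≠ χ ∧ (A l R = 1 ∨ A l R = -1) ∧
        A l R * deg R = 1 - A l χ * p ∧ (∀ i, i ≠ o → i ≠ χ → i ≠ R → A l i = 0) ∧
        ∀ ν : ℂ, ν ^ e = 1 → ν ≠ 1 → ν ≠ l → ν ≠ l ^ c → A ν R = 0 := by
    intro l hl hlc hls
    have hl1 : l ≠ 1 := fun h => hlc (by rw [h, one_pow])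
    have hn := hdot l l hl hl hl1 hl1
    rw [if_pos rfl, if_neg hlc] at hn
    obtain ⟨hs, R, hRo, hRχ, ht, hrest, hR⟩ := coefficient_step hoχ deg p hdego hdegχ (A l)
      (hAo l hl hl1) (by rw [hn]; norm_num) (hdeg0 l hl) hls
    have hother : ∀ ν : ℂ, ν ^ e = 1 → ν ≠ 1 → ν ≠ l → ν ≠ l ^ c →
        (A ν χ = A l χ ∧ A ν R = 0) ∨ (ν ^ c = ν ∧ A ν χ = 0) := by
      intro ν hν hν1 hνl hνlc
      have hab := hdot l ν hl hν hl1 hν1
      rw [if_neg (Ne.symm hνl), if_neg (Ne.symm hνlc)] at hab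
      rcases coefficient_other hoχ hRo hRχ deg p hdego hdegχ hdegu hdegp hp0 (A l) (A ν)
        (hAo l hl hl1) hs ht hrest hR (hAo ν hν hν1) (by rw [hab]; norm_num)
        ((if ν ^ c = ν then 1 else 0) + 3) (by split_ifs <;> norm_num)
        (by rw [hdot ν ν hν hν hν1 hν1, if_pos rfl]; ring) (hdeg0 ν hν) with h | ⟨h, h'⟩
      · exact Or.inl h
      · refine Or.inr ⟨?_, h'⟩
        by_contra hne
        rw [if_neg hne] at h
        exact h (by norm_num)
    have hall : ∀ ν : ℂ, ν ^ e = 1 → ν ≠ 1 → ν ^ c ≠ ν → A ν χ = A l χ := by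
      intro ν hν hν1 hνc
      by_cases h1 : ν = l
      · rw [h1]
      by_cases h2 : ν = l ^ c
      · show (m χ ν : ℤ) - m χ 1 = _
        rw [h2, hmc χ l hl]
      exact ((hother ν hν hν1 h1 h2).resolve_right fun h => hνc h.1).1
    -- the fixed root
    have hfixed_root : ∀ ν : ℂ, ν ^ e = 1 → ν ≠ 1 → ν ^ c = ν → A ν χ = A l χ := by
      intro ν hν hν1 hνc
      have hν2 : ν = -1 := (mul_self_eq_one_iff.1 (hfix ν hν hνc)).resolve_left hν1
      have h1 : ν ≠ l := fun h => hlc (h ▸ hνc)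
      have h2 : ν ≠ l ^ c := fun h => h1 (by
        rw [← hνc, h, ← pow_mul, hperiod hl hcc, pow_one])
      rcases hother ν hν hν1 h1 h2 with h | ⟨-, h0⟩
      · exact h.1
      exfalso
      set s := A l χ with hs'
      have heven : Even e := by
        rcases Nat.even_or_odd e with h | h
        · exact h
        · rw [hν2, h.neg_one_pow] at hν; norm_num at hν
      have hsum : (p : ℤ) = (e : ℤ) * m χ 1 + s * ((e : ℤ) - 2) := by
        rw [← hdegχ]
        simp only [deg]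
        push_cast
        have hmem : ν ∈ (mu e).erase 1 := Finset.mem_erase.2 ⟨hν1, (mem_mu he0).2 hν⟩
        have hcard : ((((mu e).erase 1).erase ν).card : ℤ) = (e : ℤ) - 2 := by
          rw [Finset.card_erase_of_mem hmem, Finset.card_erase_of_mem h1mem, card_mu he0]
          omega
        rw [← Finset.add_sum_erase _ _ h1mem, ← Finset.add_sum_erase _ _ hmem,
          Finset.sum_congr rfl fun μ hμ => show (m χ μ : ℤ) = m χ 1 + s by
            simp only [Finset.mem_erase] at hμ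
            have hμe := (mem_mu he0).1 hμ.2.2
            have := hall μ hμe hμ.2.1 fun h => hμ.1 (by
              rw [hν2, (mul_self_eq_one_iff.1 (hfix μ hμe h)).resolve_left hμ.2.1])
            simp only [A] at this
            omega,
          Finset.sum_const, nsmul_eq_mul, hcard, show (m χ ν : ℤ) = m χ 1 by
            simp only [A] at h0; omega]
        ring
      have hdvd : (e : ℤ) ∣ 1 + 2 * s := by
        refine ⟨(m χ 1 : ℤ) + s - (D.f : ℤ), ?_⟩
        have hpf : (p : ℤ) = (e : ℤ) * D.f + 1 := by exact_mod_cast D.card_eq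
        linear_combination hsum - hpf
      obtain ⟨r, hr⟩ := heven
      rcases hs with h | h <;> rw [h] at hdvd
      · have := Int.le_of_dvd (by norm_num) hdvd; omega
      · have h' : (e : ℤ) ∣ 1 := by
          rw [← dvd_neg]; simpa using hdvd
        have := Int.le_of_dvd (by norm_num) h'; omega
    have hall' : ∀ ν : ℂ, ν ^ e = 1 → ν ≠ 1 → A ν χ = A l χ := fun ν hν hν1 => by
      by_cases h : ν ^ c = ν
      · exact hfixed_root ν hν hν1 h
      · exact hall ν hν hν1 h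
    refine ⟨hs, hall', R, hRo, hRχ, ht, hR, hrest, fun ν hν hν1 h1 h2 => ?_⟩
    rcases hother ν hν hν1 h1 h2 with h | ⟨-, h⟩
    · exact h.2
    · rw [hall' ν hν hν1] at h
      rcases hs with h' | h' <;> rw [h'] at h <;> norm_num at h
  -- the sign
  obtain ⟨l₀, hl₀, hl₀c, hl₀s⟩ := hpair
  obtain ⟨hs, hall, -⟩ := step l₀ hl₀ hl₀c hl₀s
  have hsval : ∀ ν : ℂ, ν ^ e = 1 → ν ≠ 1 → A ν χ = -1 := by
    intro ν hν hν1
    rw [hall ν hν hν1]
    refine hs.resolve_left fun h1 => ?_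
    have hsum : (p : ℤ) = (e : ℤ) * m χ 1 + ((e : ℤ) - 1) := by
      rw [← hdegχ]
      simp only [deg]
      push_cast
      rw [← Finset.add_sum_erase _ _ h1mem, Finset.sum_congr rfl fun μ hμ =>
        show (m χ μ : ℤ) = m χ 1 + 1 by
          have := hall μ ((mem_mu he0).1 (Finset.mem_erase.1 hμ).2) (Finset.mem_erase.1 hμ).1
          rw [h1] at this
          simp only [A] at this
          omega,
        Finset.sum_const, nsmul_eq_mul, Finset.card_erase_of_mem h1mem, card_mu he0,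
        Nat.cast_sub (show 1 ≤ e by omega)]
      push_cast
      ring
    have hdvd : (e : ℤ) ∣ 2 := by
      refine ⟨(m χ 1 : ℤ) + 1 - (D.f : ℤ), ?_⟩
      have hpf : (p : ℤ) = (e : ℤ) * D.f + 1 := by exact_mod_cast D.card_eq
      linear_combination hsum - hpf
    have := Int.le_of_dvd (by norm_num) hdvd
    omega
  -- the root of order at least three inverted by `c`
  obtain ⟨ζ, hζe, hζc, hζ2⟩ : ∃ ζ : ℂ, ζ ^ e = 1 ∧ ζ ^ (c + 1) = 1 ∧ ζ ^ 2 ≠ 1 := by
    set d := Nat.gcd e (c + 1) with hd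
    obtain ⟨r, hr⟩ := Nat.gcd_dvd_left e (c + 1)
    rw [← hd] at hr
    have hd0 : 0 < d := Nat.gcd_pos_of_pos_left _ he0
    have hd3 : 3 ≤ d := by
      have h1 : t * a ^ (c + 1) * t⁻¹ = a ^ (c + 1) := by
        rw [htj, pow_eq_pow_iff_modEq, hao, Nat.mul_succ]
        exact (hcc.add_right c).trans (by rw [add_comm])
      have h2 := hfixed _ (pow_mem_L D _) h1
      rw [← pow_add, ← two_mul] at h2
      have h3' : e ∣ 2 * (c + 1) := hao ▸ orderOf_dvd_of_pow_eq_one h2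
      have h4 : e ∣ 2 * d := by
        rw [hd, ← Nat.gcd_mul_left]; exact Nat.dvd_gcd (dvd_mul_left e 2) h3'
      have h5 := Nat.le_of_dvd (by omega) h4
      by_contra hcon
      have hde : d ≤ 2 := by omega
      have he4 : e = 4 := by
        rcases (show e = 3 ∨ e = 4 by omega) with h | h
        · exfalso
          have h6 : 3 ∣ d := by
            rw [h] at h4
            exact (Nat.Coprime.dvd_of_dvd_mul_left (by norm_num) h4)
          have := Nat.le_of_dvd hd0 h6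
          omega
        · exact h
      have hd2 : d = 2 := by omega
      have hc2 : (c + 1) % 4 = 2 := by
        have h6 : d ∣ c + 1 := Nat.gcd_dvd_right _ _
        have h7 : ¬ 4 ∣ c + 1 := fun h => by
          have : 4 ∣ d := Nat.dvd_gcd (by rw [he4]) h
          rw [hd2] at this
          norm_num at this
        rw [hd2] at h6
        omega
      have h8 : t * a * t⁻¹ = a := by
        rw [hta]
        conv_rhs => rw [← pow_one a]
        rw [pow_eq_pow_iff_modEq, hao, he4]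
        show c % 4 = 1 % 4
        omega
      have h9 := hfixed a (by simpa using pow_mem_L D 1) h8
      rw [← sq] at h9
      have := Nat.le_of_dvd two_pos (hao ▸ orderOf_dvd_of_pow_eq_one h9)
      omega
    obtain ⟨ζ, hζ⟩ : ∃ ζ : ℂ, IsPrimitiveRoot ζ d := ⟨_, Complex.isPrimitiveRoot_exp d hd0.ne'⟩
    refine ⟨ζ, (hζ.pow_eq_one_iff_dvd e).2 (Nat.gcd_dvd_left _ _),
      (hζ.pow_eq_one_iff_dvd _).2 (Nat.gcd_dvd_right _ _), fun h => ?_⟩
    have := Nat.le_of_dvd two_pos ((hζ.pow_eq_one_iff_dvd 2).1 h)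
    omega
  have hζ0 : ζ ≠ 0 := fun h => by rw [h, zero_pow he0.ne'] at hζe; exact zero_ne_one hζe
  have hζinv : ζ⁻¹ = ζ ^ c := by
    rw [pow_succ] at hζc
    exact inv_eq_of_mul_eq_one_left hζc
  have hζne : ζ ≠ ζ⁻¹ := fun h => hζ2 (by
    rw [sq]; conv_lhs => arg 2; rw [h]
    exact mul_inv_cancel₀ hζ0)
  have hζ1 : ζ ≠ 1 := fun h => hζ2 (by rw [h, one_pow])
  have hζc' : ζ ^ c ≠ ζ := fun h => hζne (hζinv.trans h).symm
  have hζs := hsval ζ hζe hζ1
  obtain ⟨-, -, R, hRo, hRχ, ht, hR, hrest, hRother⟩ :=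
    step ζ hζe hζc' (by rw [hζs]; norm_num)
  rw [hζs] at hR
  have hRpos := hdegp R
  have ht1 : A ζ R = 1 := ht.resolve_right fun h => by rw [h] at hR; omega
  rw [ht1] at hR
  have hRdeg : deg R = (p : ℤ) + 1 := by linarith
  -- multiplicities of `R`
  have hRm : ∀ ν : ℂ, ν ^ e = 1 → (m R ν : ℤ) = m R 1 + (if ν = ζ then 1 else 0) +
      (if ν = ζ⁻¹ then 1 else 0) := by
    intro ν hν
    rcases eq_or_ne ν 1 with rfl | hν1
    · rw [if_neg hζ1.symm, if_neg (fun h => hζ1 (inv_eq_one.1 h.symm))]; ring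
    by_cases h1 : ν = ζ
    · subst h1
      rw [if_pos rfl, if_neg hζne]
      simp only [A] at ht1
      omega
    by_cases h2 : ν = ζ⁻¹
    · subst h2
      rw [if_neg h1, if_pos rfl, hζinv, hmc R ζ hζe]
      simp only [A] at ht1
      omega
    rw [if_neg h1, if_neg h2]
    have := hRother ν hν hν1 h1 (hζinv ▸ h2)
    simp only [A] at this
    omega
  have hm1f : m R 1 = D.f := by
    have h := hRdeg
    simp only [deg] at h
    push_cast at h
    rw [Finset.sum_congr rfl fun ν hν => hRm ν ((mem_mu he0).1 hν), Finset.sum_add_distrib,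
      Finset.sum_add_distrib, Finset.sum_const, card_mu he0, nsmul_eq_mul, Finset.sum_ite_eq',
      Finset.sum_ite_eq', if_pos ((mem_mu he0).2 hζe),
      if_pos ((mem_mu he0).2 (by rw [inv_pow, hζe, inv_one]))] at h
    have hpf : (p : ℤ) = (e : ℤ) * D.f + 1 := by exact_mod_cast D.card_eq
    have h2 : (e : ℤ) * m R 1 = (e : ℤ) * D.f := by linarith
    exact_mod_cast mul_left_cancel₀ (by exact_mod_cast he0.ne') h2
  refine ⟨ζ, R, hζe, hζne, ?_, ?_, fun ν hν => ?_⟩
  · -- reality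
    have hconj : ∀ ν : ℂ, ν ^ e = 1 → m (H26.conjIrr R) ν = m R ν⁻¹ := by
      intro ν hν
      have hνi : (ν⁻¹) ^ e = 1 := by rw [inv_pow, hν, inv_one]
      have h1 := hm (H26.conjIrr R) ν hν
      have h2 := congrArg conj (hm R ν⁻¹ hνi)
      rw [map_mul, map_natCast, map_natCast, map_sum] at h2
      rw [← Finset.sum_congr rfl fun j _ => show conj ((ν⁻¹)⁻¹ ^ j * R.1 (D.a ^ j)) =
          (ν⁻¹) ^ j * (H26.conjIrr R).1 (D.a ^ j) by
        rw [inv_inv, map_mul, map_pow, conj_root he0.ne' hν, H26.conjIrr_val], h2] at h1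
      exact_mod_cast (mul_left_cancel₀ he0' h1).symm
    have hA : A ζ (H26.conjIrr R) = 1 := by
      rw [← ht1]
      simp only [A, hconj ζ hζe, hconj 1 (one_pow _), inv_one, hζinv, hmc R ζ hζe]
    have hdegc : deg (H26.conjIrr R) = (p : ℤ) + 1 := by
      have h1 := hmdeg (H26.conjIrr R)
      rw [H26.conjIrr_val, hmdeg R, map_natCast] at h1
      rw [← hRdeg]
      simp only [deg]
      exact_mod_cast h1.symm
    have heq : H26.conjIrr R = R := by
      by_contra hne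
      have h := hrest (H26.conjIrr R) (fun h => by
        rw [h, hdego] at hdegc; omega) (fun h => by rw [h, hdegχ] at hdegc; omega) hne
      rw [hA] at h
      exact one_ne_zero h
    intro g
    rw [← H26.conjIrr_val, heq]
  · have h := hmdeg R
    rw [h]
    have h' := hRdeg
    simp only [deg] at h'
    exact_mod_cast congrArg (fun z : ℤ => (z : ℂ)) h'
  · rw [hm R ν hν]
    congr 2
    have h := hRm ν hν
    rw [hm1f] at h
    split_ifs at h ⊢ <;> omega

end Cfsg.Agent.H42.PrimeDegree
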