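import Mathlib
import Cfsg.Agent.H42.PrimeDegree.Perm
import Cfsg.Agent.H42.PrimeDegree.TI
import Cfsg.Agent.H42.PrimeDegree.Eigen
import Cfsg.Agent.H31.Defect.Field
import Cfsg.Agent.H44.SmallDimension
import Cfsg.Agent.H43.D1.SmallDegree
import Cfsg.Agent.H26.CharReal
import Cfsg.Agent.H26.CharFS

/-!
# Reduction of the real character of degree `p + 1`
-/

set_option autoImplicit false
set_option maxHeartbeats 1000000
set_option linter.unusedSectionVars false

namespace Cfsg.Agent.H42.PrimeDegree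

open scoped ComplexConjugate Matrix
open Module IsLocalRing Cfsg.Agent.H43.D1

attribute [local instance] Fintype.ofFinite Classical.propDecidable

variable {p : ℕ} [hp : Fact p.Prime] {G : Type*} [Group G] [Finite G]

/-- Roots of unity are units of a valuation subring. -/
theorem root_mem (O : ValuationSubring ℂ) {n : ℕ} (hn : n ≠ 0) {ν : ℂ} (hν : ν ^ n = 1) : ν ∈ O := by
  rw [← O.valuation_le_one_iff]
  refine le_of_eq ((pow_eq_one_iff.1 ?_).resolve_right hn)
  rw [← map_pow, hν, map_one]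

/-- Residues of roots of unity of order prime to `p` stay primitive. -/
theorem residue_isPrimitiveRoot (O : ValuationSubring ℂ) (hO : (p : O) ∈ maximalIdeal O) {n : ℕ}
    (hn : ¬ p ∣ n) {w : O} (hw : IsPrimitiveRoot (w : ℂ) n) :
    IsPrimitiveRoot (residue O w) n := by
  have hcp : CharP (ResidueField O) p := (CharP.charP_iff_prime_eq_zero hp.out).2 (by
    rw [← map_natCast (residue O), residue_eq_zero_iff]; exact hO)
  refine ⟨?_, fun j hj => ?_⟩
  · rw [← map_pow, ← map_one (residue O)]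
    exact congrArg (residue O) (Subtype.ext (by simpa using hw.pow_eq_one))
  by_contra hnd
  have hne : (w : ℂ) ^ j ≠ 1 := fun h => hnd (hw.dvd_of_pow_eq_one j h)
  have hsum : ∑ i ∈ Finset.range n, (w ^ j) ^ i = 0 := by
    refine Subtype.ext ?_
    push_cast
    rw [geom_sum_eq hne, ← pow_mul, mul_comm, pow_mul, hw.pow_eq_one, one_pow, sub_self, zero_div]
  have h := congrArg (residue O) hsum
  simp only [map_sum, map_pow, hj, one_pow, map_zero, Finset.sum_const, Finset.card_range,
    nsmul_eq_mul, mul_one] at h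
  exact hn ((CharP.cast_eq_zero_iff (ResidueField O) p n).1 h)

/-- The modular representation of degree `p + 1` with an invariant form. -/
theorem exists_modular [Fintype G] (D : Datum p G) (h3 : 3 ≤ Nat.card D.L) {ζ : ℂ} {φ : Cfsg.IrrCharacter G}
    (hζ : ζ ^ Nat.card D.L = 1) (hζne : ζ ≠ ζ⁻¹) (hreal : ∀ g, conj (φ.1 g) = φ.1 g)
    (hdeg : φ.1 1 = (p : ℂ) + 1)
    (hmult : ∀ ν : ℂ, ν ^ Nat.card D.L = 1 →
        ∑ j ∈ Finset.range (Nat.card D.L), (ν⁻¹) ^ j * φ.1 (D.a ^ j) =
          (Nat.card D.L : ℂ) *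
            ((D.f + (if ν = ζ then 1 else 0) + (if ν = ζ⁻¹ then 1 else 0) : ℕ) : ℂ)) :
    ∃ (k : Type) (_ : Field k) (_ : IsAlgClosed k) (_ : CharP k p)
      (ρ : G →* Module.End k (Fin (p + 1) → k)) (l : k)
      (B : (Fin (p + 1) → k) →ₗ[k] (Fin (p + 1) → k) →ₗ[k] k),
      Function.Injective ρ ∧ l ^ Nat.card D.L = 1 ∧ l * l ≠ 1 ∧
      (∀ ν : k, ν ^ Nat.card D.L = 1 → finrank k (Module.End.eigenspace (ρ D.a) ν) =
        D.f + (if ν = l then 1 else 0) + (if ν = l⁻¹ then 1 else 0)) ∧
      B ≠ 0 ∧ ∀ g v w, B (ρ g v) (ρ g w) = B v w := by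
  classical
  set e := Nat.card D.L with he
  have he0 : 0 < e := Nat.card_pos
  have he3 : 3 ≤ e := h3
  obtain ⟨n, ρ₀, hρ₀, hc⟩ := φ.2
  obtain rfl : n = p + 1 := by
    have h := hdeg
    rw [← hc, ρ₀.char_one, finrank_fin_fun] at h
    exact_mod_cast h
  obtain ⟨O, hO⟩ := H44.exists_valuationSubring_natCast_mem p
  obtain ⟨R, X, hX⟩ := H31.Defect.exists_lattice O (H26.matHom ρ₀)
  have hAC := isAlgClosed_residueField O
  have hcp : CharP (ResidueField O) p := (CharP.charP_iff_prime_eq_zero hp.out).2 (by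
    rw [← map_natCast (residue O), residue_eq_zero_iff]; exact hO)
  set Q : G →* Matrix (Fin (p + 1)) (Fin (p + 1)) ℂ :=
    (H31.Defect.toK O (Fin (p + 1))).toMonoidHom.comp R with hQ
  have hQtr : ∀ g, ((R g).trace : ℂ) = φ.1 g := by
    intro g
    have h1 : H31.Defect.toK O (Fin (p + 1)) (R g) =
        (↑X⁻¹ : Matrix (Fin (p + 1)) (Fin (p + 1)) ℂ) * H26.matHom ρ₀ g *
          (X : Matrix (Fin (p + 1)) (Fin (p + 1)) ℂ) := by
      rw [mul_assoc, ← hX, Units.inv_mul_cancel_left]
    have h2 := congrArg Matrix.trace h1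
    rw [Matrix.trace_mul_comm, Units.mul_inv_cancel_left, H26.trace_matHom] at h2
    rw [← hc, ← show LinearMap.trace ℂ _ (ρ₀ g) = ρ₀.character g from rfl, ← h2]
    simp [H31.Defect.toK, Matrix.trace]
  set σ : G →* Module.End (ResidueField O) (Fin (p + 1) → ResidueField O) :=
    Matrix.toLinAlgEquiv'.toMonoidHom.comp ((H31.Defect.red O (Fin (p + 1))).toMonoidHom.comp R) with hσ
  have hσtr : ∀ g, LinearMap.trace (ResidueField O) _ (σ g) = residue O (R g).trace := by
    intro g
    rw [show σ g = Matrix.toLin' (H31.Defect.red O (Fin (p + 1)) (R g)) from rfl,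
      Matrix.trace_toLin'_eq]
    simp [H31.Defect.red, Matrix.trace]
  -- roots
  obtain ⟨ω, hω⟩ : ∃ ω : ℂ, IsPrimitiveRoot ω e := ⟨_, Complex.isPrimitiveRoot_exp e he0.ne'⟩
  set w : O := ⟨ω, root_mem O he0.ne' hω.pow_eq_one⟩ with hw
  have hwk : IsPrimitiveRoot (residue O w) e :=
    residue_isPrimitiveRoot O hO D.not_dvd (show IsPrimitiveRoot (w : ℂ) e from hω)
  have : NeZero e := ⟨he0.ne'⟩
  obtain ⟨r, hr, hrζ⟩ := hω.eq_pow_of_pow_eq_one hζ
  set l := residue O w ^ r with hl
  have hw1 : w ^ e = 1 := Subtype.ext (by simpa using hω.pow_eq_one)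
  have hroot : ∀ i j : ℕ, ω ^ i = ω ^ j ↔ residue O w ^ i = residue O w ^ j := by
    intro i j
    rw [(hω.isOfFinOrder he0.ne').pow_eq_pow_iff_modEq, ← hω.eq_orderOf,
      (hwk.isOfFinOrder he0.ne').pow_eq_pow_iff_modEq, ← hwk.eq_orderOf]
  have hsolve : ∀ i : ℕ, (ω ^ i = ζ ↔ residue O w ^ i = l) ∧
      (ω ^ i = ζ⁻¹ ↔ residue O w ^ i = l⁻¹) := by
    intro i
    refine ⟨by rw [← hrζ, hl]; exact hroot i r, ?_⟩
    have h1 : ∀ (K : Type) [Field K] (x : K), x ^ e = 1 → (x ^ r)⁻¹ = x ^ ((e - 1) * r) := by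
      intro K _ x hx
      refine inv_eq_of_mul_eq_one_left ?_
      rw [← pow_add, ← Nat.succ_mul, show Nat.succ (e - 1) = e by omega, pow_mul, hx, one_pow]
    rw [← hrζ, hl, h1 ℂ ω hω.pow_eq_one, h1 _ (residue O w) hwk.pow_eq_one]
    exact hroot i _
  have hl2 : l * l ≠ 1 := by
    intro h
    refine hζne ?_
    have h1 : ω ^ r = ζ⁻¹ := (hsolve r).2.2 (by
      rw [← hl]; exact eq_inv_of_mul_eq_one_left h)
    rw [← h1, hrζ]
  -- multiplicities
  have hmk : ∀ ν : ResidueField O, ν ^ e = 1 →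
      finrank (ResidueField O) (Module.End.eigenspace (σ D.a) ν) =
        D.f + (if ν = l then 1 else 0) + (if ν = l⁻¹ then 1 else 0) := by
    intro ν hν
    obtain ⟨i, -, rfl⟩ := hwk.eq_pow_of_pow_eq_one hν
    set N := D.f + (if residue O w ^ i = l then 1 else 0) +
      (if residue O w ^ i = l⁻¹ then 1 else 0) with hN
    have hek : (e : ResidueField O) ≠ 0 := fun h =>
      D.not_dvd ((CharP.cast_eq_zero_iff (ResidueField O) p e).1 h)
    have hA : (σ D.a) ^ e = 1 := by
      rw [← map_pow, he, ← D.a_gen, Nat.card_zpowers, pow_orderOf_eq_one, map_one]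
    have hinv : ∀ (K : Type) [Field K] (x : K), x ^ e = 1 → (x ^ i)⁻¹ = x ^ ((e - 1) * i) := by
      intro K _ x hx
      refine inv_eq_of_mul_eq_one_left ?_
      rw [← pow_add, ← Nat.succ_mul, show Nat.succ (e - 1) = e by omega, pow_mul, hx, one_pow]
    have hO1 : ∑ j ∈ Finset.range e, (w ^ ((e - 1) * i)) ^ j * (R (D.a ^ j)).trace =
        (e : O) * (N : O) := by
      refine Subtype.ext ?_
      push_cast
      simp only [hQtr, hw]
      rw [← hinv ℂ ω hω.pow_eq_one, hmult (ω ^ i) (by
        rw [← pow_mul, mul_comm, pow_mul, hω.pow_eq_one, one_pow])]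
      congr 1
      simp only [hN, (hsolve i).1, (hsolve i).2]
    have h1 := natCast_finrank_eigenspace (σ D.a) hek hA (ν := residue O w ^ i) hν
    have h2 : (e : ResidueField O) *
        (finrank (ResidueField O) (Module.End.eigenspace (σ D.a) (residue O w ^ i)) : ResidueField O) =
        (e : ResidueField O) * (N : ResidueField O) := by
      rw [h1, ← map_natCast (residue O) e, ← map_natCast (residue O) N, ← map_mul, ← hO1, map_sum]
      refine Finset.sum_congr rfl fun j _ => ?_
      rw [map_mul, map_pow (residue O), map_pow (residue O), ← hinv _ (residue O w) hwk.pow_eq_one,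
        ← hσtr, map_pow σ]
    have h3 := (CharP.natCast_eq_natCast (ResidueField O) p).1 (mul_left_cancel₀ hek h2)
    have hle : finrank (ResidueField O) (Module.End.eigenspace (σ D.a) (residue O w ^ i)) ≤ p + 1 :=
      (Submodule.finrank_le _).trans (le_of_eq (finrank_fin_fun _))
    have hN2 : D.f ≤ N ∧ N ≤ D.f + 1 := by
      simp only [hN]
      split_ifs with h4 h5 <;> try omega
      exfalso
      refine hl2 ?_
      have hl0 : l ≠ 0 := pow_ne_zero _ (hwk.ne_zero he0.ne')
      conv_lhs => arg 2; rw [h4.symm.trans h5]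
      exact mul_inv_cancel₀ hl0
    have hf2 : 2 ≤ D.f := by
      obtain ⟨q, hq⟩ := D.even_f
      have hpf : p = e * D.f + 1 := D.card_eq
      have := hp.out.two_le
      rcases Nat.eq_zero_or_pos D.f with h | h
      · rw [h, mul_zero] at hpf; omega
      · omega
    have hNp : N < p := by
      have hpf : p = e * D.f + 1 := D.card_eq
      have h5 : 3 * D.f ≤ e * D.f := Nat.mul_le_mul_right _ he3
      omega
    rcases Nat.lt_or_ge (finrank (ResidueField O)
        (Module.End.eigenspace (σ D.a) (residue O w ^ i))) p with h | h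
    · exact h3.eq_of_lt_of_lt h hNp
    · exfalso
      rcases (show finrank (ResidueField O) (Module.End.eigenspace (σ D.a) (residue O w ^ i)) = p ∨
          finrank (ResidueField O) (Module.End.eigenspace (σ D.a) (residue O w ^ i)) = p + 1 by omega)
        with h4 | h4 <;> rw [h4] at h3
      · have h5 : N ≡ 0 [MOD p] := h3.symm.trans (Nat.modEq_zero_iff_dvd.2 dvd_rfl)
        have := Nat.le_of_dvd (by omega) (Nat.modEq_zero_iff_dvd.1 h5)
        omega
      · have h5 : N ≡ 1 [MOD p] :=
          h3.symm.trans (by rw [Nat.ModEq, Nat.add_mod_left])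
        have := Nat.ModEq.eq_of_lt_of_lt h5 hNp hp.out.one_lt
        omega
  have hinj : Function.Injective σ := by
    refine (MonoidHom.ker_eq_bot_iff σ).1 ((D.simple σ.ker inferInstance).resolve_right fun h => ?_)
    have h1 : σ D.a = 1 := MonoidHom.mem_ker.1 (h ▸ Subgroup.mem_top D.a)
    have h2 := hmk 1 (one_pow _)
    rw [h1, show Module.End.eigenspace (1 : Module.End (ResidueField O)
        (Fin (p + 1) → ResidueField O)) (1 : ResidueField O) = ⊤ by
      ext v; simp [Module.End.mem_eigenspace_iff], finrank_top, finrank_fin_fun] at h2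
    have hpf : p = e * D.f + 1 := D.card_eq
    have := hp.out.two_le
    have h5 : 3 * D.f ≤ e * D.f := Nat.mul_le_mul_right _ h3
    split_ifs at h2 <;> omega
  -- the invariant form
  have hR : H26.conjIrr φ = φ := Subtype.ext (funext hreal)
  have hsq := H26.sum_sq_eq_ite φ
  rw [if_pos hR] at hsq
  let S : Fin (p + 1) → Fin (p + 1) → Matrix (Fin (p + 1)) (Fin (p + 1)) O := fun i j =>
    ∑ g : G, (R g)ᵀ * Matrix.single i j 1 * R g
  obtain ⟨i, j, hij⟩ : ∃ i j, S i j ≠ 0 := by
    by_contra hcon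
    push Not at hcon
    refine one_ne_zero (hsq.symm.trans (mul_eq_zero_of_right _ ?_))
    simp only [← hQtr]
    have h : ∑ g : G, (R g).trace * (R g).trace = 0 := by
      simp only [Matrix.trace, Matrix.diag, Finset.sum_mul, Finset.mul_sum]
      rw [Finset.sum_comm]
      refine Finset.sum_eq_zero fun a _ => ?_
      rw [Finset.sum_comm]
      refine Finset.sum_eq_zero fun b _ => ?_
      have h2 := congrFun (congrFun (hcon a b) a) b
      simp only [S] at h2
      rw [Matrix.sum_apply] at h2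
      simpa [Matrix.mul_apply, Matrix.single_apply, Matrix.transpose_apply, ite_and, mul_comm] using h2
    exact_mod_cast h
  have hSinv : ∀ h, (R h)ᵀ * S i j * R h = S i j := by
    intro h
    simp only [S, Finset.mul_sum, Finset.sum_mul]
    refine Fintype.sum_equiv (Equiv.mulRight h) _ _ fun g => ?_
    rw [Equiv.coe_mulRight, map_mul, Matrix.transpose_mul]
    simp only [mul_assoc]
  -- normalize
  obtain ⟨ab, -, hab⟩ := Finset.exists_max_image (Finset.univ : Finset (Fin (p + 1) × Fin (p + 1)))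
    (fun ab => O.valuation ((S i j ab.1 ab.2 : O) : ℂ)) Finset.univ_nonempty
  set u : ℂ := ((S i j ab.1 ab.2 : O) : ℂ) with hu
  have hu0 : u ≠ 0 := by
    intro h0
    refine hij (Matrix.ext fun a b => Subtype.ext ?_)
    have h1 := hab (a, b) (Finset.mem_univ _)
    rw [h0, map_zero, le_zero_iff, map_eq_zero] at h1
    exact h1
  let B₀ : Matrix (Fin (p + 1)) (Fin (p + 1)) O := Matrix.of fun a b =>
    ⟨((S i j a b : O) : ℂ) / u, by
      rw [← O.valuation_le_one_iff, map_div₀]
      exact div_le_one_of_le₀ (hab (a, b) (Finset.mem_univ _)) zero_le⟩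
  have hB₀ : ∀ h, (R h)ᵀ * B₀ * R h = B₀ := by
    intro h
    refine Matrix.ext fun a b => Subtype.ext ?_
    have h1 : (((((R h)ᵀ * S i j * R h) a b : O)) : ℂ) = ((S i j a b : O) : ℂ) := by rw [hSinv h]
    simp only [Matrix.mul_apply, Matrix.transpose_apply] at h1 ⊢
    push_cast at h1 ⊢
    simp only [B₀, Matrix.of_apply, ← h1, Finset.sum_div, Finset.sum_mul]
    refine Finset.sum_congr rfl fun c _ => Finset.sum_congr rfl fun d _ => ?_
    ring
  set red := H31.Defect.red O (Fin (p + 1)) with hred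
  refine ⟨ResidueField O, inferInstance, hAC, hcp, σ, l,
    Matrix.toLinearMap₂' (ResidueField O) (red B₀), hinj, ?_, hl2, hmk, ?_, ?_⟩
  · rw [hl, ← pow_mul, mul_comm, pow_mul, hwk.pow_eq_one, one_pow]
  · intro h0
    have h1 : red B₀ ab.1 ab.2 = 0 := by
      have := LinearMap.congr_fun₂ h0 (Pi.single ab.1 1) (Pi.single ab.2 1)
      simpa [Matrix.toLinearMap₂'_apply', Matrix.mulVec_single, single_dotProduct] using this
    have h2 : B₀ ab.1 ab.2 = 1 := Subtype.ext (by simp [B₀, ← hu, hu0])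
    rw [hred, H31.Defect.red, RingHom.mapMatrix_apply, Matrix.map_apply, h2, map_one] at h1
    exact one_ne_zero h1
  · intro g v v'
    rw [Matrix.toLinearMap₂'_apply', Matrix.toLinearMap₂'_apply',
      show σ g v = red (R g) *ᵥ v from rfl, show σ g v' = red (R g) *ᵥ v' from rfl]
    have h1 : (red (R g))ᵀ * red B₀ * red (R g) = red B₀ := by
      have : (red (R g))ᵀ = red (R g)ᵀ := by simp [hred, H31.Defect.red, Matrix.transpose_map]
      rw [this, ← map_mul, ← map_mul, hB₀]
    conv_rhs => rw [← h1, ← Matrix.mulVec_mulVec, ← Matrix.mulVec_mulVec, Matrix.dotProduct_mulVec,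
      Matrix.vecMul_transpose]

end Cfsg.Agent.H42.PrimeDegree
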