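import Mathlib
import Cfsg.Agent.H42.PrimeDegree.Halves
import Cfsg.Agent.H42.PrimeDegree.Induced
import Cfsg.Agent.H42.PrimeDegree.Factors
import Cfsg.Agent.H42.PrimeDegree.Lattice
import Cfsg.Agent.S0806
import Cfsg.Agent.S4706
import Cfsg.Agent.S0252
import Cfsg.Agent.S0253

/-!
# Transitive groups of prime degree with a trivial intersection complement
-/

set_option autoImplicit false
set_option maxHeartbeats 1000000
set_option maxSynthPendingDepth 3
set_option linter.unusedSectionVars false

namespace Cfsg.Agent.H42.PrimeDegree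

open Module Cfsg.Agent.H43.D1

attribute [local instance] Fintype.ofFinite

variable {p : ℕ} [hp : Fact p.Prime] {G : Type*} [Group G] [Finite G]

theorem P_not_normal (D : Datum p G) : ¬ D.P.Normal := by
  intro hn
  rcases D.simple D.P hn with h | h
  · exact D.x_ne_one (Subgroup.mem_bot.1 (h ▸ Subgroup.mem_zpowers D.x))
  · have hbot : ∀ l ∈ D.L, l = 1 := fun l hl => by
      refine D.inf_eq_one hl ?_
      rw [h]
      exact Subgroup.mem_top l
    have h2 := D.two_le
    rw [(Subgroup.eq_bot_iff_forall D.L).2 hbot, Subgroup.card_bot] at h2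
    omega

/-- A small module gives `PSL(2, p)`. -/
theorem psl_of_small (D : Datum p G) (h5 : 5 ≤ p) {k : Type} [Field k] [IsAlgClosed k] [CharP k p]
    {U : Type} [AddCommGroup U] [Module k U] [FiniteDimensional k U] (τ : G →* Module.End k U)
    (hirr : IsIrred τ) (hτx : τ D.x ≠ 1) (hd : 2 * finrank k U ≤ p) :
    Nonempty (G ≃* Matrix.ProjectiveSpecialLinearGroup (Fin 2) (ZMod p)) := by
  classical
  have hscal : ∀ v : D.V, ∃ c : k, τ ((v : D.L) : G) = c • 1 := fun v => by
    refine ⟨1, ?_⟩
    have h1 : ((v : D.L) : G) = 1 := D.act_inj _ (v : D.L).2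
      (mul_inv_eq_iff_eq_mul.2 (D.commute_of_mem_V v.2))
    rw [h1, map_one, one_smul]
  obtain ⟨Y, hYinv, hYdim, hYnd, y₀, hy₀, hy₀2⟩ :=
    SmallFaithful.exists_three D.toSetup τ hirr hd hτx hscal
  set σ : G →* Module.End k Y := restrictRep (adjRep τ) Y hYinv with hσ
  have hσa : ∀ g (y : Y), ((σ g y : Y) : Module.End k U) = adjRep τ g y := fun g y => rfl
  have hinj : Function.Injective σ := by
    rw [← MonoidHom.ker_eq_bot_iff]
    refine (D.simple σ.ker inferInstance).resolve_right fun h => hy₀2 ?_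
    have h1 := congrArg Subtype.val (LinearMap.congr_fun
      (MonoidHom.mem_ker.1 (h ▸ Subgroup.mem_top D.x : D.x ∈ σ.ker)) ⟨y₀, hy₀⟩)
    rw [hσa] at h1
    have h2 : delta (adjRep τ) D.x y₀ = 0 := by
      rw [delta, LinearMap.sub_apply, Module.End.one_apply]
      exact sub_eq_zero.2 h1
    rw [sq, Module.End.mul_apply, h2, map_zero]
  set B : Y →ₗ[k] Y →ₗ[k] k :=
    ((LinearMap.mul k (Module.End k U)).compr₂ (LinearMap.trace k U)).compl₁₂ Y.subtype Y.subtype
    with hB
  have h2k : (2 : k) ≠ 0 := fun h2 => by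
    have := Nat.le_of_dvd (by omega) ((CharP.cast_eq_zero_iff k p 2).1 (by exact_mod_cast h2))
    omega
  have hquad : SmallFaithful.IsQuad B := ⟨h2k, hYdim, fun v w => LinearMap.trace_mul_comm k _ _,
    fun v hv => Subtype.ext (hYnd v v.2 fun z hz => hv ⟨z, hz⟩)⟩
  have hinv : ∀ g v w, B (σ g v) (σ g w) = B v w := fun g v w =>
    SmallFaithful.trace_adjRep τ g v w
  have hx2 : (σ D.x - 1) ^ 2 ≠ 0 := by
    intro h
    refine hy₀2 ?_
    have h1 := congrArg Subtype.val (LinearMap.congr_fun h ⟨y₀, hy₀⟩)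
    rw [sq, Module.End.mul_apply] at h1
    rw [sq, Module.End.mul_apply]
    simpa [delta, hσa] using h1
  have hbound : 2 * Nat.card D.L + 1 ≤ p := by
    obtain ⟨c, hc⟩ := D.even_f
    have h := D.card_eq
    have hc0 : 0 < c := by
      rcases Nat.eq_zero_or_pos c with rfl | hc0
      · rw [hc] at h; omega
      · exact hc0
    rw [hc] at h
    nlinarith
  obtain ⟨h1, h2, h3, h4⟩ := SmallFaithful.rotation_group σ hinj B hquad hinv D.perfect D.toSetup h5
    hx2 hbound (P_not_normal D)
  exact SmallFaithful.psl_of_count D.perfect D.toSetup h5 h1 h2 h3 h4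

/-- The case of a complement of order at least three. -/
theorem psl_of_three [Fintype G] (D : Datum p G) (h3 : 3 ≤ Nat.card D.L)
    (huniq : ∃! χ : Cfsg.IrrCharacter G, Cfsg.charDegree (χ : G → ℂ) = p)
    (hNE : Nat.card (Subgroup.normalizer (D.L : Set G)) = 2 * Nat.card D.L)
    (hTI : ∀ g : G, g ∉ Subgroup.normalizer (D.L : Set G) →
      D.L ⊓ D.L.map (MulAut.conj g).toMonoidHom = ⊥) :
    Nonempty (G ≃* Matrix.ProjectiveSpecialLinearGroup (Fin 2) (ZMod p)) := by
  classical
  obtain ⟨ζ, φ, hζ, hζne, hreal, hdeg, hmult⟩ := exists_real_char D h3 huniq hNE hTI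
  obtain ⟨k, _, _, _, ρ, l, B, hinj, hl, hl2, heig, hB, hinv⟩ :=
    exists_modular D h3 hζ hζne hreal hdeg hmult
  obtain ⟨c, hc⟩ := D.even_f
  have hce := D.card_eq
  have hp7 : 7 ≤ p := by
    rcases Nat.eq_zero_or_pos c with rfl | hc0
    · have := hp.out.two_le
      rw [hc] at hce; omega
    · rw [hc] at hce; nlinarith
  have hsmall : ∃ (U : Type) (_ : AddCommGroup U) (_ : Module k U) (_ : FiniteDimensional k U)
      (σ : G →* Module.End k U), IsIrred σ ∧ σ D.x ≠ 1 ∧ 2 * finrank k U ≤ p := by
    by_contra hno'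
    have hno : NoSmall D k := by
      intro U _ _ _ τ hτ hτx
      by_contra hlt
      exact hno' ⟨U, inferInstance, inferInstance, inferInstance, τ, hτ, hτx, by omega⟩
    have hdim : finrank k (Fin (p + 1) → k) = p + 1 := finrank_fin_fun k
    have hirr := not_irred D ρ B hinv hdim hB hl2 heig
    obtain ⟨V, _, _, _, τ, μ, w, h, hτ, hτx, hV, hph, hdvd, hμ, hμe, hw, htop⟩ :=
      exists_half D hno ρ hdim h3 hl2 hl heig hirr
    obtain ⟨U, i1, i2, i3, σ, hσ, hσx, hσd⟩ :=
      exists_small_of_half D h3 τ hτ hV hph hdvd hμ hμe hw htop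
    have := hno U σ hσ hσx
    omega
  obtain ⟨U, _, _, _, σ, hσ, hσx, hσd⟩ := hsmall
  exact psl_of_small D (by omega) σ hσ hσx hσd

/-- In characteristic two every involution of `SL₂(F)` has at least `|F|` elements in its
centralizer. -/
theorem card_le_card_centralizer_sl {F : Type*} [Field F] [Fintype F] (h2 : (2 : F) = 0)
    {A : Matrix.SpecialLinearGroup (Fin 2) F} (hA : A ≠ 1) (hA2 : A * A = 1) :
    Fintype.card F ≤ Nat.card (Subgroup.centralizer ({A} : Set (Matrix.SpecialLinearGroup (Fin 2) F))) := by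
  set M : Matrix (Fin 2) (Fin 2) F := (A : Matrix (Fin 2) (Fin 2) F) with hM
  set N : Matrix (Fin 2) (Fin 2) F := M - 1 with hN
  have hMM : M * M = 1 := congrArg Subtype.val hA2
  have hadd : ∀ t : Matrix (Fin 2) (Fin 2) F, t + t = 0 := fun t => by
    rw [← two_smul F t, h2, zero_smul]
  have hNN : N * N = 0 := by
    calc N * N = M * M + 1 - (M + M) := by rw [hN]; noncomm_ring
      _ = 0 := by rw [hMM, hadd, hadd, sub_zero]
  have hN0 : N ≠ 0 := fun h => hA (Subtype.ext (sub_eq_zero.1 h))
  have hdet0 : N.det = 0 := by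
    have h := congrArg Matrix.det hNN
    rw [Matrix.det_mul, Matrix.det_zero] at h
    exact mul_self_eq_zero.1 h
  have htr : N 0 0 + N 1 1 = 0 := by
    have h00 := congrFun (congrFun hNN 0) 0
    have h11 := congrFun (congrFun hNN 1) 1
    rw [Matrix.mul_apply, Fin.sum_univ_two, Matrix.zero_apply] at h00 h11
    have hd := hdet0
    rw [Matrix.det_fin_two] at hd
    refine mul_self_eq_zero.1 ?_
    linear_combination h00 + h11 + 2 * hd
  have hdet : ∀ b : F, (1 + b • N).det = 1 := fun b => by
    have hd := hdet0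
    rw [Matrix.det_fin_two] at hd ⊢
    simp only [Matrix.add_apply, Matrix.smul_apply, smul_eq_mul, Matrix.one_apply_eq,
      Matrix.one_apply_ne (by decide : (0 : Fin 2) ≠ 1),
      Matrix.one_apply_ne (by decide : (1 : Fin 2) ≠ 0)]
    linear_combination b * htr + b * b * hd
  let f : F → Subgroup.centralizer ({A} : Set (Matrix.SpecialLinearGroup (Fin 2) F)) := fun b =>
    ⟨(⟨1 + b • N, hdet b⟩ : Matrix.SpecialLinearGroup (Fin 2) F), by
      refine Subgroup.mem_centralizer_iff.2 fun z hz => ?_
      obtain rfl := Set.mem_singleton_iff.1 hz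
      refine Subtype.ext ?_
      show M * (1 + b • N) = (1 + b • N) * M
      have hc : N * M = M * N := by rw [hN]; noncomm_ring
      rw [add_mul, mul_add, one_mul, mul_one, smul_mul_assoc, mul_smul_comm, hc]⟩
  have hf : Function.Injective f := by
    intro b b' h
    have h1 : 1 + b • N = 1 + b' • N := congrArg (fun z => z.1.1) h
    rw [add_right_inj] at h1
    by_contra hne
    refine hN0 ?_
    have h3 : (b - b') • N = 0 := by rw [sub_smul, h1, sub_self]
    exact (smul_eq_zero.1 h3).resolve_left (sub_ne_zero.2 hne)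
  rw [← Nat.card_eq_fintype_card]
  exact Nat.card_le_card_of_injective f hf

/-- The main theorem. -/
theorem main {α : Type*} [Fintype α] [DecidableEq α] (hα : Fintype.card α = p)
    (G : Subgroup (Equiv.Perm α)) [MulAction.IsPretransitive G α]
    (huniq : ∃! χ : Cfsg.IrrCharacter G, Cfsg.charDegree (χ : G → ℂ) = p) (P : Sylow p G)
    (E : Subgroup G)
    (hPE : (P : Subgroup G) ⊔ E = Subgroup.normalizer ((P : Subgroup G) : Set G))
    (hPE' : (P : Subgroup G) ⊓ E = ⊥)
    (hNE : Nat.card (Subgroup.normalizer (E : Set G)) = 2 * Nat.card E)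
    (hTI : ∀ g : G, g ∉ Subgroup.normalizer (E : Set G) →
      E ⊓ E.map (MulAut.conj g).toMonoidHom = ⊥) :
    (p = 5 ∨ p = 7 ∨ p = 11) ∧
      Nonempty (G ≃* Matrix.ProjectiveSpecialLinearGroup (Fin 2) (ZMod p)) := by
  classical
  obtain ⟨h5, D, hDP, hDL⟩ := exists_datum hα G huniq P E hPE hPE' hNE
  have hiso : Nonempty (G ≃* Matrix.ProjectiveSpecialLinearGroup (Fin 2) (ZMod p)) := by
    rcases eq_or_lt_of_le D.two_le with he2 | he3
    · -- the complement has order two
      rw [hDL] at he2
      have hN : Nat.card (Subgroup.normalizer ((P : Subgroup G) : Set G)) = 2 * p := by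
        rw [← hDP, ← D.N_eq_normalizer]
        have hbij : Function.Bijective (fun q : D.L × D.P =>
            (⟨(q.1 : G) * q.2, D.mem_N_iff.2 ⟨q.1, q.1.2, q.2, q.2.2, rfl⟩⟩ : D.N)) := by
          constructor
          · rintro ⟨l, u⟩ ⟨l', u'⟩ h
            obtain ⟨h1, h2⟩ := D.mul_unique l.2 l'.2 u.2 u'.2 (congrArg Subtype.val h)
            exact Prod.ext (Subtype.ext h1) (Subtype.ext h2)
          · rintro ⟨g, hg⟩
            obtain ⟨l, hl, u, hu, rfl⟩ := D.mem_N_iff.1 hg
            exact ⟨⟨⟨l, hl⟩, ⟨u, hu⟩⟩, rfl⟩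
        rw [← Nat.card_eq_of_bijective _ hbij, Nat.card_prod, hDL, ← he2, D.card_P]
      rcases Cfsg.Agent.S4706.result (by omega) hα G P hN with hn | ⟨a, F, iF, iFt, hpa, hF, ⟨f⟩⟩
      · exact absurd (hDP ▸ hn) (P_not_normal D)
      have h2 : (2 : F) = 0 := by
        have h1 : ((2 ^ a : ℕ) : F) = 0 := by rw [← hF]; exact Nat.cast_card_eq_zero F
        rw [Nat.cast_pow] at h1
        exact_mod_cast eq_zero_of_pow_eq_zero h1
      have : Nontrivial E := Finite.one_lt_card_iff_nontrivial.1 (by omega)
      obtain ⟨⟨t, ht⟩, ht1⟩ := exists_ne (1 : E)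
      have ht2 : t * t = 1 := by
        have h1 : (⟨t, ht⟩ : E) ^ 2 = 1 := by rw [he2]; exact pow_card_eq_one'
        rw [sq] at h1
        exact congrArg Subtype.val h1
      have ht0 : t ≠ 1 := fun h => ht1 (Subtype.ext h)
      have hEt : ∀ u ∈ E, u = 1 ∨ u = t := by
        intro u hu
        by_contra hne
        rw [not_or] at hne
        have h3 : ({1, ⟨t, ht⟩, ⟨u, hu⟩} : Finset E).card = 3 := by
          rw [Finset.card_insert_of_notMem, Finset.card_pair]
          · exact fun h => hne.2 (congrArg Subtype.val h).symm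
          · simp only [Finset.mem_insert, Finset.mem_singleton, not_or]
            exact ⟨fun h => ht1 h.symm, fun h => hne.1 (congrArg Subtype.val h).symm⟩
        have h4 := Finset.card_le_univ ({1, ⟨t, ht⟩, ⟨u, hu⟩} : Finset E)
        rw [h3, ← Nat.card_eq_fintype_card] at h4
        omega
      have hle : Subgroup.centralizer ({t} : Set G) ≤ Subgroup.normalizer (E : Set G) := by
        intro g hg
        rw [Subgroup.mem_centralizer_singleton_iff] at hg
        rw [Subgroup.mem_normalizer_iff]
        intro u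
        constructor
        · intro hu
          rcases hEt u hu with rfl | rfl
          · rw [mul_one, mul_inv_cancel]; exact E.one_mem
          · rw [hg, mul_inv_cancel_right]; exact hu
        · intro hu
          rcases hEt _ hu with h | h
          · rw [mul_inv_eq_one, mul_eq_left] at h
            rw [h]; exact E.one_mem
          · rw [mul_inv_eq_iff_eq_mul, ← hg, mul_right_inj] at h
            rw [h]; exact ht
      have hcard := card_le_card_centralizer_sl h2 (A := f t)
        (fun h => ht0 (f.injective (h.trans (map_one f).symm))) (by rw [← map_mul, ht2, map_one])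
      have hinjc : Nat.card (Subgroup.centralizer ({f t} : Set (Matrix.SpecialLinearGroup (Fin 2) F))) ≤
          Nat.card (Subgroup.centralizer ({t} : Set G)) := by
        refine Nat.card_le_card_of_injective (fun z => ⟨f.symm z, ?_⟩) fun z z' h =>
          Subtype.ext (f.symm.injective (congrArg Subtype.val h))
        rw [Subgroup.mem_centralizer_singleton_iff]
        refine f.injective ?_
        rw [map_mul, map_mul, MulEquiv.apply_symm_apply]
        exact Subgroup.mem_centralizer_singleton_iff.1 z.2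
      have hle4 : 2 ^ a ≤ 4 := by
        have := Subgroup.card_le_of_le hle
        rw [hNE, ← he2] at this
        omega
      have hp5 : p = 5 := by omega
      subst hp5
      obtain ⟨e1⟩ := Cfsg.Agent.S4706.psl_equiv_sl (F := F) (by
        exact CharP.ringChar_of_prime_eq_zero Nat.prime_two (by exact_mod_cast h2))
      obtain ⟨e2⟩ := Cfsg.Agent.S0252.result (F := F) (by omega)
      obtain ⟨e3⟩ := Cfsg.Agent.S0253.result (F := ZMod 5) (ZMod.card 5)
      exact ⟨((f.trans e1.symm).trans e2).trans e3.symm⟩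
    · exact psl_of_three D he3 huniq (by rw [hDL]; exact hNE) (by rw [hDL]; exact hTI)
  refine ⟨?_, hiso⟩
  obtain ⟨f⟩ := hiso
  by_contra hnot
  have hmem : p ∉ ({2, 3, 5, 7, 9, 11} : Finset ℕ) := by
    simp only [Finset.mem_insert, Finset.mem_singleton]
    rintro (h | h | h | h | h | h)
    · omega
    · omega
    · exact hnot (Or.inl h)
    · exact hnot (Or.inr (Or.inl h))
    · exact absurd (h ▸ hp.out : Nat.Prime 9) (by decide)
    · exact hnot (Or.inr (Or.inr h))
  obtain ⟨i₀⟩ : Nonempty α := Fintype.card_pos_iff.1 (by omega)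
  have hidx : (MulAction.stabilizer G i₀).index = p := by
    rw [MulAction.index_stabilizer_of_transitive, Nat.card_eq_fintype_card, hα]
  have hmap : ((MulAction.stabilizer G i₀).map f.toMonoidHom).index = p := by
    refine Eq.trans ?_ hidx
    exact Subgroup.index_map_equiv _ f
  have := (Cfsg.Agent.S0806.result (F := ZMod p) (ZMod.card p) hmem).1
    ((MulAction.stabilizer G i₀).map f.toMonoidHom) (fun h => by
    rw [h, Subgroup.index_top] at hmap
    omega)
  omega

end Cfsg.Agent.H42.PrimeDegree
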